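import Mathlib

/-!
# The homomorphism `SL_2(F) → GL_n(F)` attached to a hyperbolic pair (helper94, for `S5798`)

For vectors `u, v` and functionals `φ, ψ` with `φ u = 0`, `ψ v = 0`, `φ v = 1`, `ψ u = 1` the four
rank-one matrices `u ψ, u φ, v ψ, v φ` multiply like matrix units, so
`A ↦ 1 + (A₀₀ - 1) uψ + A₀₁ uφ + A₁₀ vψ + (A₁₁ - 1) vφ` is multiplicative.
-/

set_option autoImplicit false

namespace Cfsg.Agent.Lib.Helper94.S6

open Matrix

/-- The matrix attached to a `2 × 2` matrix and the data `u, v, φ, ψ`. -/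
def rhoMat {ι : Type} [Fintype ι] [DecidableEq ι] {F : Type*} [Field F] (u v φ ψ : ι → F)
    (A : Matrix (Fin 2) (Fin 2) F) : Matrix ι ι F :=
  1 + (A 0 0 - 1) • vecMulVec u ψ + A 0 1 • vecMulVec u φ + A 1 0 • vecMulVec v ψ +
    (A 1 1 - 1) • vecMulVec v φ

theorem rhoMat_one {ι : Type} [Fintype ι] [DecidableEq ι] {F : Type*} [Field F]
    (u v φ ψ : ι → F) : rhoMat u v φ ψ 1 = 1 := by
  simp [rhoMat]

theorem rhoMat_mul {ι : Type} [Fintype ι] [DecidableEq ι] {F : Type*} [Field F]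
    (u v φ ψ : ι → F) (hφu : φ ⬝ᵥ u = 0) (hψv : ψ ⬝ᵥ v = 0) (hφv : φ ⬝ᵥ v = 1)
    (hψu : ψ ⬝ᵥ u = 1) (A B : Matrix (Fin 2) (Fin 2) F) :
    rhoMat u v φ ψ (A * B) = rhoMat u v φ ψ A * rhoMat u v φ ψ B := by
  have h00 : (A * B) 0 0 = A 0 0 * B 0 0 + A 0 1 * B 1 0 := by
    rw [Matrix.mul_apply, Fin.sum_univ_two]
  have h01 : (A * B) 0 1 = A 0 0 * B 0 1 + A 0 1 * B 1 1 := by
    rw [Matrix.mul_apply, Fin.sum_univ_two]
  have h10 : (A * B) 1 0 = A 1 0 * B 0 0 + A 1 1 * B 1 0 := by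
    rw [Matrix.mul_apply, Fin.sum_univ_two]
  have h11 : (A * B) 1 1 = A 1 0 * B 0 1 + A 1 1 * B 1 1 := by
    rw [Matrix.mul_apply, Fin.sum_univ_two]
  unfold rhoMat
  rw [h00, h01, h10, h11]
  simp only [Matrix.mul_add, Matrix.add_mul, Matrix.mul_one, Matrix.one_mul, Matrix.smul_mul,
    Matrix.mul_smul, Matrix.vecMulVec_mul_vecMulVec, hφu, hψv, hφv, hψu, zero_smul, one_smul,
    Matrix.vecMulVec_zero, smul_zero, add_zero]
  module

/-- piece S6-RHO. -/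
theorem exists_rho {ι : Type} [Fintype ι] [DecidableEq ι] {F : Type*} [Field F]
    (u v φ ψ : ι → F) (hφu : φ ⬝ᵥ u = 0) (hψv : ψ ⬝ᵥ v = 0) (hφv : φ ⬝ᵥ v = 1)
    (hψu : ψ ⬝ᵥ u = 1) :
    ∃ ρ : Matrix.SpecialLinearGroup (Fin 2) F →* Matrix.GeneralLinearGroup ι F,
      ∀ A : Matrix.SpecialLinearGroup (Fin 2) F,
        ((ρ A : Matrix.GeneralLinearGroup ι F) : Matrix ι ι F) =
          1 + (A 0 0 - 1) • Matrix.vecMulVec u ψ + A 0 1 • Matrix.vecMulVec u φ +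
            A 1 0 • Matrix.vecMulVec v ψ + (A 1 1 - 1) • Matrix.vecMulVec v φ := by
  let f : Matrix.SpecialLinearGroup (Fin 2) F →* Matrix ι ι F :=
    { toFun := fun A => rhoMat u v φ ψ (A : Matrix (Fin 2) (Fin 2) F)
      map_one' := by
        rw [Matrix.SpecialLinearGroup.coe_one]
        exact rhoMat_one u v φ ψ
      map_mul' := fun A B => by
        rw [Matrix.SpecialLinearGroup.coe_mul]
        exact rhoMat_mul u v φ ψ hφu hψv hφv hψu _ _ }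
  refine ⟨f.toHomUnits, fun A => ?_⟩
  rw [MonoidHom.coe_toHomUnits]
  rfl

end Cfsg.Agent.Lib.Helper94.S6
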