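import Mathlib
import Cfsg.Prelude.Def_GeometricClasses
import Cfsg.Prelude.Def_LieClassical
import Cfsg.Agent.Lib.Helper71.Asch0
import Cfsg.Agent.Lib.Helper71.Asch5
import Cfsg.Agent.Lib.Helper71.Asch8
import Cfsg.Agent.Lib.Helper86.ASB8Defs
import Cfsg.Agent.Lib.Helper34.ASB8MU
import Cfsg.Agent.Lib.Helper71.ASB8PT
import Cfsg.Agent.Lib.Helper83.ASB8SC
import Cfsg.Agent.Lib.Helper83.ASB8INN

/-! Project SPG (helper71), sub-project TIF, piece T1c. -/

set_option autoImplicit false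

namespace Cfsg.Agent.Lib.Helper94.TIFT1c

open Matrix Cfsg.Geo Cfsg.Agent.Lib.Helper71.Asch

variable {n : ℕ} {F : Type*} [Field F] [Fintype F]

/-- the matrix permuting the `k` tensor factors according to `σ` (as in `IsFactorPermutation`) -/
def permM (m : ℕ) {k : ℕ} (σ : Equiv.Perm (Fin k)) : Matrix (Fin k → Fin m) (Fin k → Fin m) F :=
  Matrix.of fun x y => if y = x ∘ σ then 1 else 0

theorem T1c_permM_apply (m : ℕ) {k : ℕ} (τ : Equiv.Perm (Fin k)) (x y : Fin k → Fin m) :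
    (permM m τ : Matrix (Fin k → Fin m) (Fin k → Fin m) F) x y =
      if y = x ∘ τ then 1 else 0 := rfl

/-- `Helper34.ASB8FP.perm_conj` with the matrix exposed -/
theorem T1c_perm_conj {m k : ℕ} (σ : Equiv.Perm (Fin k)) :
    ∃ π : GL (Fin k → Fin m) F, π.1 = permM m σ ∧ IsFactorPermutation m k π ∧
      ∀ (i : Fin k) (A : Matrix (Fin m) (Fin m) F),
        π.1 * Cfsg.Agent.Lib.Helper86.ASB8.iota i A = Cfsg.Agent.Lib.Helper86.ASB8.iota (σ i) A * π.1 := by
  have hPl : ∀ (τ : Equiv.Perm (Fin k)) (M : Matrix (Fin k → Fin m) (Fin k → Fin m) F)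
      (x z : Fin k → Fin m),
      ((permM m τ : Matrix (Fin k → Fin m) (Fin k → Fin m) F) * M) x z = M (x ∘ τ) z := by
    intro τ M x z
    rw [Matrix.mul_apply, Finset.sum_eq_single (x ∘ τ)]
    · rw [T1c_permM_apply, if_pos rfl, one_mul]
    · intro b _ hb
      rw [T1c_permM_apply, if_neg hb, zero_mul]
    · intro h; exact absurd (Finset.mem_univ _) h
  have hPr : ∀ (τ : Equiv.Perm (Fin k)) (M : Matrix (Fin k → Fin m) (Fin k → Fin m) F)
      (x z : Fin k → Fin m),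
      (M * (permM m τ : Matrix (Fin k → Fin m) (Fin k → Fin m) F)) x z = M x (z ∘ τ.symm) := by
    intro τ M x z
    rw [Matrix.mul_apply, Finset.sum_eq_single (z ∘ τ.symm)]
    · have h0 : z = (z ∘ τ.symm) ∘ τ := by
        ext j; simp
      rw [T1c_permM_apply, if_pos h0, mul_one]
    · intro b _ hb
      have h0 : z ≠ b ∘ τ := by
        rintro rfl
        apply hb
        ext j; simp
      rw [T1c_permM_apply, if_neg h0, mul_zero]
    · intro h; exact absurd (Finset.mem_univ _) h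
  have hinv : ∀ τ : Equiv.Perm (Fin k),
      permM m τ * permM m τ.symm = (1 : Matrix (Fin k → Fin m) (Fin k → Fin m) F) := by
    intro τ
    ext x z
    rw [hPl, T1c_permM_apply, Matrix.one_apply]
    have h0 : (x ∘ τ) ∘ τ.symm = x := by
      ext j; simp
    rw [h0]
    by_cases h : x = z
    · rw [if_pos h, if_pos h.symm]
    · rw [if_neg h, if_neg (Ne.symm h)]
  have h1 : permM m σ * permM m σ.symm = (1 : Matrix (Fin k → Fin m) (Fin k → Fin m) F) :=
    hinv σ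
  have h2 : permM m σ.symm * permM m σ = (1 : Matrix (Fin k → Fin m) (Fin k → Fin m) F) := by
    have h3 := hinv σ.symm
    rwa [Equiv.symm_symm] at h3
  refine ⟨⟨permM m σ, permM m σ.symm, h1, h2⟩, rfl, ⟨σ, fun x y => ?_⟩, ?_⟩
  · show (permM m σ : Matrix (Fin k → Fin m) (Fin k → Fin m) F) x y = _
    exact T1c_permM_apply m σ x y
  · intro i A
    change permM m σ * Cfsg.Agent.Lib.Helper86.ASB8.iota i A = Cfsg.Agent.Lib.Helper86.ASB8.iota (σ i) A * permM m σ
    ext x z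
    rw [hPl, hPr, Cfsg.Agent.Lib.Helper86.ASB8.iota_apply, Cfsg.Agent.Lib.Helper86.ASB8.iota_apply]
    have hA : (z ∘ σ.symm) (σ i) = z i := by simp
    have hcond : (∀ j, j ≠ i → (x ∘ σ) j = z j) ↔ (∀ j, j ≠ σ i → x j = (z ∘ σ.symm) j) := by
      constructor
      · intro h j hj
        have h3 := h (σ.symm j) (by
          intro h'
          apply hj
          rw [← h']; simp)
        simpa using h3
      · intro h j hj
        have h3 := h (σ j) (by
          intro h'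
          exact hj (σ.injective h'))
        simpa using h3
    by_cases hc : ∀ j, j ≠ i → (x ∘ σ) j = z j
    · rw [if_pos hc, if_pos (hcond.mp hc), hA]
      rfl
    · rw [if_neg hc, if_neg (fun h => hc (hcond.mpr h))]

/-- T1c: an element permuting the factors `Ps i` according to `σ` is `P * g * Q` with
`g = pure tensor * factor permutation of σ` (proof of `Helper86.ASB8Main.norm_wreath` and the
end of `B8_of`, with the witnesses exposed). -/
theorem T1c {m k : ℕ} (hm : 2 ≤ m) (hk : 2 ≤ k) (P : Matrix (Fin n) (Fin k → Fin m) F)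
    (Q : Matrix (Fin k → Fin m) (Fin n) F) (hPQ : P * Q = 1) (hQP : Q * P = 1)
    (Ps : Fin k → Subgroup (GL (Fin n) F))
    (hsP : ∀ i (X : Matrix (Fin n) (Fin n) F), X ∈ Submodule.span F (matrixSet (Ps i)) ↔
      ∃ A : Matrix (Fin m) (Fin m) F, X = P * iota i A * Q)
    (h : GL (Fin n) F) (σ : Equiv.Perm (Fin k))
    (hσ : ∀ i, (Ps i).map (MulAut.conj h).toMonoidHom = Ps (σ i)) :
    ∃ (g : GL (Fin k → Fin m) F) (cs : Fin k → GL (Fin m) F), g ∈ tensorWreathStandard m k F ∧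
      h.1 = P * g.1 * Q ∧ g.1 = pt (fun i => (cs i).1) * permM m σ := by
  classical
  have hm1 : 1 ≤ m := by omega
  have hk1 : 1 ≤ k := by omega
  have hsP' : ∀ i (X : Matrix (Fin n) (Fin n) F), X ∈ Submodule.span F (matrixSet (Ps i)) ↔
      ∃ A : Matrix (Fin m) (Fin m) F, X = P * Cfsg.Agent.Lib.Helper86.ASB8.iota i A * Q := hsP
  have hg1 : Q * h.1 * P * (Q * (h⁻¹ : GL (Fin n) F).1 * P) = 1 := by
    calc Q * h.1 * P * (Q * (h⁻¹ : GL (Fin n) F).1 * P)
        = Q * (h.1 * (P * Q) * (h⁻¹ : GL (Fin n) F).1) * P := by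
          simp only [Matrix.mul_assoc]
      _ = 1 := by
          rw [hPQ, Matrix.mul_one, ← Units.val_mul, mul_inv_cancel, Units.val_one,
            Matrix.mul_one, hQP]
  have hg2 : Q * (h⁻¹ : GL (Fin n) F).1 * P * (Q * h.1 * P) = 1 := by
    calc Q * (h⁻¹ : GL (Fin n) F).1 * P * (Q * h.1 * P)
        = Q * ((h⁻¹ : GL (Fin n) F).1 * (P * Q) * h.1) * P := by
          simp only [Matrix.mul_assoc]
      _ = 1 := by
          rw [hPQ, Matrix.mul_one, ← Units.val_mul, inv_mul_cancel, Units.val_one,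
            Matrix.mul_one, hQP]
  obtain ⟨g, hgv, hgi⟩ : ∃ g : GL (Fin k → Fin m) F, g.1 = Q * h.1 * P ∧
      (g⁻¹ : GL (Fin k → Fin m) F).1 = Q * (h⁻¹ : GL (Fin n) F).1 * P :=
    ⟨⟨Q * h.1 * P, Q * (h⁻¹ : GL (Fin n) F).1 * P, hg1, hg2⟩, rfl, rfl⟩
  have hg : ∀ (i : Fin k) (A : Matrix (Fin m) (Fin m) F), ∃ A' : Matrix (Fin m) (Fin m) F,
      g.1 * Cfsg.Agent.Lib.Helper86.ASB8.iota i A * (g⁻¹ : GL (Fin k → Fin m) F).1 = Cfsg.Agent.Lib.Helper86.ASB8.iota (σ i) A' := by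
    intro i A
    have hX : P * Cfsg.Agent.Lib.Helper86.ASB8.iota i A * Q ∈ Submodule.span F (matrixSet (Ps i)) :=
      (hsP' i _).mpr ⟨A, rfl⟩
    have hconj : ∀ X ∈ Submodule.span F (matrixSet (Ps i)),
        h.1 * X * (h⁻¹ : GL (Fin n) F).1 ∈ Submodule.span F (matrixSet (Ps (σ i))) := by
      intro X hX
      induction hX using Submodule.span_induction with
      | mem X hX =>
        obtain ⟨x, hx, rfl⟩ := hX
        apply Submodule.subset_span
        refine ⟨h * x * h⁻¹, ?_, by simp⟩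
        rw [← hσ i]
        exact ⟨x, hx, by simp [MulAut.conj_apply]⟩
      | zero => simp
      | add X₁ X₂ _ _ h₁ h₂ =>
        rw [mul_add, add_mul]
        exact Submodule.add_mem _ h₁ h₂
      | smul c X₁ _ h₁ =>
        rw [Matrix.mul_smul, Matrix.smul_mul]
        exact Submodule.smul_mem _ c h₁
    obtain ⟨A', hA'⟩ := (hsP' (σ i) _).mp (hconj _ hX)
    refine ⟨A', ?_⟩
    rw [hgv, hgi]
    calc Q * h.1 * P * Cfsg.Agent.Lib.Helper86.ASB8.iota i A * (Q * (h⁻¹ : GL (Fin n) F).1 * P)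
        = Q * (h.1 * (P * Cfsg.Agent.Lib.Helper86.ASB8.iota i A * Q) * (h⁻¹ : GL (Fin n) F).1) * P := by
          simp only [Matrix.mul_assoc]
      _ = Q * (P * Cfsg.Agent.Lib.Helper86.ASB8.iota (σ i) A' * Q) * P := by rw [hA']
      _ = (Q * P) * Cfsg.Agent.Lib.Helper86.ASB8.iota (σ i) A' * (Q * P) := by simp only [Matrix.mul_assoc]
      _ = Cfsg.Agent.Lib.Helper86.ASB8.iota (σ i) A' := by rw [hQP, Matrix.one_mul, Matrix.mul_one]
  have hc : ∀ i, ∃ c : GL (Fin m) F, ∀ A : Matrix (Fin m) (Fin m) F,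
      g.1 * Cfsg.Agent.Lib.Helper86.ASB8.iota i A * (g⁻¹ : GL (Fin k → Fin m) F).1 =
        Cfsg.Agent.Lib.Helper86.ASB8.iota (σ i) (c.1 * A * (c⁻¹ : GL (Fin m) F).1) :=
    fun i => Cfsg.Agent.Lib.Helper83.ASB8INN.inner hm1 i (σ i) g (hg i)
      (fun E hE hcomm => Cfsg.Agent.Lib.Helper34.ASB8MU.mu_conj hm1 E hE hcomm)
  choose c hc using hc
  obtain ⟨t, ht, htc⟩ := Cfsg.Agent.Lib.Helper71.ASB8PT.pure_conj (fun j => c (σ.symm j))
  obtain ⟨π, hπM, hπ, hπc⟩ := T1c_perm_conj (F := F) (m := m) σ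
  have hg' : ∀ i A, g.1 * Cfsg.Agent.Lib.Helper86.ASB8.iota i A =
      Cfsg.Agent.Lib.Helper86.ASB8.iota (σ i) ((c i).1 * A * ((c i)⁻¹ : GL (Fin m) F).1) * g.1 := by
    intro i A
    rw [← hc i A, mul_assoc, ← Units.val_mul, inv_mul_cancel, Units.val_one, mul_one]
  have htπ : ∀ i A, (t * π).1 * Cfsg.Agent.Lib.Helper86.ASB8.iota i A =
      Cfsg.Agent.Lib.Helper86.ASB8.iota (σ i) ((c i).1 * A * ((c i)⁻¹ : GL (Fin m) F).1) * (t * π).1 := by
    intro i A
    have h1 := htc (σ i) A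
    simp only [Equiv.symm_apply_apply] at h1
    rw [Units.val_mul, mul_assoc, hπc i A, ← mul_assoc, h1, mul_assoc]
  have hucomm : ∀ i A, ((t * π)⁻¹ * g).1 * Cfsg.Agent.Lib.Helper86.ASB8.iota i A = Cfsg.Agent.Lib.Helper86.ASB8.iota i A * ((t * π)⁻¹ * g).1 := by
    intro i A
    have key : ∀ (X Xi ι' ι : Matrix (Fin k → Fin m) (Fin k → Fin m) F), X * Xi = 1 →
        Xi * X = 1 → X * ι = ι' * X → Xi * ι' = ι * Xi := by
      intro X Xi ι' ι h1 h2 h3
      calc Xi * ι' = Xi * (ι' * X) * Xi := by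
            rw [Matrix.mul_assoc, Matrix.mul_assoc, h1, Matrix.mul_one]
        _ = Xi * (X * ι) * Xi := by rw [h3]
        _ = ι * Xi := by rw [← Matrix.mul_assoc Xi X, h2, Matrix.one_mul]
    have h1 : ((t * π)⁻¹ : GL (Fin k → Fin m) F).1 *
        Cfsg.Agent.Lib.Helper86.ASB8.iota (σ i) ((c i).1 * A * ((c i)⁻¹ : GL (Fin m) F).1) =
        Cfsg.Agent.Lib.Helper86.ASB8.iota i A * ((t * π)⁻¹ : GL (Fin k → Fin m) F).1 :=
      key _ _ _ _ (by rw [← Units.val_mul, mul_inv_cancel, Units.val_one])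
        (by rw [← Units.val_mul, inv_mul_cancel, Units.val_one]) (htπ i A)
    rw [Units.val_mul, mul_assoc, hg' i A, ← mul_assoc, h1, mul_assoc]
  obtain ⟨c₀, hc₀⟩ := Cfsg.Agent.Lib.Helper83.ASB8SC.comm_scalar ((t * π)⁻¹ * g).1 hucomm
  have hc₀ne : c₀ ≠ 0 := by
    rintro rfl
    rw [zero_smul] at hc₀
    have h1 : (1 : Matrix (Fin k → Fin m) (Fin k → Fin m) F) = 0 := by
      have h2 : ((t * π)⁻¹ * g).1 * (((t * π)⁻¹ * g)⁻¹ : GL (Fin k → Fin m) F).1 = 1 := by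
        rw [← Units.val_mul, mul_inv_cancel, Units.val_one]
      rw [← h2, hc₀, zero_mul]
    have h3 := congrFun (congrFun h1 (fun _ => ⟨0, hm1⟩)) (fun _ => ⟨0, hm1⟩)
    simp at h3
  obtain ⟨t', ht', ht'v⟩ :=
    Cfsg.Agent.Lib.Helper71.ASB8PT.pure_smul hk1 t ht (Units.mk0 c₀ hc₀ne)
  have hgeq : g = t' * π := by
    apply Units.ext
    have h2 : g = (t * π) * ((t * π)⁻¹ * g) := by group
    rw [h2, Units.val_mul, hc₀, Units.val_mul, Units.val_mul, ht'v]
    simp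
  obtain ⟨cs, hcs⟩ := ht'
  refine ⟨g, cs, ?_, ?_, ?_⟩
  · rw [hgeq]
    exact Subgroup.mul_mem _ (Subgroup.subset_closure (Or.inl ⟨cs, hcs⟩))
      (Subgroup.subset_closure (Or.inr hπ))
  · rw [hgv]
    calc h.1 = (P * Q) * h.1 * (P * Q) := by rw [hPQ, Matrix.one_mul, Matrix.mul_one]
      _ = P * (Q * h.1 * P) * Q := by simp only [Matrix.mul_assoc]
  · rw [hgeq, Units.val_mul, hπM]
    congr 1
    ext x y
    rw [hcs x y]
    rfl

end Cfsg.Agent.Lib.Helper94.TIFT1c
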