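import Mathlib
import Cfsg.Agent.Lib.Helper26.GrossDefs

/-!
Piece KPAUT of helper26's S3793 (Shult–Gross) project (helper94): the linear key proposition
implies the key proposition for automorphisms of elementary abelian groups, via the dual space
`Hom(N, k)` over a finite field `k` containing enough roots of unity.
-/

set_option autoImplicit false

universe u

open Cfsg.Agent.Lib.Helper26

namespace Cfsg.Agent.Lib.Helper94.GrossKPAut

section dual

variable {N : Type u} [Group N] {k : Type*} [Field k]

/-- The additive maps `N → k`. -/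
def addMaps (N : Type u) [Group N] (k : Type*) [Field k] : Submodule k (N → k) where
  carrier := {f | ∀ x y, f (x * y) = f x + f y}
  add_mem' := by
    intro f g hf hg x y
    simp only [Pi.add_apply]
    rw [hf, hg]
    ring
  zero_mem' := by
    intro x y
    simp
  smul_mem' := by
    intro c f hf x y
    simp only [Pi.smul_apply, smul_eq_mul]
    rw [hf]
    ring

theorem addMaps_mul (f : addMaps N k) (x y : N) : f.1 (x * y) = f.1 x + f.1 y := f.2 x y

theorem addMaps_one (f : addMaps N k) : f.1 1 = 0 := by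
  have h := addMaps_mul f 1 1
  rw [mul_one] at h
  exact left_eq_add.mp h

theorem addMaps_inv (f : addMaps N k) (x : N) : f.1 x⁻¹ = - f.1 x := by
  have h := addMaps_mul f x⁻¹ x
  rw [inv_mul_cancel, addMaps_one] at h
  exact eq_neg_of_add_eq_zero_left h.symm

/-- The action of an automorphism on the additive maps. -/
def actEnd (α : MulAut N) : Module.End k (addMaps N k) where
  toFun f := ⟨fun x => f.1 (α⁻¹ x), fun x y => by
    show f.1 (α⁻¹ (x * y)) = f.1 (α⁻¹ x) + f.1 (α⁻¹ y)
    rw [map_mul]
    exact f.2 _ _⟩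
  map_add' _ _ := rfl
  map_smul' _ _ := rfl

theorem actEnd_apply (α : MulAut N) (f : addMaps N k) (x : N) :
    (actEnd α f).1 x = f.1 (α⁻¹ x) := rfl

/-- The action as a monoid homomorphism. -/
def actHom (N : Type u) [Group N] (k : Type*) [Field k] :
    MulAut N →* Module.End k (addMaps N k) where
  toFun := actEnd
  map_one' := by
    apply LinearMap.ext
    intro f
    apply Subtype.ext
    funext x
    rw [actEnd_apply, inv_one]
    rfl
  map_mul' α β := by
    apply LinearMap.ext
    intro f
    apply Subtype.ext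
    funext x
    rw [actEnd_apply, mul_inv_rev]
    rfl

/-- The action as a homomorphism into the unit group. -/
def rho (N : Type u) [Group N] (k : Type*) [Field k] :
    MulAut N →* (Module.End k (addMaps N k))ˣ := (actHom N k).toHomUnits

theorem rho_apply (α : MulAut N) (f : addMaps N k) (x : N) :
    (((rho N k α : (Module.End k (addMaps N k))ˣ) : Module.End k (addMaps N k)) f).1 x =
      f.1 (α⁻¹ x) := rfl

/-- A vector space over `ZMod r` has enough functionals (unbundled form). -/
theorem exists_functional_ne_zero {A : Type u} [AddCommGroup A] (r : ℕ) [Fact r.Prime]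
    [Module (ZMod r) A] (a : A) (ha : a ≠ 0) :
    ∃ g : A → ZMod r, (∀ x y, g (x + y) = g x + g y) ∧ g a ≠ 0 := by
  have hfree : Module.Free (ZMod r) A := Module.Free.of_divisionRing (ZMod r) A
  obtain ⟨g, hg⟩ := Module.Projective.exists_dual_ne_zero (V := A) (ZMod r) ha
  exact ⟨fun x => g x, fun x y => map_add g x y, hg⟩

/-- Additive maps separate the points of an elementary abelian `r`-group. -/
theorem exists_addMap_ne_zero (hcomm : ∀ x y : N, x * y = y * x) (r : ℕ) [Fact r.Prime]
    (hr : ∀ x : N, x ^ r = 1) [Algebra (ZMod r) k] (w : N) (hw : w ≠ 1) :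
    ∃ f : addMaps N k, f.1 w ≠ 0 := by
  let cg : CommGroup N := { (inferInstance : Group N) with mul_comm := hcomm }
  let acg : AddCommGroup (Additive N) := @Additive.addCommGroup N cg
  let md : @Module (ZMod r) (Additive N) _ acg.toAddCommMonoid :=
    @AddCommGroup.zmodModule r (Additive N) acg (fun x => by
      show Additive.ofMul ((Additive.toMul x) ^ r) = Additive.ofMul 1
      rw [hr])
  have hw' : @Ne (Additive N) (Additive.ofMul w) (@OfNat.ofNat (Additive N) 0 (@Zero.toOfNat0 _ acg.toAddCommMonoid.toZero)) :=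
    fun h => hw h
  obtain ⟨g, hgadd, hg⟩ := @exists_functional_ne_zero (Additive N) acg r _ md (Additive.ofMul w) hw'
  refine ⟨⟨fun x => algebraMap (ZMod r) k (g (Additive.ofMul x)), fun x y => ?_⟩, ?_⟩
  · have h1 : g (Additive.ofMul (x * y)) = g (Additive.ofMul x) + g (Additive.ofMul y) :=
      hgadd (Additive.ofMul x) (Additive.ofMul y)
    show algebraMap (ZMod r) k (g (Additive.ofMul (x * y))) = _
    rw [h1, map_add]
  · show algebraMap (ZMod r) k (g (Additive.ofMul w)) ≠ 0
    intro h
    exact hg ((map_eq_zero (algebraMap (ZMod r) k)).mp h)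

theorem rho_injective (hcomm : ∀ x y : N, x * y = y * x) (r : ℕ) [Fact r.Prime]
    (hr : ∀ x : N, x ^ r = 1) [Algebra (ZMod r) k] : Function.Injective (rho N k) := by
  rw [injective_iff_map_eq_one]
  intro α hα
  have h1 : ∀ (f : addMaps N k) (x : N), f.1 (α⁻¹ x) = f.1 x := by
    intro f x
    rw [← rho_apply, hα]
    rfl
  have h2 : ∀ x : N, α⁻¹ x = x := by
    intro x
    by_contra hne
    have hw : (α⁻¹ x) * x⁻¹ ≠ 1 := fun h => hne (mul_inv_eq_one.mp h)
    obtain ⟨f, hf⟩ := exists_addMap_ne_zero (k := k) hcomm r hr _ hw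
    apply hf
    rw [addMaps_mul, addMaps_inv, h1, add_neg_cancel]
  have h3 : α⁻¹ = 1 := by
    ext x
    exact h2 x
  exact inv_eq_one.mp h3

end dual

theorem gross_aut_of_kp {p : ℕ} (hp : p.Prime) (hp2 : p ≠ 2) (hKP : GrossKPStmt.{u, 0} p) :
    GrossAutStmt.{u} p := by
  intro N _ _ hcomm r q n hr hexp hq hqp hqr hpr Q φ hQ hφ hnorm hCQ hfpf
  haveI : Fact r.Prime := ⟨hr⟩
  haveI : Fact q.Prime := ⟨hq⟩
  haveI : Finite (MulAut N) :=
    Finite.of_injective (fun e : MulAut N => (e : N → N)) DFunLike.coe_injective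
  obtain ⟨M₀, hM₀⟩ : ∃ M₀ : ℕ, M₀ = Nat.card Q * p ^ (n + 1) := ⟨_, rfl⟩
  have hM0pos : 0 < M₀ := by
    rw [hM₀]
    exact Nat.mul_pos Nat.card_pos (pow_pos hp.pos _)
  obtain ⟨j, hj⟩ := hQ.exists_card_eq
  have hcopr : Nat.Coprime r M₀ := by
    rw [hM₀, hj]
    apply Nat.Coprime.mul_right
    · exact Nat.Coprime.pow_right _ ((Nat.coprime_primes hr hq).mpr (Ne.symm hqr))
    · exact Nat.Coprime.pow_right _ ((Nat.coprime_primes hr hp).mpr (Ne.symm hpr))
  obtain ⟨m, hm⟩ : ∃ m : ℕ, m = Nat.totient M₀ := ⟨_, rfl⟩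
  have hmpos : 0 < m := by
    rw [hm]
    exact Nat.totient_pos.mpr hM0pos
  have hdvd : M₀ ∣ r ^ m - 1 := by
    have h1 : r ^ m ≡ 1 [MOD M₀] := by
      rw [hm]
      exact Nat.ModEq.pow_totient hcopr
    exact (Nat.modEq_iff_dvd' (Nat.one_le_pow _ _ hr.pos)).mp h1.symm
  have hcardk : Nat.card (GaloisField r m) = r ^ m := GaloisField.card r m hmpos.ne'
  have hroot : ∃ ζ : GaloisField r m, IsPrimitiveRoot ζ M₀ := by
    obtain ⟨g, hg⟩ := IsCyclic.exists_generator (α := (GaloisField r m)ˣ)
    have hog : orderOf g = r ^ m - 1 := by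
      rw [orderOf_eq_card_of_forall_mem_zpowers hg, Nat.card_units, hcardk]
    obtain ⟨c, hc⟩ := hdvd
    have hc0 : c ≠ 0 := by
      rintro rfl
      have h2 : 2 ≤ r ^ m := by
        calc 2 ≤ r := hr.two_le
          _ = r ^ 1 := (pow_one r).symm
          _ ≤ r ^ m := Nat.pow_le_pow_right hr.pos hmpos
      omega
    refine ⟨((g ^ c : (GaloisField r m)ˣ) : GaloisField r m), ?_⟩
    rw [IsPrimitiveRoot.coe_units_iff]
    have h3 : orderOf (g ^ c) = M₀ := by
      rw [orderOf_pow_of_dvd hc0 (by rw [hog, hc]; exact dvd_mul_left _ _), hog, hc,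
        Nat.mul_div_cancel _ (Nat.pos_of_ne_zero hc0)]
    rw [← h3]
    exact IsPrimitiveRoot.orderOf _
  have hD : GrossData (GaloisField r m) p q n M₀ :=
    { hp := hp
      hp2 := hp2
      hq := hq
      hqp := hqp
      hM := by rw [hM₀]; exact dvd_mul_left _ _
      hM0 := hM0pos
      hcop := by
        rw [hcardk]
        exact (Nat.Coprime.pow_left m hcopr).symm
      hroot := hroot }
  have hinj : Function.Injective (rho N (GaloisField r m)) := rho_injective hcomm r hexp
  have hK : GrossKP (GaloisField r m) p q n M₀ (addMaps N (GaloisField r m))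
      (Q.map (rho N (GaloisField r m))) (rho N (GaloisField r m) φ) :=
    { hQ := hQ.map _
      hcard := by
        rw [hM₀]
        exact dvd_mul_of_dvd_left (Subgroup.card_map_dvd _ _) _
      hφ := by rw [← map_pow, hφ, map_one]
      hnorm := by
        rintro _ ⟨y, hy, rfl⟩
        refine ⟨φ * y * φ⁻¹, hnorm y hy, ?_⟩
        rw [map_mul, map_mul, map_inv]
      hCQ := by
        rintro _ ⟨y, hy, rfl⟩ h
        rw [← map_mul, ← map_mul] at h
        rw [hCQ y hy (hinj h), map_one]
      hCV := by
        intro f hf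
        have h1 : ∀ y : N, f.1 (φ y) = f.1 y := by
          intro y
          have h2 := congrArg (fun g : addMaps N (GaloisField r m) => g.1 (φ y)) hf
          simp only [rho_apply] at h2
          rw [← h2]
          simp
        have hinj2 : Function.Injective (fun y : N => y⁻¹ * φ y) := by
          intro x y hxy
          have h3 : φ (x * y⁻¹) = x * y⁻¹ := by
            have h4 : x⁻¹ * φ x = y⁻¹ * φ y := hxy
            rw [map_mul, map_inv]
            have h5 : φ x = x * (y⁻¹ * φ y) := by rw [← h4]; group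
            rw [h5]
            group
          have h6 := hfpf _ h3
          exact mul_inv_eq_one.mp h6
        have hsurj := Finite.injective_iff_surjective.mp hinj2
        apply Subtype.ext
        funext z
        obtain ⟨y, hy⟩ := hsurj z
        have hy' : z = y⁻¹ * φ y := hy.symm
        rw [hy', addMaps_mul, addMaps_inv, h1]
        simp }
  intro x hx
  have h := hKP (GaloisField r m) q n M₀ hD (addMaps N (GaloisField r m))
    (Q.map (rho N (GaloisField r m))) (rho N (GaloisField r m) φ) hK
    (rho N (GaloisField r m) x) ⟨x, hx, rfl⟩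
  rw [← map_pow, ← map_mul, ← map_mul] at h
  exact hinj h

end Cfsg.Agent.Lib.Helper94.GrossKPAut
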