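import Mathlib
import Cfsg.Agent.Lib.Helper96.SpDefs

set_option autoImplicit false

/-!
# S5961 piece SP-WITT: orthogonal decompositions of a nondegenerate alternating space with equal
dimensions are conjugate under an isometry.
-/

namespace Cfsg.Agent.Lib.Helper94.SpWitt

open Module Cfsg.Agent.Lib.Helper96.Sp

variable {F : Type*} [Field F] {V : Type*} [AddCommGroup V] [Module F V]

/-- the Gram matrix of a hyperbolic basis -/
def gram (F : Type*) [Field F] {m : ℕ} (x y : Fin m × Bool) : F :=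
  if x.1 = y.1 ∧ x.2 ≠ y.2 then (if x.2 then -1 else 1) else 0

theorem li_of_dual {κ : Type*} [Fintype κ] {B : LinearMap.BilinForm F V} (v : κ → V) (σ : κ → κ)
    (h1 : ∀ x y, y ≠ x → B (v y) (v (σ x)) = 0) (h2 : ∀ x, B (v x) (v (σ x)) ≠ 0) :
    LinearIndependent F v := by
  classical
  rw [Fintype.linearIndependent_iff]
  intro c hc x
  have h3 : B (∑ y, c y • v y) (v (σ x)) = c x * B (v x) (v (σ x)) := by
    rw [map_sum, LinearMap.sum_apply, Finset.sum_eq_single x]
    · rw [map_smul, LinearMap.smul_apply, smul_eq_mul]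
    · intro y _ hy
      rw [map_smul, LinearMap.smul_apply, h1 x y hy, smul_zero]
    · intro h
      exact absurd (Finset.mem_univ x) h
  rw [hc, map_zero, LinearMap.zero_apply] at h3
  exact (mul_eq_zero.1 h3.symm).resolve_right (h2 x)

theorem exists_hyp [FiniteDimensional F V] {B : LinearMap.BilinForm F V} (hA : B.IsAlt)
    (W : Submodule F V) (hW : ND B W) (m : ℕ) (hm : finrank F W = 2 * m) :
    ∃ e : Fin m × Bool → V, (∀ x, e x ∈ W) ∧ ∀ x y, B (e x) (e y) = gram F x y := by
  obtain ⟨m', H, h1, h2, h3, h4⟩ := exists_planes hA W hW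
  have hmm : m' = m := by omega
  subst hmm
  have hex : ∀ k : Fin m', ∃ u w, u ∈ H k ∧ w ∈ H k ∧ B u w = 1 := by
    intro k
    obtain ⟨hnd, hfr, hle⟩ := h1 k
    have hne : H k ≠ ⊥ := by
      intro hb
      rw [hb, finrank_bot] at hfr
      omega
    obtain ⟨u, hu, hu0⟩ := (Submodule.ne_bot_iff _).mp hne
    obtain ⟨w, hw, huw⟩ : ∃ w ∈ H k, B u w ≠ 0 := by
      by_contra hcon
      push Not at hcon
      exact hu0 (hnd u hu hcon)
    refine ⟨u, (B u w)⁻¹ • w, hu, (H k).smul_mem _ hw, ?_⟩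
    rw [map_smul, smul_eq_mul, inv_mul_cancel₀ huw]
  choose u w hu hw huw using hex
  refine ⟨fun x => if x.2 then w x.1 else u x.1, ?_, ?_⟩
  · rintro ⟨k, b⟩
    cases b
    · exact (h1 k).2.2 (hu k)
    · exact (h1 k).2.2 (hw k)
  · rintro ⟨k, b⟩ ⟨k', b'⟩
    by_cases hk : k = k'
    · subst hk
      cases b <;> cases b'
      · simp [gram, hA.self_eq_zero]
      · simp [gram, huw]
      · simp only [gram]
        rw [alt_swap hA]
        simp [huw]
      · simp [gram, hA.self_eq_zero]
    · have h0 : B (if b then w k else u k) (if b' then w k' else u k') = 0 := by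
        apply h2 k k' hk
        · cases b
          · exact hu k
          · exact hw k
        · cases b'
          · exact hu k'
          · exact hw k'
      have hg0 : gram F (k, b) (k', b') = 0 := by
        unfold gram
        exact if_neg (fun h => hk h.1)
      rw [hg0]
      exact h0

theorem exists_isom_map {F : Type*} [Field F] {V : Type*} [AddCommGroup V] [Module F V]
    [FiniteDimensional F V] {B : LinearMap.BilinForm F V} (hA : B.IsAlt) (hN : ND B ⊤)
    {ι : Type*} [Fintype ι] (D D' : ι → Submodule F V)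
    (hfin : ∀ j, finrank F (D j) = finrank F (D' j))
    (hD : ∀ j j', j ≠ j' → Orth B (D j) (D j')) (hDt : (⨆ j, D j) = ⊤)
    (hD' : ∀ j j', j ≠ j' → Orth B (D' j) (D' j')) (hDt' : (⨆ j, D' j) = ⊤) :
    ∃ g : V ≃ₗ[F] V, Isom B (g : V →ₗ[F] V) ∧ ∀ j, (D j).map (g : V →ₗ[F] V) = D' j := by
  classical
  have hnd : ∀ j, ND B (D j) := fun j => nd_of_orth_sup_top hN D hD hDt j
  have hnd' : ∀ j, ND B (D' j) := fun j => nd_of_orth_sup_top hN D' hD' hDt' j
  have hm : ∀ j, finrank F (D j) = 2 * (finrank F (D j) / 2) := fun j =>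
    (Nat.two_mul_div_two_of_even (even_finrank_of_nd hA (D j) (hnd j))).symm
  have hm' : ∀ j, finrank F (D' j) = 2 * (finrank F (D j) / 2) := fun j => by
    rw [← hfin j]
    exact hm j
  choose e he heg using fun j => exists_hyp hA (D j) (hnd j) _ (hm j)
  choose e' he' heg' using fun j => exists_hyp hA (D' j) (hnd' j) _ (hm' j)
  have hG2 : ∀ (j j' : ι) (x : Fin (finrank F (D j) / 2) × Bool)
      (y : Fin (finrank F (D j') / 2) × Bool), j ≠ j' → B (e j x) (e j' y) = 0 :=
    fun j j' x y h => hD j j' h _ (he j x) _ (he j' y)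
  have hG2' : ∀ (j j' : ι) (x : Fin (finrank F (D j) / 2) × Bool)
      (y : Fin (finrank F (D j') / 2) × Bool), j ≠ j' → B (e' j x) (e' j' y) = 0 :=
    fun j j' x y h => hD' j j' h _ (he' j x) _ (he' j' y)
  have hgram : ∀ p q : (Σ j : ι, Fin (finrank F (D j) / 2) × Bool),
      B (e p.1 p.2) (e q.1 q.2) = B (e' p.1 p.2) (e' q.1 q.2) := by
    rintro ⟨j, x⟩ ⟨j', y⟩
    by_cases h : j = j'
    · subst h
      show B (e j x) (e j y) = B (e' j x) (e' j y)
      rw [heg, heg']
    · show B (e j x) (e j' y) = B (e' j x) (e' j' y)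
      rw [hG2 j j' x y h, hG2' j j' x y h]
  -- linear independence
  have hli_gen : ∀ (E : ∀ j, Fin (finrank F (D j) / 2) × Bool → V),
      (∀ j x y, B (E j x) (E j y) = gram F x y) →
      (∀ (j j' : ι) (x : Fin (finrank F (D j) / 2) × Bool)
        (y : Fin (finrank F (D j') / 2) × Bool), j ≠ j' → B (E j x) (E j' y) = 0) →
      LinearIndependent F
        (fun p : (Σ j : ι, Fin (finrank F (D j) / 2) × Bool) => E p.1 p.2) := by
    intro E hE1 hE2
    apply li_of_dual (B := B) _ (fun p => ⟨p.1, (p.2.1, !p.2.2)⟩)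
    · rintro ⟨j, k, b⟩ ⟨j', k', b'⟩ hne
      by_cases h : j' = j
      · subst h
        show B (E j' (k', b')) (E j' (k, !b)) = 0
        rw [hE1]
        unfold gram
        rw [if_neg]
        rintro ⟨hk, hb⟩
        apply hne
        simp only at hk hb
        subst hk
        have hbb : b' = b := by
          revert hb
          cases b <;> cases b' <;> decide
        rw [hbb]
      · exact hE2 j' j _ _ h
    · rintro ⟨j, k, b⟩
      show B (E j (k, b)) (E j (k, !b)) ≠ 0
      rw [hE1]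
      unfold gram
      cases b <;> simp
  have hli := hli_gen e heg hG2
  have hli' := hli_gen e' heg' hG2'
  -- spans
  have hspan_gen : ∀ (Dd : ι → Submodule F V)
      (E : ∀ j, Fin (finrank F (D j) / 2) × Bool → V),
      (∀ j x, E j x ∈ Dd j) → (∀ j, finrank F (Dd j) = 2 * (finrank F (D j) / 2)) →
      LinearIndependent F
        (fun p : (Σ j : ι, Fin (finrank F (D j) / 2) × Bool) => E p.1 p.2) →
      ∀ j, Submodule.span F (Set.range (E j)) = Dd j := by
    intro Dd E hE hfr hLI j
    have hLIj : LinearIndependent F (E j) :=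
      hLI.comp (fun x => (⟨j, x⟩ : (Σ j : ι, Fin (finrank F (D j) / 2) × Bool)))
        (fun x y h => eq_of_heq (Sigma.mk.inj h).2)
    apply Submodule.eq_of_le_of_finrank_eq
    · rw [Submodule.span_le]
      rintro _ ⟨x, rfl⟩
      exact hE j x
    · rw [finrank_span_eq_card hLIj, hfr j]
      simp [mul_comm]
  have hsp := hspan_gen D e he hm hli
  have hsp' := hspan_gen D' e' he' hm' hli'
  have htop_gen : ∀ (Dd : ι → Submodule F V)
      (E : ∀ j, Fin (finrank F (D j) / 2) × Bool → V),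
      (∀ j, Submodule.span F (Set.range (E j)) = Dd j) → (⨆ j, Dd j) = ⊤ →
      ⊤ ≤ Submodule.span F (Set.range
        (fun p : (Σ j : ι, Fin (finrank F (D j) / 2) × Bool) => E p.1 p.2)) := by
    intro Dd E hs ht
    rw [← ht]
    apply iSup_le
    intro j
    rw [← hs j]
    apply Submodule.span_mono
    rintro _ ⟨x, rfl⟩
    exact ⟨⟨j, x⟩, rfl⟩
  obtain ⟨b, hb⟩ : ∃ b : Basis (Σ j : ι, Fin (finrank F (D j) / 2) × Bool) F V,
      ∀ p, b p = e p.1 p.2 :=
    ⟨Basis.mk hli (htop_gen D e hsp hDt), fun p => Basis.mk_apply _ _ p⟩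
  obtain ⟨b', hb'⟩ : ∃ b' : Basis (Σ j : ι, Fin (finrank F (D j) / 2) × Bool) F V,
      ∀ p, b' p = e' p.1 p.2 :=
    ⟨Basis.mk hli' (htop_gen D' e' hsp' hDt'), fun p => Basis.mk_apply _ _ p⟩
  have hg : ∀ p : (Σ j : ι, Fin (finrank F (D j) / 2) × Bool),
      (b.equiv b' (Equiv.refl _)) (e p.1 p.2) = e' p.1 p.2 := by
    intro p
    rw [← hb, ← hb', Basis.equiv_apply]
    rfl
  refine ⟨b.equiv b' (Equiv.refl _), ?_, ?_⟩
  · have hcomp : B.comp ((b.equiv b' (Equiv.refl _) : V ≃ₗ[F] V) : V →ₗ[F] V)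
        ((b.equiv b' (Equiv.refl _) : V ≃ₗ[F] V) : V →ₗ[F] V) = B := by
      apply LinearMap.BilinForm.ext_basis b
      intro p q
      rw [LinearMap.BilinForm.comp_apply, hb, hb]
      show B ((b.equiv b' (Equiv.refl _)) (e p.1 p.2)) ((b.equiv b' (Equiv.refl _)) (e q.1 q.2)) = _
      rw [hg, hg, hgram]
    intro x y
    have h1 := congrArg (fun B' : LinearMap.BilinForm F V => B' x y) hcomp
    exact h1
  · intro j
    rw [← hsp j, ← hsp' j, Submodule.map_span, ← Set.range_comp]
    congr 2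
    funext x
    exact hg ⟨j, x⟩

end Cfsg.Agent.Lib.Helper94.SpWitt
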