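import Cfsg.Agent.Lib.Helper30.NSub0

/-!
Piece NS-FS of helper30's S5121 project (helper94): `R = T ⊓ Q` is normal in `G`, hence fully
automized and receptive in the saturated subsystem `E`.
-/

set_option autoImplicit false

namespace Cfsg.Agent.Lib.Helper94

open Cfsg Cfsg.FusionSystem Cfsg.Agent.Lib.Helper90 Cfsg.Agent.Lib.Helper30

/-- `T ⊓ Q` is invariant under conjugation in `G`. -/
theorem nsub_fs_conj_mem {G : Type*} [Group G] (S : Subgroup G)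
    (Q : Subgroup G) [Q.Normal] (hQS : Q ≤ S) {T : Subgroup G}
    (hstrong : (groupFusionSystem S).StronglyClosed T) (g : G) {x : G} (hx : x ∈ T ⊓ Q) :
    g * x * g⁻¹ ∈ T ⊓ Q := by
  have hFg := Cfsg.Agent.Lib.Helper88.groupFusionSystem_isGrpSys S
  have hm : Mor (groupFusionSystem S) (T ⊓ Q) (fun x => g * x * g⁻¹) := by
    rw [Cfsg.Agent.Lib.Helper88.grp_mor_iff hFg]
    refine ⟨fun y hy => hstrong.1 hy.1, g, Subgroup.mem_top g, fun y hy => ⟨rfl, ?_⟩⟩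
    exact hQS (Subgroup.Normal.conj_mem inferInstance y hy.2 g)
  refine ⟨?_, Subgroup.Normal.conj_mem inferInstance x hx.2 g⟩
  obtain ⟨φ, hφ, hφf⟩ := hm
  have h1 := hstrong.2 (T ⊓ Q) inf_le_left φ hφ ⟨x, hx⟩
  rw [hφf] at h1
  exact h1

theorem nsub_fs {G : Type*} [Group G] [Finite G] {p : ℕ} [Fact p.Prime] (S : Sylow p G)
    (Q : Subgroup G) [Q.Normal] (hQS : Q ≤ S) {T : Subgroup G} (E : FusionSystem T)
    (hEs : E.IsSaturated p) (hinv : E.IsInvariantIn (groupFusionSystem (S : Subgroup G))) :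
    (∀ s ∈ (S : Subgroup G), s ∈ autStab E (T ⊓ Q) inf_le_left →
      ∃ t ∈ T, ∀ r ∈ T ⊓ Q, s * r * s⁻¹ = t * r * t⁻¹) ∧
    (∀ h ∈ autStab E (T ⊓ Q) inf_le_left, h ∈ Subgroup.normalizer (T : Set G) →
      ∃ y ∈ autStab E T le_rfl, ∀ r ∈ T ⊓ Q, h * r * h⁻¹ = y * r * y⁻¹) := by
  classical
  have hFg := Cfsg.Agent.Lib.Helper88.groupFusionSystem_isGrpSys (S : Subgroup G)
  have hsub : E.IsSubsystemOf (groupFusionSystem (S : Subgroup G)) := hinv.1
  have hstrong : (groupFusionSystem (S : Subgroup G)).StronglyClosed T := hinv.2.1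
  have hTS : T ≤ (S : Subgroup G) := hstrong.1
  have hRn : ∀ (g : G) (x : G), x ∈ T ⊓ Q → g * x * g⁻¹ ∈ T ⊓ Q :=
    fun g x hx => nsub_fs_conj_mem (S : Subgroup G) Q hQS hstrong g hx
  have hRnorm : ∀ g : G, g ∈ Subgroup.normalizer ((T ⊓ Q : Subgroup G) : Set G) :=
    fun g => Cfsg.Agent.Lib.Helper88.mem_normalizer_of_conj_le (T ⊓ Q) (fun x hx => hRn g x hx)
  -- `R` is fully automized and receptive
  obtain ⟨Q', hconj, hfa', hrec'⟩ := hEs (T ⊓ Q) inf_le_left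
  have hQ' : Q' = T ⊓ Q := by
    obtain ⟨f, hf, himg⟩ := isConj_iff.mp hconj
    have hfF := mor_of_subsystem hsub hf
    obtain ⟨-, g, -, hg⟩ := (Cfsg.Agent.Lib.Helper88.grp_mor_iff hFg).mp hfF
    have hle : img (T ⊓ Q) f ≤ T ⊓ Q := by
      intro y hy
      obtain ⟨x, hx, rfl⟩ := hf.mem_img.mp hy
      rw [(hg x hx).1]
      exact hRn g x hx
    rw [← himg]
    exact Subgroup.eq_of_le_of_card_ge hle (le_of_eq hf.card_img.symm)
  rw [hQ'] at hfa' hrec'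
  constructor
  · -- (i)
    intro s hs hsK
    obtain ⟨β, hβE, hβ⟩ := exists_aut_of_mor hsK.2
      (fun x hx => conj_mem_of_mem_normalizer hsK.1 hx)
    obtain ⟨-, P0, hP0⟩ := hfa'
    have hB : IsPGroup p ((autInducedBy (S : Subgroup G) (T ⊓ Q)).subgroupOf
        (E.autGroup (T ⊓ Q))) :=
      (isPGroup_autInducedBy S.isPGroup' (T ⊓ Q)).comap_of_injective
        (E.autGroup (T ⊓ Q)).subtype (Subgroup.subtype_injective _)
    have hle : (P0 : Subgroup (E.autGroup (T ⊓ Q))) ≤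
        (autInducedBy (S : Subgroup G) (T ⊓ Q)).subgroupOf (E.autGroup (T ⊓ Q)) := by
      rw [hP0]
      intro α hα
      rw [Subgroup.mem_subgroupOf] at hα ⊢
      obtain ⟨a, ha, hαa⟩ := (mem_autInducedBy_iff T (T ⊓ Q) _).mp hα
      exact (mem_autInducedBy_iff (S : Subgroup G) (T ⊓ Q) _).mpr ⟨a, hTS ha, hαa⟩
    have heq := P0.is_maximal' hB hle
    have hβS : (⟨β, hβE⟩ : E.autGroup (T ⊓ Q)) ∈
        (autInducedBy (S : Subgroup G) (T ⊓ Q)).subgroupOf (E.autGroup (T ⊓ Q)) := by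
      rw [Subgroup.mem_subgroupOf]
      exact (mem_autInducedBy_iff (S : Subgroup G) (T ⊓ Q) _).mpr ⟨s, hs, hβ⟩
    rw [heq, hP0, Subgroup.mem_subgroupOf] at hβS
    obtain ⟨t, ht, hβt⟩ := (mem_autInducedBy_iff T (T ⊓ Q) _).mp hβS
    refine ⟨t, ht, fun r hr => ?_⟩
    rw [← hβ ⟨r, hr⟩]
    exact hβt ⟨r, hr⟩
  · -- (ii)
    intro h hK hN
    have hm : Mor E (T ⊓ Q) (fun x => h * x * h⁻¹) := hK.2
    have himg : img (T ⊓ Q) (fun x => h * x * h⁻¹) = T ⊓ Q := nsub_conj_img_eq hK.1 hm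
    obtain ⟨f', hf', hf'R⟩ := receptive_extend hrec' hm himg T inf_le_left (by
      intro a ha
      refine ⟨ha, hRnorm a, h * a * h⁻¹, conj_mem_of_mem_normalizer hN ha, fun x _ => ?_⟩
      show h * (a * x * a⁻¹) * h⁻¹ = h * a * h⁻¹ * (h * x * h⁻¹) * (h * a * h⁻¹)⁻¹
      group)
    have hf'F := mor_of_subsystem hsub hf'
    obtain ⟨-, y, -, hy⟩ := (Cfsg.Agent.Lib.Helper88.grp_mor_iff hFg).mp hf'F
    have hyN : y ∈ Subgroup.normalizer (T : Set G) := by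
      apply Cfsg.Agent.Lib.Helper88.mem_normalizer_of_conj_le T
      intro x hx
      rw [← (hy x hx).1]
      exact hf'.mem hx
    refine ⟨y, ⟨hyN, hf'.congr (fun x hx => (hy x hx).1)⟩, fun r hr => ?_⟩
    rw [← (hy r hr.1).1, hf'R r hr]

end Cfsg.Agent.Lib.Helper94
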