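import Mathlib
import Cfsg.Prelude.Def_GeometricClasses
import Cfsg.Prelude.Def_LieClassical

/-! Project O9 (helper44), piece TWS: the elements of `tensorWreathStandard m 2` are of the form
`a ⊗ b` or `(a ⊗ b) ∘ swap`. -/

set_option autoImplicit false

namespace Cfsg.Agent.Lib.Helper44.O9

open Matrix Cfsg.Geo
open scoped Kronecker

variable {n : ℕ} {F : Type*} [Field F] [Fintype F]

/-- the "straight" tensor matrix -/
def TWS_f1 {m : ℕ} (A B : Matrix (Fin m) (Fin m) F) :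
    Matrix (Fin 2 → Fin m) (Fin 2 → Fin m) F :=
  fun x y => A (x 0) (y 0) * B (x 1) (y 1)

/-- the "twisted" tensor matrix -/
def TWS_f2 {m : ℕ} (A B : Matrix (Fin m) (Fin m) F) :
    Matrix (Fin 2 → Fin m) (Fin 2 → Fin m) F :=
  fun x y => A (x 0) (y 1) * B (x 1) (y 0)

theorem TWS_sum {m : ℕ} (f g : Fin m → F) :
    ∑ z : Fin 2 → Fin m, f (z 0) * g (z 1) = (∑ i, f i) * (∑ j, g j) := by
  calc ∑ z : Fin 2 → Fin m, f (z 0) * g (z 1) = ∑ p : Fin m × Fin m, f p.1 * g p.2 :=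
        Fintype.sum_equiv (finTwoArrowEquiv (Fin m)) _ _ (fun z => rfl)
    _ = ∑ i, ∑ j, f i * g j := Fintype.sum_prod_type _
    _ = (∑ i, f i) * (∑ j, g j) := by rw [Finset.sum_mul_sum]

theorem TWS_11 {m : ℕ} (A B C D : Matrix (Fin m) (Fin m) F) :
    TWS_f1 A B * TWS_f1 C D = TWS_f1 (A * C) (B * D) := by
  ext x y
  rw [Matrix.mul_apply]
  simp only [TWS_f1, Matrix.mul_apply]
  rw [← TWS_sum]
  exact Finset.sum_congr rfl (fun z _ => by ring)

theorem TWS_12 {m : ℕ} (A B C D : Matrix (Fin m) (Fin m) F) :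
    TWS_f1 A B * TWS_f2 C D = TWS_f2 (A * C) (B * D) := by
  ext x y
  rw [Matrix.mul_apply]
  simp only [TWS_f1, TWS_f2, Matrix.mul_apply]
  rw [← TWS_sum]
  exact Finset.sum_congr rfl (fun z _ => by ring)

theorem TWS_21 {m : ℕ} (A B C D : Matrix (Fin m) (Fin m) F) :
    TWS_f2 A B * TWS_f1 C D = TWS_f2 (A * D) (B * C) := by
  ext x y
  rw [Matrix.mul_apply]
  simp only [TWS_f1, TWS_f2, Matrix.mul_apply]
  rw [mul_comm (∑ j, A (x 0) j * D j (y 1)), ← TWS_sum]
  exact Finset.sum_congr rfl (fun z _ => by ring)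

theorem TWS_22 {m : ℕ} (A B C D : Matrix (Fin m) (Fin m) F) :
    TWS_f2 A B * TWS_f2 C D = TWS_f1 (A * D) (B * C) := by
  ext x y
  rw [Matrix.mul_apply]
  simp only [TWS_f1, TWS_f2, Matrix.mul_apply]
  rw [mul_comm (∑ j, A (x 0) j * D j (y 0)), ← TWS_sum]
  exact Finset.sum_congr rfl (fun z _ => by ring)

theorem TWS_one {m : ℕ} : TWS_f1 (1 : Matrix (Fin m) (Fin m) F) 1 = 1 := by
  ext x y
  simp only [TWS_f1, Matrix.one_apply]
  have hiff : x = y ↔ (x 0 = y 0 ∧ x 1 = y 1) := by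
    constructor
    · rintro rfl
      exact ⟨rfl, rfl⟩
    · rintro ⟨h0, h1⟩
      funext i
      fin_cases i
      · exact h0
      · exact h1
  by_cases h0 : x 0 = y 0 <;> by_cases h1 : x 1 = y 1 <;> simp [hiff, h0, h1]

theorem TWS_key {m : ℕ} (s : GL (Fin 2 → Fin m) F) (hs : s ∈ tensorWreathStandard m 2 F) :
    ∃ a b : GL (Fin m) F, s.1 = TWS_f1 a.1 b.1 ∨ s.1 = TWS_f2 a.1 b.1 := by
  unfold tensorWreathStandard at hs
  refine Subgroup.closure_induction (p := fun g _ => ∃ a b : GL (Fin m) F,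
    g.1 = TWS_f1 a.1 b.1 ∨ g.1 = TWS_f2 a.1 b.1) ?_ ?_ ?_ ?_ hs
  · rintro g (⟨gs, hgs⟩ | ⟨σ, hσ⟩)
    · refine ⟨gs 0, gs 1, Or.inl ?_⟩
      ext x y
      rw [hgs x y, Fin.prod_univ_two]
      rfl
    · have hk : σ 0 = 0 ∨ σ 0 = 1 := by
        generalize σ 0 = k
        fin_cases k <;> simp
      have hl : σ 1 = 0 ∨ σ 1 = 1 := by
        generalize σ 1 = k
        fin_cases k <;> simp
      have hne : σ 0 ≠ σ 1 := fun h => absurd (σ.injective h) (by decide)
      rcases hk with hk | hk <;> rcases hl with hl | hl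
      · exact absurd (hk.trans hl.symm) hne
      · refine ⟨1, 1, Or.inl ?_⟩
        ext x y
        rw [hσ x y]
        simp only [TWS_f1, Units.val_one, Matrix.one_apply]
        have hiff : y = x ∘ σ ↔ (x 0 = y 0 ∧ x 1 = y 1) := by
          constructor
          · intro h
            constructor
            · rw [h, Function.comp_apply, hk]
            · rw [h, Function.comp_apply, hl]
          · rintro ⟨h0, h1⟩
            funext i
            fin_cases i
            · simp [hk, h0]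
            · simp [hl, h1]
        by_cases h0 : x 0 = y 0 <;> by_cases h1 : x 1 = y 1 <;> simp [hiff, h0, h1]
      · refine ⟨1, 1, Or.inr ?_⟩
        ext x y
        rw [hσ x y]
        simp only [TWS_f2, Units.val_one, Matrix.one_apply]
        have hiff : y = x ∘ σ ↔ (x 0 = y 1 ∧ x 1 = y 0) := by
          constructor
          · intro h
            constructor
            · rw [h, Function.comp_apply, hl]
            · rw [h, Function.comp_apply, hk]
          · rintro ⟨h0, h1⟩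
            funext i
            fin_cases i
            · simp [hk, h1]
            · simp [hl, h0]
        by_cases h0 : x 0 = y 1 <;> by_cases h1 : x 1 = y 0 <;> simp [hiff, h0, h1]
      · exact absurd (hk.trans hl.symm) hne
  · exact ⟨1, 1, Or.inl (by rw [Units.val_one, Units.val_one, TWS_one])⟩
  · rintro g h - - ⟨a, b, h1 | h1⟩ ⟨c, d, h2 | h2⟩
    · exact ⟨a * c, b * d, Or.inl (by
        rw [Units.val_mul, h1, h2, TWS_11, Units.val_mul, Units.val_mul])⟩
    · exact ⟨a * c, b * d, Or.inr (by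
        rw [Units.val_mul, h1, h2, TWS_12, Units.val_mul, Units.val_mul])⟩
    · exact ⟨a * d, b * c, Or.inr (by
        rw [Units.val_mul, h1, h2, TWS_21, Units.val_mul, Units.val_mul])⟩
    · exact ⟨a * d, b * c, Or.inl (by
        rw [Units.val_mul, h1, h2, TWS_22, Units.val_mul, Units.val_mul])⟩
  · rintro g - ⟨a, b, h1 | h1⟩
    · have hinv : ∀ M : Matrix (Fin 2 → Fin m) (Fin 2 → Fin m) F, g.1 * M = 1 →
          (g⁻¹).1 = M := by
        intro M hM
        calc (g⁻¹).1 = (g⁻¹).1 * (g.1 * M) := by rw [hM, mul_one]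
          _ = ((g⁻¹).1 * g.1) * M := (mul_assoc _ _ _).symm
          _ = M := by rw [Units.inv_mul, one_mul]
      exact ⟨a⁻¹, b⁻¹, Or.inl (hinv _ (by
        rw [h1, TWS_11, Units.mul_inv, Units.mul_inv, TWS_one]))⟩
    · have hinv : ∀ M : Matrix (Fin 2 → Fin m) (Fin 2 → Fin m) F, g.1 * M = 1 →
          (g⁻¹).1 = M := by
        intro M hM
        calc (g⁻¹).1 = (g⁻¹).1 * (g.1 * M) := by rw [hM, mul_one]
          _ = ((g⁻¹).1 * g.1) * M := (mul_assoc _ _ _).symm
          _ = M := by rw [Units.inv_mul, one_mul]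
      exact ⟨b⁻¹, a⁻¹, Or.inr (hinv _ (by
        rw [h1, TWS_22, Units.mul_inv, Units.mul_inv, TWS_one]))⟩

theorem TWS {m : ℕ} (s : GL (Fin 2 → Fin m) F) (hs : s ∈ tensorWreathStandard m 2 F) :
    ∃ a b : GL (Fin m) F,
      (∀ x y : Fin 2 → Fin m, s.1 x y = a.1 (x 0) (y 0) * b.1 (x 1) (y 1)) ∨
      (∀ x y : Fin 2 → Fin m, s.1 x y = a.1 (x 0) (y 1) * b.1 (x 1) (y 0)) := by
  obtain ⟨a, b, h | h⟩ := TWS_key s hs
  · exact ⟨a, b, Or.inl (fun x y => by rw [h]; rfl)⟩
  · exact ⟨a, b, Or.inr (fun x y => by rw [h]; rfl)⟩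

end Cfsg.Agent.Lib.Helper44.O9
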