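import Mathlib
import Cfsg.Agent.Lib.Helper45.MinIdxA

set_option autoImplicit false

/-!
# S2140 piece H5E: complement analysis for `SL_3` in characteristic 2
-/

namespace Cfsg.Agent.Lib.Helper94.MinIdx

open Matrix Cfsg.Agent.Lib.Helper50 Cfsg.Agent.Lib.Helper45.MinIdx

theorem compl_three_even {F : Type*} [Field F] (h2 : (2 : F) = 0)
    (H : Subgroup (Matrix.SpecialLinearGroup (Fin 3) F))
    (hfree : ∀ a φ : Fin 3 → F, a ≠ 0 → φ ⬝ᵥ a = 0 → tL a φ 1 ∈ H → φ = 0)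
    (hcompl : ∀ g : Matrix.SpecialLinearGroup (Fin 3) F, ∃ φ : Fin 3 → F,
      φ ⬝ᵥ (Pi.single 0 1 : Fin 3 → F) = 0 ∧ tL (Pi.single 0 1) φ 1 * g ∈ H) : False := by
  have he : (Pi.single 0 1 : Fin 3 → F) ≠ 0 := by
    intro h
    have := congrFun h 0
    simp at this
  -- ε₂ ⬝ e₁ = 0, ε₂ ⬝ e₀ = 0
  have h21 : (Pi.single 2 1 : Fin 3 → F) ⬝ᵥ (Pi.single 1 1 : Fin 3 → F) = 0 := by
    simp
  have h20 : (Pi.single 2 1 : Fin 3 → F) ⬝ᵥ (Pi.single 0 1 : Fin 3 → F) = 0 := by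
    simp
  obtain ⟨φ, hφe, hφH⟩ := hcompl (tL (Pi.single 1 1) (Pi.single 2 1) 1)
  have hφ0 : φ 0 = 0 := by
    simpa using hφe
  -- τ * τ = 1
  have hττ : tL (Pi.single 1 1 : Fin 3 → F) (Pi.single 2 1) 1 * tL (Pi.single 1 1) (Pi.single 2 1) 1
      = 1 := by
    rw [tL_mul]
    have : (1 : F) + 1 = 0 := by rw [one_add_one_eq_two, h2]
    rw [this, tL_zero]
  -- τ fixes e
  have hτe : (tL (Pi.single 1 1 : Fin 3 → F) (Pi.single 2 1) 1 : Matrix (Fin 3) (Fin 3) F) *ᵥ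
      (Pi.single 0 1 : Fin 3 → F) = (1 : F) • (Pi.single 0 1 : Fin 3 → F) := by
    rw [tL_mulVec h21, h20, mul_zero, zero_smul, add_zero, one_smul]
  have hform := mul_form (Pi.single 0 1 : Fin 3 → F) he
    (tL (Pi.single 1 1) (Pi.single 2 1) 1) (tL (Pi.single 1 1) (Pi.single 2 1) 1) 1 hτe φ φ hφe hφe
  rw [hττ, mul_one, tL_inv, tL_vecMul h21, one_smul] at hform
  have hmem : tL (Pi.single 0 1 : Fin 3 → F)
      (φ + (φ + (-1 * (φ ⬝ᵥ (Pi.single 1 1 : Fin 3 → F))) • (Pi.single 2 1 : Fin 3 → F))) 1 ∈ H := by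
    rw [← hform]
    exact H.mul_mem hφH hφH
  have hφφ : φ + φ = 0 := by
    rw [← two_smul F φ, h2, zero_smul]
  have hdot : (φ + (φ + (-1 * (φ ⬝ᵥ (Pi.single 1 1 : Fin 3 → F))) • (Pi.single 2 1 : Fin 3 → F)))
      ⬝ᵥ (Pi.single 0 1 : Fin 3 → F) = 0 := by
    rw [← add_assoc, hφφ, zero_add, smul_dotProduct, h20, smul_zero]
  have hz := hfree _ _ he hdot hmem
  rw [← add_assoc, hφφ, zero_add] at hz
  have hφ1 : φ 1 = 0 := by
    have := congrFun hz 2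
    simpa using this
  have hφeq : φ = (φ 2) • (Pi.single 2 1 : Fin 3 → F) := by
    funext i
    fin_cases i
    · simpa using hφ0
    · simpa using hφ1
    · simp
  rw [hφeq] at hφH
  refine no_prop H (Pi.single 0 1) hfree (Pi.single 1 1) (Pi.single 2 1) ?_ ?_ h20 h21 (φ 2) hφH
  · intro c h
    have := congrFun h 1
    simp at this
  · intro h
    have := congrFun h 2
    simp at this

end Cfsg.Agent.Lib.Helper94.MinIdx
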