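import Cfsg.Agent.Lib.Helper47.UniDefs

/-!
# S2676 piece ALTEX (helper94): existence of a nondegenerate alternating Gram matrix of even size
-/

set_option autoImplicit false

namespace Cfsg.Agent.Lib.Helper94.Uni

open Cfsg.Agent.Lib.Helper47 Module

universe u

variable {F : Type u} [Field F]

theorem exists_gram_alt (c : ℕ) :
    ∃ G : Fin (2 * c) → Fin (2 * c) → F, (∀ a b, G b a = -G a b) ∧ Nondeg (gForm G) := by
  classical
  refine ⟨fun a b => if b.val = a.val + c then 1 else if a.val = b.val + c then -1 else 0, ?_, ?_⟩
  · intro a b
    have ha := a.isLt
    have hb := b.isLt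
    show (if a.val = b.val + c then (1:F) else if b.val = a.val + c then -1 else 0)
      = -(if b.val = a.val + c then (1:F) else if a.val = b.val + c then -1 else 0)
    by_cases h1 : b.val = a.val + c
    · have h2 : ¬ (a.val = b.val + c) := by omega
      rw [if_neg h2, if_pos h1, if_pos h1]
    · by_cases h2 : a.val = b.val + c
      · rw [if_pos h2, if_neg h1, if_pos h2, neg_neg]
      · rw [if_neg h2, if_neg h1, if_neg h1, if_neg h2, neg_zero]
  · intro x hx
    funext a₀
    have ha := a₀.isLt
    show x a₀ = 0
    by_cases hlt : a₀.val < c
    · -- test against single (a₀ + c)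
      have hb : a₀.val + c < 2 * c := by omega
      have h := hx (Pi.single (⟨a₀.val + c, hb⟩ : Fin (2 * c)) 1)
      unfold gForm at h
      have h2 : ∀ a : Fin (2 * c), ∑ b, x a *
          (if b.val = a.val + c then (1:F) else if a.val = b.val + c then -1 else 0) *
          (Pi.single (⟨a₀.val + c, hb⟩ : Fin (2 * c)) (1:F) : Fin (2 * c) → F) b
          = if a = a₀ then x a else 0 := by
        intro a
        rw [Finset.sum_eq_single (⟨a₀.val + c, hb⟩ : Fin (2 * c))]
        · rw [Pi.single_eq_same, mul_one]
          by_cases haa : a = a₀
          · subst haa
            rw [if_pos rfl, if_pos rfl, mul_one]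
          · have hne : a.val ≠ a₀.val := fun h => haa (Fin.ext h)
            have h3 : ¬ (a₀.val + c = a.val + c) := by omega
            have h4 : ¬ (a.val = a₀.val + c + c) := by
              have := a.isLt
              omega
            rw [if_neg haa]
            show x a * (if a₀.val + c = a.val + c then (1:F) else
              if a.val = a₀.val + c + c then -1 else 0) = 0
            rw [if_neg h3, if_neg h4, mul_zero]
        · intro b _ hb'
          rw [Pi.single_eq_of_ne hb', mul_zero]
        · intro h
          exact absurd (Finset.mem_univ _) h
      have h5 : ∑ a : Fin (2 * c), (if a = a₀ then x a else 0) = 0 :=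
        (Finset.sum_congr rfl (fun a _ => (h2 a).symm)).trans h
      rw [Finset.sum_ite_eq' Finset.univ a₀ x, if_pos (Finset.mem_univ _)] at h5
      exact h5
    · have hb : a₀.val - c < 2 * c := by omega
      have h := hx (Pi.single (⟨a₀.val - c, hb⟩ : Fin (2 * c)) 1)
      unfold gForm at h
      have h2 : ∀ a : Fin (2 * c), ∑ b, x a *
          (if b.val = a.val + c then (1:F) else if a.val = b.val + c then -1 else 0) *
          (Pi.single (⟨a₀.val - c, hb⟩ : Fin (2 * c)) (1:F) : Fin (2 * c) → F) b
          = if a = a₀ then - x a else 0 := by
        intro a
        rw [Finset.sum_eq_single (⟨a₀.val - c, hb⟩ : Fin (2 * c))]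
        · rw [Pi.single_eq_same, mul_one]
          by_cases haa : a = a₀
          · subst haa
            have h3 : ¬ (a.val - c = a.val + c) := by omega
            have h4 : a.val = a.val - c + c := by omega
            rw [if_pos rfl]
            show x a * (if a.val - c = a.val + c then (1:F) else
              if a.val = a.val - c + c then -1 else 0) = - x a
            rw [if_neg h3, if_pos h4, mul_neg, mul_one]
          · have hne : a.val ≠ a₀.val := fun h => haa (Fin.ext h)
            have h3 : ¬ (a₀.val - c = a.val + c) := by
              have := a.isLt
              omega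
            have h4 : ¬ (a.val = a₀.val - c + c) := by omega
            rw [if_neg haa]
            show x a * (if a₀.val - c = a.val + c then (1:F) else
              if a.val = a₀.val - c + c then -1 else 0) = 0
            rw [if_neg h3, if_neg h4, mul_zero]
        · intro b _ hb'
          rw [Pi.single_eq_of_ne hb', mul_zero]
        · intro h
          exact absurd (Finset.mem_univ _) h
      have h5 : ∑ a : Fin (2 * c), (if a = a₀ then - x a else 0) = 0 :=
        (Finset.sum_congr rfl (fun a _ => (h2 a).symm)).trans h
      rw [Finset.sum_ite_eq' Finset.univ a₀ (fun a => - x a), if_pos (Finset.mem_univ _)] at h5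
      exact neg_eq_zero.mp h5

end Cfsg.Agent.Lib.Helper94.Uni
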