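import Cfsg.Agent.Lib.Helper47.UniDefs

/-!
# S2676 piece CAYA (helper94): basic properties of the Cayley transform of a matrix of
`p`-power-one in odd characteristic `p`
-/

set_option autoImplicit false

namespace Cfsg.Agent.Lib.Helper94.Uni

open Cfsg.Agent.Lib.Helper47 Module

universe u

variable {F : Type u} [Field F]

theorem cay_props (p : ℕ) [Fact p.Prime] [CharP F p] (hp : p ≠ 2) {n : Type*} [Fintype n]
    [DecidableEq n] (M : Matrix n n F) (hM : M ^ p = 1) :
    IsUnit (M + 1).det ∧ (cayM M) ^ p = 0 ∧ (cayM M = 0 ↔ M = 1) ∧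
      (1 - cayM M) * M = 1 + cayM M ∧ IsUnit (1 - cayM M).det := by
  rcases isEmpty_or_nonempty n with hn | hn
  · have hsub : ∀ A B : Matrix n n F, A = B := fun A B => by
      ext i j
      exact (IsEmpty.false i).elim
    refine ⟨?_, hsub _ _, ⟨fun _ => hsub _ _, fun _ => hsub _ _⟩, hsub _ _, ?_⟩
    · rw [Matrix.det_isEmpty]; exact isUnit_one
    · rw [Matrix.det_isEmpty]; exact isUnit_one
  · have : CharP (Matrix n n F) p := Matrix.charP p
    have hpp : p.Prime := Fact.out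
    -- (M - 1)^p = 0
    have hnil : (M - 1) ^ p = 0 := by
      rw [sub_pow_char_of_commute p (Commute.one_right M), hM, one_pow, sub_self]
    have h2 : (2 : F) ≠ 0 := by
      intro h
      have h2' : ((2 : ℕ) : F) = 0 := by exact_mod_cast h
      rw [CharP.cast_eq_zero_iff F p] at h2'
      have := (Nat.prime_dvd_prime_iff_eq hpp Nat.prime_two).mp h2'
      exact hp this
    -- M + 1 = (M - 1) + 2
    have hu2 : IsUnit ((2 : F) • (1 : Matrix n n F)) := by
      rw [Matrix.isUnit_iff_isUnit_det, Matrix.det_smul, Matrix.det_one, mul_one]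
      exact (isUnit_iff_ne_zero.mpr h2).pow _
    have hcomm : Commute (M - 1) ((2 : F) • (1 : Matrix n n F)) := by
      refine Commute.smul_right (Commute.one_right _) _
    have huM : IsUnit (M + 1) := by
      have : M + 1 = (M - 1) + (2 : F) • (1 : Matrix n n F) := by
        rw [two_smul]; abel
      rw [this]
      exact IsNilpotent.isUnit_add_right_of_commute ⟨p, hnil⟩ hu2 hcomm
    have hudet : IsUnit (M + 1).det := (Matrix.isUnit_iff_isUnit_det _).mp huM
    have hinv1 : (M + 1) * (M + 1)⁻¹ = 1 := Matrix.mul_nonsing_inv _ hudet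
    have hinv2 : (M + 1)⁻¹ * (M + 1) = 1 := Matrix.nonsing_inv_mul _ hudet
    have hc1 : Commute (M - 1) (M + 1) := by
      refine Commute.add_right (Commute.sub_left (Commute.refl M) (Commute.one_left M)) (Commute.one_right _)
    have hc2 : Commute (M - 1) (M + 1)⁻¹ := by
      -- (M-1) * inv = inv * (M+1) * (M - 1) * inv = inv * (M-1) * (M+1) * inv = inv * (M-1)
      show (M - 1) * (M + 1)⁻¹ = (M + 1)⁻¹ * (M - 1)
      calc (M - 1) * (M + 1)⁻¹ = (M + 1)⁻¹ * ((M + 1) * (M - 1)) * (M + 1)⁻¹ := by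
            rw [← mul_assoc, hinv2, one_mul]
        _ = (M + 1)⁻¹ * ((M - 1) * (M + 1)) * (M + 1)⁻¹ := by rw [hc1.eq]
        _ = (M + 1)⁻¹ * (M - 1) := by
            rw [mul_assoc, mul_assoc, hinv1, mul_one]
    have hcay : cayM M = (M - 1) * (M + 1)⁻¹ := rfl
    have hcnil : (cayM M) ^ p = 0 := by
      rw [hcay, hc2.mul_pow, hnil, zero_mul]
    have hkey : (1 - cayM M) * (M + 1) = (2 : F) • (1 : Matrix n n F) := by
      rw [hcay, sub_mul, one_mul, mul_assoc, hinv2, mul_one, two_smul]; abel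
    refine ⟨hudet, hcnil, ⟨fun h => ?_, fun h => ?_⟩, ?_, ?_⟩
    · -- cayM M = 0 → M = 1
      have : (M - 1) = 0 := by
        have h3 : cayM M * (M + 1) = M - 1 := by
          rw [hcay, mul_assoc, hinv2, mul_one]
        rw [← h3, h, zero_mul]
      exact sub_eq_zero.mp this
    · rw [hcay, h, sub_self, zero_mul]
    · -- (1 - C) * M = 1 + C
      have h3 : cayM M * (M + 1) = M - 1 := by
        rw [hcay, mul_assoc, hinv2, mul_one]
      have h4 : cayM M * M = M - 1 - cayM M := by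
        rw [← h3, mul_add, mul_one]; abel
      rw [sub_mul, one_mul, h4]; abel
    · rw [← Matrix.isUnit_iff_isUnit_det]
      exact IsNilpotent.isUnit_one_sub ⟨p, hcnil⟩

theorem cay_conj {n : Type*} [Fintype n] [DecidableEq n] (M M' P : Matrix n n F)
    (hu : IsUnit (M + 1).det) (hu' : IsUnit (M' + 1).det) (h : P * M = M' * P) :
    P * cayM M = cayM M' * P := by
  have hinv1 : (M + 1) * (M + 1)⁻¹ = 1 := Matrix.mul_nonsing_inv _ hu
  have hinv2' : (M' + 1)⁻¹ * (M' + 1) = 1 := Matrix.nonsing_inv_mul _ hu'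
  have hinv1' : (M' + 1) * (M' + 1)⁻¹ = 1 := Matrix.mul_nonsing_inv _ hu'
  have h1 : P * (M + 1) = (M' + 1) * P := by
    rw [mul_add, add_mul, h, mul_one, one_mul]
  have h2 : P * (M - 1) = (M' - 1) * P := by
    rw [mul_sub, sub_mul, h, mul_one, one_mul]
  -- P * (M+1)⁻¹ = (M'+1)⁻¹ * P
  have h3 : P * (M + 1)⁻¹ = (M' + 1)⁻¹ * P := by
    calc P * (M + 1)⁻¹ = (M' + 1)⁻¹ * ((M' + 1) * P) * (M + 1)⁻¹ := by
          rw [← mul_assoc, hinv2', one_mul]
      _ = (M' + 1)⁻¹ * (P * (M + 1)) * (M + 1)⁻¹ := by rw [h1]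
      _ = (M' + 1)⁻¹ * P := by rw [mul_assoc, mul_assoc, hinv1, mul_one]
  show P * ((M - 1) * (M + 1)⁻¹) = (M' - 1) * (M' + 1)⁻¹ * P
  rw [← mul_assoc, h2, mul_assoc, h3, mul_assoc]

end Cfsg.Agent.Lib.Helper94.Uni
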