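import Mathlib
import Cfsg.Agent.Lib.Helper48.DCA
import Cfsg.Agent.Lib.Helper25.StChev3
import Cfsg.Agent.Lib.Helper25.ChevPara
import Cfsg.Agent.Lib.Helper24.ChevTriData

/-!
# Project DC (S2318), piece HGEN (helper94): a function on `G` that is `1` on `U` and extends
to linear characters of all minimal parabolic subgroups is `1` on `B`
-/

set_option autoImplicit false

namespace Cfsg.Agent.Lib.Helper48.DC

open Cfsg Cfsg.Lie

variable {F : Type*} [Field F] [Fintype F]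

/-- the root element `x_r(t)` as an element of the Chevalley group -/
def hgen_xg (D : ChevalleyDatum)
    (hD : D ∈ [chevG2, chevB2, chevD4, chevF4, chevE6, chevE7, chevE8]) (r : ℕ) (t : F) :
    ↥(D.group F) :=
  ⟨Cfsg.Agent.Lib.Helper24.xGL D hD r t, Cfsg.Agent.Lib.Helper24.xGL_mem_group D hD r t⟩

omit [Fintype F] in
theorem hgen_xg_val (D : ChevalleyDatum)
    (hD : D ∈ [chevG2, chevB2, chevD4, chevF4, chevE6, chevE7, chevE8]) (r : ℕ) (t : F) :
    (((hgen_xg D hD r t : ↥(D.group F)) : GL D.Idx F) : Matrix D.Idx D.Idx F) = D.x F r t := rfl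

/-- `n_r(c)` as an element of the Chevalley group -/
def hgen_ng (D : ChevalleyDatum)
    (hD : D ∈ [chevG2, chevB2, chevD4, chevF4, chevE6, chevE7, chevE8]) (r : ℕ) (c : F) :
    ↥(D.group F) :=
  hgen_xg D hD r c * (hgen_xg D hD (D.neg r) (-c⁻¹) * hgen_xg D hD r c)

omit [Fintype F] in
theorem hgen_ng_val (D : ChevalleyDatum)
    (hD : D ∈ [chevG2, chevB2, chevD4, chevF4, chevE6, chevE7, chevE8]) (r : ℕ) (c : F) :
    (((hgen_ng D hD r c : ↥(D.group F)) : GL D.Idx F) : Matrix D.Idx D.Idx F) = D.nMat F r c := by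
  rw [Cfsg.Agent.Lib.Helper25.nMat_eq_x]
  rfl

/-- `h_r(c)` as an element of the Chevalley group -/
def hgen_hg (D : ChevalleyDatum)
    (hD : D ∈ [chevG2, chevB2, chevD4, chevF4, chevE6, chevE7, chevE8]) (r : ℕ) (c : F) :
    ↥(D.group F) :=
  hgen_ng D hD r c * hgen_ng D hD r (-1)

omit [Fintype F] in
theorem hgen_hg_val (D : ChevalleyDatum)
    (hD : D ∈ [chevG2, chevB2, chevD4, chevF4, chevE6, chevE7, chevE8]) (r : ℕ) (c : F) :
    (((hgen_hg D hD r c : ↥(D.group F)) : GL D.Idx F) : Matrix D.Idx D.Idx F) = D.hMat F r c := by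
  rw [Cfsg.Agent.Lib.Helper24.hMat_eq_nMat_mul, ← hgen_ng_val D hD r c, ← hgen_ng_val D hD r (-1)]
  rfl

/-- HGEN -/
theorem Bg_hgen (D : ChevalleyDatum)
    (hD : D ∈ [chevG2, chevB2, chevD4, chevF4, chevE6, chevE7, chevE8])
    (τ : ↥(D.group F) → ℂ) (hU : ∀ u ∈ Ug F D, τ u = 1)
    (hext : ∀ i < D.rank, ∃ η : ↥(Pg F D i) →* ℂˣ,
      ∀ b : ↥(Pg F D i), (b : ↥(D.group F)) ∈ Bg F D → ((η b : ℂˣ) : ℂ) = τ b) :
    ∀ b ∈ Bg F D, τ b = 1 := by
  have hD' : D ∈ Cfsg.Agent.Lib.Helper24.chevList := hD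
  have hUB : Ug F D ≤ Bg F D := by
    intro g hg
    exact (le_sup_left : D.posUnipotent F ≤ D.posUnipotent F ⊔ D.diagonalSubgroup F) hg
  have hBP : ∀ i, Bg F D ≤ Pg F D i := by
    intro i g hg
    have h1 : (g : GL D.Idx F) ∈ D.borelSubgroup F := hg
    have h2 : (g : GL D.Idx F) ∈ D.parabolicSubgroup F (↑({i} : Finset ℕ) : Set ℕ) := by
      unfold ChevalleyDatum.parabolicSubgroup
      exact Subgroup.mem_sup_left h1
    exact h2
  -- multiplicativity of `τ` on `B`
  have hmul : ∀ b ∈ Bg F D, ∀ b' ∈ Bg F D, τ (b * b') = τ b * τ b' := by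
    intro b hb b' hb'
    obtain ⟨η, hη⟩ := hext 0 (Cfsg.Agent.Lib.Helper24.rank_pos_of_mem D hD')
    have h1 := hη ⟨b, hBP 0 hb⟩ hb
    have h2 := hη ⟨b', hBP 0 hb'⟩ hb'
    have h3 := hη (⟨b, hBP 0 hb⟩ * ⟨b', hBP 0 hb'⟩) (mul_mem hb hb')
    rw [map_mul, Units.val_mul, h1, h2] at h3
    exact h3.symm
  -- `τ (h_i(c)) = 1`
  have hh : ∀ i < D.rank, ∀ c : F, c ≠ 0 →
      hgen_hg D hD (D.simple i) c ∈ Bg F D ∧ τ (hgen_hg D hD (D.simple i) c) = 1 := by
    intro i hi c hc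
    have hp : D.simple i < D.nroots := Cfsg.Agent.Lib.Helper24.simple_lt D hD' i hi
    obtain ⟨η, hη⟩ := hext i hi
    have hxU : ∀ t : F, hgen_xg D hD (D.simple i) t ∈ Ug F D := by
      intro t
      have h1 : (hgen_xg D hD (D.simple i) t : GL D.Idx F) ∈ D.posUnipotent F :=
        Subgroup.subset_closure
          ⟨D.simple i, t, (Cfsg.Agent.Lib.Helper25.upChk_all D hD i hi).1, rfl⟩
      exact h1
    have hxP : ∀ t : F, hgen_xg D hD (D.simple i) t ∈ Pg F D i := fun t => hBP i (hUB (hxU t))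
    have hxnP : ∀ t : F, hgen_xg D hD (D.neg (D.simple i)) t ∈ Pg F D i := by
      intro t
      have h1 : (hgen_xg D hD (D.neg (D.simple i)) t : GL D.Idx F) ∈
          D.parabolicSubgroup F (↑({i} : Finset ℕ) : Set ℕ) := by
        rw [Cfsg.Agent.Lib.Helper25.parabolic_eq D hD]
        apply Subgroup.mem_sup_right
        apply Subgroup.subset_closure
        exact ⟨D.neg (D.simple i), t,
          Or.inr (Cfsg.Agent.Lib.Helper25.neg_simple_inRootSub D hD _ i hi (by simp)), rfl⟩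
      exact h1
    have hσP : hgen_ng D hD (D.simple i) 1 ∈ Pg F D i :=
      mul_mem (hxP _) (mul_mem (hxnP _) (hxP _))
    have e1 : ∀ t : F, η ⟨_, hxP t⟩ = 1 := by
      intro t
      apply Units.ext
      rw [hη ⟨_, hxP t⟩ (hUB (hxU t)), Units.val_one]
      exact hU _ (hxU t)
    have hrefl : D.reflectRoot i (D.simple i) = D.neg (D.simple i) := by
      unfold ChevalleyDatum.reflectRoot
      simp
    have hconj : ∀ t : F, hgen_ng D hD (D.simple i) 1 * hgen_xg D hD (D.simple i) t =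
        hgen_xg D hD (D.neg (D.simple i))
          (((Cfsg.Agent.Lib.Helper25.nEta D i (D.simple i) : ℤ) : F) * t) *
          hgen_ng D hD (D.simple i) 1 := by
      intro t
      apply Subtype.ext
      apply Units.ext
      have := Cfsg.Agent.Lib.Helper25.n_simple_conj (F := F) D hD i hi (D.simple i) hp t
      rw [hrefl] at this
      rw [Subgroup.coe_mul, Subgroup.coe_mul, Units.val_mul, Units.val_mul, hgen_ng_val,
        hgen_xg_val, hgen_xg_val]
      exact this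
    have e2 : ∀ t : F, η ⟨_, hxnP t⟩ = 1 := by
      intro t
      have hε : ((Cfsg.Agent.Lib.Helper25.nEta D i (D.simple i) : ℤ) : F) *
          (((Cfsg.Agent.Lib.Helper25.nEta D i (D.simple i) : ℤ) : F) * t) = t := by
        rcases Cfsg.Agent.Lib.Helper25.nEta_cases D i (D.simple i) with h | h <;> rw [h] <;> simp
      have h1 := hconj (((Cfsg.Agent.Lib.Helper25.nEta D i (D.simple i) : ℤ) : F) * t)
      rw [hε] at h1
      have h2 : (⟨_, hσP⟩ : ↥(Pg F D i)) *
          ⟨_, hxP (((Cfsg.Agent.Lib.Helper25.nEta D i (D.simple i) : ℤ) : F) * t)⟩ =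
          ⟨_, hxnP t⟩ * ⟨_, hσP⟩ := Subtype.ext h1
      have h3 := congrArg η h2
      rw [map_mul, map_mul, e1, mul_one] at h3
      have h4 : η ⟨_, hxnP t⟩ * η ⟨_, hσP⟩ = 1 * η ⟨_, hσP⟩ := by
        rw [one_mul]
        exact h3.symm
      exact mul_right_cancel h4
    have e3 : ∀ c : F, ∃ h : hgen_ng D hD (D.simple i) c ∈ Pg F D i, η ⟨_, h⟩ = 1 := by
      intro c
      refine ⟨mul_mem (hxP _) (mul_mem (hxnP _) (hxP _)), ?_⟩
      have h1 : (⟨hgen_ng D hD (D.simple i) c, mul_mem (hxP _) (mul_mem (hxnP _) (hxP _))⟩ :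
          ↥(Pg F D i)) = ⟨_, hxP c⟩ * (⟨_, hxnP (-c⁻¹)⟩ * ⟨_, hxP c⟩) := rfl
      rw [h1, map_mul, map_mul, e1, e2, mul_one, mul_one]
    have hB : hgen_hg D hD (D.simple i) c ∈ Bg F D := by
      have h1 : (hgen_hg D hD (D.simple i) c : GL D.Idx F) ∈
          D.posUnipotent F ⊔ D.diagonalSubgroup F := by
        apply Subgroup.mem_sup_right
        apply Subgroup.subset_closure
        exact ⟨D.simple i, c, hp, hc, hgen_hg_val D hD _ c⟩
      exact h1
    refine ⟨hB, ?_⟩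
    obtain ⟨hn1, en1⟩ := e3 c
    obtain ⟨hn2, en2⟩ := e3 (-1)
    have h5 := hη ⟨_, hBP i hB⟩ hB
    have h6 : (⟨hgen_hg D hD (D.simple i) c, hBP i hB⟩ : ↥(Pg F D i)) =
        ⟨_, hn1⟩ * ⟨_, hn2⟩ := rfl
    rw [h6, map_mul, en1, en2, mul_one, Units.val_one] at h5
    exact h5.symm
  -- products of the `h_i(c_i)`
  have hprod : ∀ (c : ℕ → F) (l : List ℕ), (∀ i ∈ l, i < D.rank ∧ c i ≠ 0) →
      (l.map fun i => hgen_hg D hD (D.simple i) (c i)).prod ∈ Bg F D ∧
        τ (l.map fun i => hgen_hg D hD (D.simple i) (c i)).prod = 1 := by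
    intro c l
    induction l with
    | nil =>
      intro _
      rw [List.map_nil, List.prod_nil]
      exact ⟨one_mem _, hU 1 (one_mem _)⟩
    | cons i l ih =>
      intro hl
      obtain ⟨hi, hci⟩ := hl i List.mem_cons_self
      obtain ⟨h1, h2⟩ := hh i hi (c i) hci
      obtain ⟨h3, h4⟩ := ih (fun j hj => hl j (List.mem_cons_of_mem _ hj))
      rw [List.map_cons, List.prod_cons]
      exact ⟨mul_mem h1 h3, by rw [hmul _ h1 _ h3, h2, h4, mul_one]⟩
  have hval : ∀ (c : ℕ → F) (l : List ℕ),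
      ((((l.map fun i => hgen_hg D hD (D.simple i) (c i)).prod : ↥(D.group F)) : GL D.Idx F) :
        Matrix D.Idx D.Idx F) =
      D.wordMat F (l.flatMap fun i => D.hWord (D.simple i) (c i)) := by
    intro c l
    induction l with
    | nil =>
      rw [List.map_nil, List.prod_nil, List.flatMap_nil]
      rfl
    | cons i l ih =>
      rw [List.map_cons, List.prod_cons, List.flatMap_cons,
        Cfsg.Agent.Lib.Helper24.wordMat_append, Subgroup.coe_mul, Units.val_mul, ih, hgen_hg_val]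
      rfl
  intro b hb
  have hb' : (b : GL D.Idx F) ∈ D.posUnipotent F ⊔ D.diagonalSubgroup F := hb
  have hK : D.diagonalSubgroup F ≤
      Subgroup.normalizer (D.posUnipotent F : Set (GL D.Idx F)) :=
    Cfsg.Agent.Lib.Helper24.diagonal_le_normalizer_rootGen D hD' D.IsPosRoot (fun r hr => hr.1)
  obtain ⟨u, hu, h, hh', hbuh⟩ :=
    Cfsg.Agent.Lib.Helper25.mem_sup_of_le_normalizer _ _ hK _ hb'
  obtain ⟨c, hc, hval'⟩ := Cfsg.Agent.Lib.Helper24.diagonal_eq_prod_simple D hD' h hh'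
  obtain ⟨hpB, hpτ⟩ := hprod c (List.range D.rank)
    (fun i hi => ⟨List.mem_range.mp hi, hc i (List.mem_range.mp hi)⟩)
  have hhe : h = (((List.range D.rank).map fun i => hgen_hg D hD (D.simple i) (c i)).prod :
      ↥(D.group F)) := by
    apply Units.ext
    rw [hval', hval]
  have huG : u ∈ D.group F := Cfsg.Agent.Lib.Helper24.posUnipotent_le_group D hD' hu
  have hbe : b = ⟨u, huG⟩ *
      ((List.range D.rank).map fun i => hgen_hg D hD (D.simple i) (c i)).prod := by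
    apply Subtype.ext
    rw [Subgroup.coe_mul, ← hhe]
    exact hbuh
  have huU : (⟨u, huG⟩ : ↥(D.group F)) ∈ Ug F D := hu
  rw [hbe, hmul _ (hUB huU) _ hpB, hU _ huU, hpτ, mul_one]

end Cfsg.Agent.Lib.Helper48.DC
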