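import Mathlib
import Cfsg.Agent.Lib.Helper48.SVA

/-!
# S2425, piece KAPPA (helper94): last-block recursion for the permutations `κ` with `κ i ≤ i + 1`
-/

set_option autoImplicit false

namespace Cfsg.Agent.Lib.Helper48.SV

open Cfsg
open scoped MatrixGroups Polynomial

/-- last-point decomposition of a permutation of `Fin (n+1)` -/
def kappa_dec (n : ℕ) : Equiv.Perm (Fin (n + 1)) ≃ Fin (n + 1) × Equiv.Perm (Fin n) :=
  ((Equiv.permCongr finSuccEquivLast).trans Equiv.Perm.decomposeOption).trans
    (Equiv.prodCongr finSuccEquivLast.symm (Equiv.refl _))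

theorem kappa_dec_last {n : ℕ} (p : Fin (n + 1)) (e : Equiv.Perm (Fin n)) :
    (kappa_dec n).symm (p, e) (Fin.last n) = p := by
  simp [kappa_dec]

theorem kappa_dec_castSucc {n : ℕ} (p : Fin (n + 1)) (e : Equiv.Perm (Fin n)) (x : Fin n) :
    (kappa_dec n).symm (p, e) x.castSucc = Equiv.swap (Fin.last n) p (e x).castSucc := by
  refine Fin.lastCases ?_ ?_ p
  · simp [kappa_dec]
  · intro i
    by_cases h : i = e x
    · simp [h, kappa_dec]
    · simp [kappa_dec, Equiv.swap_apply_def, Ne.symm h]

theorem kappa_dec_sign {n : ℕ} (p : Fin (n + 1)) (e : Equiv.Perm (Fin n)) :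
    Equiv.Perm.sign ((kappa_dec n).symm (p, e)) =
      (if p = Fin.last n then 1 else -1) * Equiv.Perm.sign e := by
  refine Fin.lastCases ?_ ?_ p <;> simp [kappa_dec]

/-- the sum over the valid permutations -/
noncomputable def kappa_S {A : Type*} [AddCommGroup A] (n : ℕ) (Φ : List ℕ → A) : A :=
  ∑ κ : Equiv.Perm (Fin n),
    (if valid κ then ((Equiv.Perm.sign κ : ℤˣ) : ℤ) • Φ (muList κ) else 0)

/-- lengthen the last block -/
def kappa_bump (l : List ℕ) : List ℕ := l.dropLast ++ [0, l.getLastD 0 + 1]

theorem kappa_bump_concat (l : List ℕ) (a : ℕ) : kappa_bump (l ++ [a]) = l ++ [0, a + 1] := by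
  simp [kappa_bump]

theorem kappa_valid_last {n : ℕ} (e : Equiv.Perm (Fin n)) :
    valid ((kappa_dec n).symm (Fin.last n, e)) ↔ valid e := by
  unfold valid
  constructor
  · intro h x
    have h1 := h x.castSucc
    rw [kappa_dec_castSucc, Equiv.swap_self] at h1
    simpa using h1
  · intro h i
    refine Fin.lastCases ?_ (fun x => ?_) i
    · rw [kappa_dec_last]; simp
    · rw [kappa_dec_castSucc, Equiv.swap_self]; simpa using h x

theorem kappa_swap_castSucc {k : ℕ} (j y : Fin (k + 1)) :
    Equiv.swap (Fin.last (k + 1)) j.castSucc y.castSucc =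
      if y = j then Fin.last (k + 1) else y.castSucc := by
  by_cases h : y = j
  · subst h; simp
  · rw [if_neg h]
    exact Equiv.swap_apply_of_ne_of_ne (Fin.castSucc_ne_last y)
      (fun h' => h (Fin.castSucc_injective _ h'))

theorem kappa_val_castSucc {k : ℕ} (j : Fin (k + 1)) (e : Equiv.Perm (Fin (k + 1)))
    (x : Fin (k + 1)) :
    (((kappa_dec (k + 1)).symm (j.castSucc, e)) x.castSucc).val =
      if e x = j then k + 1 else (e x).val := by
  rw [kappa_dec_castSucc, kappa_swap_castSucc]
  split_ifs <;> simp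

theorem kappa_valid_castSucc {k : ℕ} (j : Fin (k + 1)) (e : Equiv.Perm (Fin (k + 1))) :
    valid ((kappa_dec (k + 1)).symm (j.castSucc, e)) ↔ valid e ∧ j = e (Fin.last k) := by
  unfold valid
  constructor
  · intro h
    have hj : j = e (Fin.last k) := by
      have h1 := h (e.symm j).castSucc
      rw [kappa_val_castSucc] at h1
      simp only [Equiv.apply_symm_apply, if_true, Fin.val_castSucc] at h1
      have h2 : e.symm j = Fin.last k := by
        apply Fin.ext
        have h3 := (e.symm j).isLt
        simp only [Fin.val_last]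
        omega
      rw [← h2]; simp
    refine ⟨fun x => ?_, hj⟩
    have h1 := h x.castSucc
    rw [kappa_val_castSucc] at h1
    simp only [Fin.val_castSucc] at h1
    split_ifs at h1 with hx
    · have h3 := (e x).isLt
      omega
    · exact h1
  · rintro ⟨h, hj⟩ i
    refine Fin.lastCases ?_ (fun x => ?_) i
    · have h3 := ((kappa_dec (k + 1)).symm (j.castSucc, e) (Fin.last (k + 1))).isLt
      simp only [Fin.val_last]
      omega
    · rw [kappa_val_castSucc]
      simp only [Fin.val_castSucc]
      split_ifs with hx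
      · have h4 : x = Fin.last k := e.injective (hx.trans hj)
        subst h4; simp
      · exact h x

theorem kappa_muList_last {n : ℕ} (e : Equiv.Perm (Fin n)) :
    muList ((kappa_dec n).symm (Fin.last n, e)) = muList e ++ [1] := by
  unfold muList
  rw [List.ofFn_succ', List.concat_eq_append]
  congr 1
  · congr 1
    funext x
    rw [kappa_dec_castSucc, Equiv.swap_self]
    simp
  · rw [kappa_dec_last]; simp

theorem kappa_muList_castSucc {k : ℕ} (e : Equiv.Perm (Fin (k + 1))) :
    muList ((kappa_dec (k + 1)).symm ((e (Fin.last k)).castSucc, e)) = kappa_bump (muList e) := by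
  unfold muList
  rw [List.ofFn_succ' (n := k + 1), List.ofFn_succ' (n := k), List.ofFn_succ' (n := k)]
  simp only [List.concat_eq_append]
  rw [kappa_bump_concat, kappa_dec_last]
  have h1 : (fun i : Fin k => 1 + (i.castSucc.castSucc : Fin (k + 2)).val -
      (((kappa_dec (k + 1)).symm ((e (Fin.last k)).castSucc, e)) i.castSucc.castSucc).val) =
      fun i : Fin k => 1 + (i.castSucc : Fin (k + 1)).val - (e i.castSucc).val := by
    funext i
    rw [kappa_val_castSucc]
    have hne : e i.castSucc ≠ e (Fin.last k) := fun h =>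
      Fin.castSucc_ne_last i (e.injective h)
    rw [if_neg hne]
    simp
  have h2 : 1 + ((Fin.last k).castSucc : Fin (k + 2)).val -
      (((kappa_dec (k + 1)).symm ((e (Fin.last k)).castSucc, e)) (Fin.last k).castSucc).val = 0 := by
    rw [kappa_val_castSucc]
    simp only [if_true, Fin.val_castSucc, Fin.val_last]
    omega
  have h3 : 1 + (Fin.last (k + 1)).val - ((e (Fin.last k)).castSucc : Fin (k + 2)).val =
      1 + (Fin.last k).val - (e (Fin.last k)).val + 1 := by
    have h4 := (e (Fin.last k)).isLt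
    simp only [Fin.val_last, Fin.val_castSucc]
    omega
  rw [h1, h2, h3]
  simp

theorem kappa_S_zero {A : Type*} [AddCommGroup A] (Φ : List ℕ → A) : kappa_S 0 Φ = Φ [] := by
  unfold kappa_S
  rw [Fintype.sum_eq_single (1 : Equiv.Perm (Fin 0)) (fun κ h => absurd (Subsingleton.elim κ 1) h)]
  have hv : valid (1 : Equiv.Perm (Fin 0)) := fun i => i.elim0
  rw [if_pos hv]
  simp [muList]

theorem kappa_S_one {A : Type*} [AddCommGroup A] (Φ : List ℕ → A) : kappa_S 1 Φ = Φ [1] := by
  unfold kappa_S
  rw [Fintype.sum_eq_single (1 : Equiv.Perm (Fin 1)) (fun κ h => absurd (Subsingleton.elim κ 1) h)]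
  have hv : valid (1 : Equiv.Perm (Fin 1)) := fun i => by simp
  rw [if_pos hv]
  simp [muList]

theorem kappa_S_neg {A : Type*} [AddCommGroup A] (n : ℕ) (Φ : List ℕ → A) :
    kappa_S n (fun l => - Φ l) = - kappa_S n Φ := by
  unfold kappa_S
  rw [← Finset.sum_neg_distrib]
  apply Finset.sum_congr rfl
  intro κ _
  split_ifs
  · rw [smul_neg]
  · rw [neg_zero]

/-- peeling the last point -/
theorem kappa_peel {A : Type*} [AddCommGroup A] (Φ : List ℕ → A) (k : ℕ) :
    kappa_S (k + 2) Φ =
      kappa_S (k + 1) (fun l => Φ (l ++ [1])) - kappa_S (k + 1) (fun l => Φ (kappa_bump l)) := by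
  unfold kappa_S
  rw [← (kappa_dec (k + 1)).symm.sum_comp, Fintype.sum_prod_type_right, ← Finset.sum_sub_distrib]
  apply Finset.sum_congr rfl
  intro e _
  have hne : Fin.last (k + 1) ≠ (e (Fin.last k)).castSucc :=
    fun h => Fin.castSucc_ne_last _ h.symm
  rw [Fintype.sum_eq_add (Fin.last (k + 1)) ((e (Fin.last k)).castSucc) hne]
  · rw [kappa_muList_last, kappa_muList_castSucc, kappa_dec_sign, kappa_dec_sign,
      if_pos rfl, if_neg (Ne.symm hne)]
    by_cases hv : valid e
    · rw [if_pos ((kappa_valid_last e).mpr hv),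
        if_pos ((kappa_valid_castSucc _ e).mpr ⟨hv, rfl⟩), if_pos hv, if_pos hv]
      simp [sub_eq_add_neg]
    · rw [if_neg (fun h => hv ((kappa_valid_last e).mp h)),
        if_neg (fun h => hv ((kappa_valid_castSucc _ e).mp h).1), if_neg hv, if_neg hv]
      simp
  · intro p hp
    refine if_neg (fun hval => ?_)
    revert hp hval
    refine Fin.lastCases ?_ (fun j => ?_) p
    · intro hp _
      exact hp.1 rfl
    · intro hp hval
      exact hp.2 (congrArg Fin.castSucc ((kappa_valid_castSucc j e).mp hval).2)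

theorem kappa_main {A : Type*} [AddCommGroup A] (n : ℕ) : ∀ Φ : List ℕ → A,
    kappa_S (n + 1) Φ = ∑ m ∈ Finset.range (n + 1),
      kappa_S (n - m) (fun l => (-1 : ℤ) ^ m • Φ (l ++ List.replicate m 0 ++ [m + 1])) := by
  induction n with
  | zero =>
    intro Φ
    rw [Finset.sum_range_one, kappa_S_one, kappa_S_zero]
    simp
  | succ k ih =>
    intro Φ
    rw [kappa_peel, Finset.sum_range_succ', ih (fun l => Φ (kappa_bump l)), sub_eq_add_neg,
      add_comm, ← Finset.sum_neg_distrib]
    congr 1
    · apply Finset.sum_congr rfl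
      intro m _
      rw [← kappa_S_neg, Nat.succ_sub_succ]
      congr 1
      funext l
      rw [kappa_bump_concat, pow_succ, mul_neg_one, neg_smul, List.replicate_succ',
        List.append_assoc, List.append_assoc, List.append_assoc]
      simp
    · congr 1
      funext l
      simp

/-- piece KAPPA: the last-block recursion for the permutations `κ` with `κ i ≤ i + 1`. -/
theorem kappa_rec {A : Type*} [AddCommGroup A] (Φ : List ℕ → A) (n : ℕ) :
    ∑ κ : Equiv.Perm (Fin (n + 1)),
      (if valid κ then ((Equiv.Perm.sign κ : ℤˣ) : ℤ) • Φ (muList κ) else 0) =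
    ∑ m ∈ Finset.range (n + 1), ∑ κ : Equiv.Perm (Fin (n - m)),
      (if valid κ then ((-1 : ℤ) ^ m * ((Equiv.Perm.sign κ : ℤˣ) : ℤ)) •
        Φ (muList κ ++ List.replicate m 0 ++ [m + 1]) else 0) := by
  have h := kappa_main n Φ
  unfold kappa_S at h
  rw [h]
  apply Finset.sum_congr rfl
  intro m _
  apply Finset.sum_congr rfl
  intro κ _
  split_ifs
  · rw [smul_smul, mul_comm]
  · rfl

end Cfsg.Agent.Lib.Helper48.SV
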