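import Mathlib
import Cfsg.Agent.Lib.Helper47.InvSL
import Cfsg.Agent.Lib.Helper98.SympF

/-!
# S6002 piece SM-SQ (helper94): the characteristic polynomial of a non-scalar `4 × 4` matrix of
determinant one whose square is a scalar `z` with `z * z = 1` (odd characteristic, finite field)
-/

set_option autoImplicit false

namespace Cfsg.Agent.Lib.Helper98.SM

open Matrix Polynomial

/-- the `Fin 4` version of `charpoly_sq_scalar` -/
theorem smsq_charpoly_fin4 {F : Type*} [Field F] [Finite F] (h2 : (2 : F) ≠ 0)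
    (M : Matrix (Fin 4) (Fin 4) F) (z : F) (hz : z * z = 1)
    (hM : M * M = z • (1 : Matrix (Fin 4) (Fin 4) F)) (hdet : M.det = 1)
    (hns : ∀ l : F, M ≠ l • (1 : Matrix (Fin 4) (Fin 4) F)) :
    M.charpoly = (X ^ 2 - C z) ^ 2 := by
  have : Fintype F := Fintype.ofFinite F
  have hz0 : z ≠ 0 := by
    intro h
    rw [h, mul_zero] at hz
    exact zero_ne_one hz
  rcases Cfsg.Agent.Lib.Helper47.inv_classes M z hz0 hM with ⟨-, hss, hcase⟩ | ⟨h2', -⟩
  · rcases hcase with ⟨c, a, b, hzc, hab, hcp⟩ | ⟨-, m, hm, hcp⟩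
    · -- split case
      have hc4 : c ^ 4 = 1 := by
        have : c ^ 4 = (c ^ 2) * (c ^ 2) := by ring
        rw [this, ← hzc, hz]
      have hdet' : M.det = (-1) ^ a := by
        rw [Matrix.det_eq_sign_charpoly_coeff, hcp, Fintype.card_fin, coeff_zero_eq_eval_zero]
        simp only [eval_mul, eval_pow, eval_sub, eval_X, eval_C, zero_sub, neg_neg]
        have e1 : ((-1 : F)) ^ 4 = 1 := by norm_num
        have e2 : (-c) ^ a * c ^ b = (-1) ^ a * c ^ (a + b) := by
          rw [neg_pow, pow_add]; ring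
        rw [e1, one_mul, e2, hab, hc4, mul_one]
      rw [hdet] at hdet'
      have ha4 : a ≤ 4 := by omega
      have hm1 : (-1 : F) ≠ 1 := by
        intro h
        apply h2
        linear_combination -h
      interval_cases a
      · -- a = 0, b = 4
        exfalso
        have hb : b = 4 := by omega
        subst hb
        rw [pow_zero, one_mul] at hcp
        exact hns (-c) (Cfsg.Agent.Lib.Helper98.Symp.eq_smul_of_charpoly M hss (-c) hcp)
      · exfalso
        apply hm1
        linear_combination -hdet'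
      · have hb : b = 2 := by omega
        subst hb
        rw [hcp, hzc]
        simp only [C_neg, C_pow]
        ring
      · exfalso
        apply hm1
        linear_combination -hdet'
      · exfalso
        have hb : b = 0 := by omega
        subst hb
        rw [pow_zero, mul_one] at hcp
        exact hns c (Cfsg.Agent.Lib.Helper98.Symp.eq_smul_of_charpoly M hss c hcp)
    · have hm2 : m = 2 := by omega
      rw [hcp, hm2]
  · exact absurd h2' h2

theorem charpoly_sq_scalar {F : Type*} [Field F] [Finite F] (h2 : (2 : F) ≠ 0)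
    (M : Matrix (Fin 2 ⊕ Fin 2) (Fin 2 ⊕ Fin 2) F) (z : F) (hz : z * z = 1)
    (hM : M * M = z • (1 : Matrix (Fin 2 ⊕ Fin 2) (Fin 2 ⊕ Fin 2) F)) (hdet : M.det = 1)
    (hns : ∀ l : F, M ≠ l • (1 : Matrix (Fin 2 ⊕ Fin 2) (Fin 2 ⊕ Fin 2) F)) :
    M.charpoly = (X ^ 2 - C z) ^ 2 := by
  obtain ⟨e, he⟩ : ∃ e : Matrix (Fin 2 ⊕ Fin 2) (Fin 2 ⊕ Fin 2) F ≃ₐ[F] Matrix (Fin 4) (Fin 4) F,
      e = Matrix.reindexAlgEquiv F F (finSumFinEquiv : Fin 2 ⊕ Fin 2 ≃ Fin 4) := ⟨_, rfl⟩
  have hcp : (e M).charpoly = M.charpoly := by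
    rw [he, Matrix.coe_reindexAlgEquiv, Matrix.charpoly_reindex]
  have hdet' : (e M).det = 1 := by
    rw [he, Matrix.coe_reindexAlgEquiv, Matrix.det_reindex_self, hdet]
  have hM' : e M * e M = z • (1 : Matrix (Fin 4) (Fin 4) F) := by
    rw [← map_mul, hM, map_smul, map_one]
  have hns' : ∀ l : F, e M ≠ l • (1 : Matrix (Fin 4) (Fin 4) F) := by
    intro l h
    apply hns l
    apply e.injective
    rw [h, map_smul, map_one]
  rw [← hcp]
  exact smsq_charpoly_fin4 h2 (e M) z hz hM' hdet' hns'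

end Cfsg.Agent.Lib.Helper98.SM
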