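import Mathlib
import Cfsg.Prelude.Def_Sporadic_a
import Cfsg.Agent.Lib.Helper94.M24Tools

/-!
# Enumeration of the stabiliser of four points in the group of the length-24 code

* `EnumFix.extend`: from an enumeration of `M24 ⊓ fixing (b :: L)` and a transversal for the
  orbit of `pt b`, an enumeration of `M24 ⊓ fixing L`;
* `enum4 : EnumFix [2, 1, 0, 23] stab4T` (960 tables).
-/

set_option autoImplicit false

namespace Cfsg.Agent.Lib.Helper94

open Cfsg Cfsg.Agent.Lib.Helper9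
open scoped Pointwise

theorem EnumFix.extend {L : List ℕ} {b : ℕ} (hb : b < 24)
    (hbL : L.all (fun c => decide (c < 24) && c != b) = true) {Ts : List (List ℕ)}
    (e : EnumFix (b :: L) Ts) {ws rs : List (List ℕ)} (hrs : ws.map (prodT sgsTabs) = rs)
    (hfix : rs.all (fun T => L.all (fun c => decide (c < 24) && T.getD c 0 == c)) = true)
    (hcover : ∀ q : GolayPt, (∀ c ∈ L, q ≠ pt c) → rs.any (fun T => T.getD b 0 == idx q) = true) :
    EnumFix L (rs.flatMap (fun R => Ts.map (compT R))) := by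
  have hrep : ∀ R ∈ rs, ∃ u ∈ M24 ⊓ fixing L, HasTable u R := by
    intro R hR
    have hR' := hR
    rw [← hrs, List.mem_map] at hR
    obtain ⟨w, _, rfl⟩ := hR
    have h := good_sgs_M24.prod w
    exact ⟨prodW sgsEnv w, ⟨h.1, mem_fixing_of_table h.2 (List.all_eq_true.mp hfix _ hR')⟩, h.2⟩
  constructor
  · intro σ hσ
    have hq : ∀ c ∈ L, σ (pt b) ≠ pt c := by
      intro c hc heq
      have h1 := List.all_eq_true.mp hbL c hc
      simp only [Bool.and_eq_true, decide_eq_true_eq, bne_iff_ne, ne_eq] at h1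
      have h2 : σ (pt c) = pt c := hσ.2 c hc
      rw [← h2] at heq
      have h3 := congrArg idx (σ.injective heq)
      rw [idx_pt hb, idx_pt h1.1] at h3
      exact h1.2 h3.symm
    have hc := hcover (σ (pt b)) hq
    rw [List.any_eq_true] at hc
    obtain ⟨R, hR, hRb⟩ := hc
    rw [beq_iff_eq] at hRb
    obtain ⟨u, hu, huR⟩ := hrep R hR
    have hub : u (pt b) = σ (pt b) := by
      rw [huR.apply_pt hb, hRb, pt_idx]
    have hτ : u⁻¹ * σ ∈ M24 ⊓ fixing (b :: L) := by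
      refine ⟨M24.mul_mem (M24.inv_mem hu.1) hσ.1, ?_⟩
      intro c hc
      rw [List.mem_cons] at hc
      rcases hc with rfl | hc
      · rw [Equiv.Perm.mul_apply, ← hub, ← Equiv.Perm.mul_apply, inv_mul_cancel,
          Equiv.Perm.one_apply]
      · exact (fixing L).mul_mem ((fixing L).inv_mem hu.2) hσ.2 c hc
    obtain ⟨S, hS, hτS⟩ := e.complete _ hτ
    refine ⟨compT R S, ?_, ?_⟩
    · rw [List.mem_flatMap]
      exact ⟨R, hR, List.mem_map_of_mem hS⟩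
    · have := hasTable_mul huR hτS
      rwa [mul_inv_cancel_left] at this
  · intro T hT
    rw [List.mem_flatMap] at hT
    obtain ⟨R, hR, hT⟩ := hT
    rw [List.mem_map] at hT
    obtain ⟨S, hS, rfl⟩ := hT
    obtain ⟨u, hu, huR⟩ := hrep R hR
    obtain ⟨τ, hτ, hτS⟩ := e.sound S hS
    refine ⟨u * τ, ⟨M24.mul_mem hu.1 hτ.1, ?_⟩, hasTable_mul huR hτS⟩
    apply (fixing L).mul_mem hu.2
    intro c hc
    exact hτ.2 c (List.mem_cons_of_mem _ hc)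

/-- Words of a transversal for the orbit of `pt 3` under the stabiliser of `23, 0, 1, 2`. -/
def reps4W : List (List ℕ) :=
  [[],
   [17, 20, 16],
   [16],
   [21, 17, 20, 16],
   [20, 17, 20, 16],
   [21],
   [16, 21, 16],
   [16, 20, 16],
   [20],
   [21, 16],
   [17, 21],
   [20, 20, 16],
   [16, 21],
   [17, 21, 16],
   [17],
   [20, 16],
   [21, 17, 20],
   [16, 20],
   [20, 17, 20],
   [17, 20]]

/-- The tables of `reps4W`. -/
def reps4T : List (List ℕ) :=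
  [[0, 1, 2, 3, 4, 5, 6, 7, 8, 9, 10, 11, 12, 13, 14, 15, 16, 17, 18, 19, 20, 21, 22, 23],
   [0, 1, 2, 4, 14, 13, 9, 20, 12, 19, 6, 18, 8, 17, 16, 7, 3, 22, 11, 10, 21, 15, 5, 23],
   [0, 1, 2, 5, 18, 17, 7, 19, 15, 16, 4, 20, 9, 8, 14, 13, 12, 3, 10, 6, 22, 21, 11, 23],
   [0, 1, 2, 6, 18, 21, 15, 10, 14, 13, 16, 5, 17, 11, 7, 4, 8, 19, 3, 20, 22, 9, 12, 23],
   [0, 1, 2, 7, 12, 19, 15, 10, 5, 22, 4, 14, 3, 8, 6, 16, 11, 21, 17, 20, 13, 9, 18, 23],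
   [0, 1, 2, 8, 6, 12, 16, 4, 17, 15, 20, 3, 14, 21, 18, 9, 7, 11, 5, 13, 10, 22, 19, 23],
   [0, 1, 2, 9, 17, 20, 18, 8, 16, 19, 7, 4, 13, 3, 10, 21, 14, 15, 22, 12, 6, 11, 5, 23],
   [0, 1, 2, 10, 14, 15, 12, 11, 16, 7, 19, 4, 13, 5, 9, 6, 17, 20, 22, 18, 21, 8, 3, 23],
   [0, 1, 2, 11, 7, 18, 4, 16, 3, 15, 20, 17, 5, 19, 12, 9, 6, 8, 14, 22, 10, 13, 21, 23],
   [0, 1, 2, 12, 5, 11, 4, 13, 9, 7, 6, 10, 15, 17, 18, 21, 14, 8, 20, 16, 19, 22, 3, 23],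
   [0, 1, 2, 13, 19, 16, 9, 10, 5, 8, 11, 17, 14, 21, 4, 12, 6, 22, 3, 15, 18, 20, 7, 23],
   [0, 1, 2, 14, 12, 3, 6, 21, 15, 4, 16, 20, 9, 11, 5, 22, 18, 17, 10, 7, 13, 19, 8, 23],
   [0, 1, 2, 15, 7, 9, 12, 18, 3, 13, 22, 5, 14, 21, 10, 16, 19, 20, 17, 8, 4, 11, 6, 23],
   [0, 1, 2, 16, 3, 22, 10, 15, 12, 6, 19, 18, 8, 5, 4, 21, 14, 13, 11, 9, 7, 20, 17, 23],
   [0, 1, 2, 17, 10, 3, 19, 6, 13, 12, 18, 22, 16, 15, 14, 8, 9, 5, 4, 7, 11, 21, 20, 23],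
   [0, 1, 2, 18, 14, 8, 16, 22, 9, 6, 7, 10, 15, 3, 12, 19, 5, 11, 20, 4, 21, 13, 17, 23],
   [0, 1, 2, 19, 16, 6, 20, 15, 11, 17, 3, 12, 8, 4, 7, 14, 13, 21, 18, 10, 5, 9, 22, 23],
   [0, 1, 2, 20, 19, 10, 18, 12, 5, 13, 22, 3, 17, 6, 9, 16, 7, 15, 14, 11, 4, 8, 21, 23],
   [0, 1, 2, 21, 4, 7, 20, 15, 8, 3, 17, 18, 11, 16, 6, 5, 22, 19, 12, 10, 14, 9, 13, 23],
   [0, 1, 2, 22, 6, 4, 10, 9, 17, 8, 11, 5, 3, 7, 16, 12, 19, 13, 14, 20, 18, 15, 21, 23]]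

theorem reps4_tab : reps4W.map (prodT sgsTabs) = reps4T := by decide +kernel

theorem reps4_fix : reps4T.all (fun T => ([2, 1, 0, 23] : List ℕ).all
    (fun c => decide (c < 24) && T.getD c 0 == c)) = true := by decide +kernel

theorem reps4_cover : ∀ q : GolayPt, (∀ c ∈ ([2, 1, 0, 23] : List ℕ), q ≠ pt c) →
    reps4T.any (fun T => T.getD 3 0 == idx q) = true := by decide +kernel

/-- The tables of the 960 elements fixing the four points `23, 0, 1, 2`. -/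
def stab4T : List (List ℕ) := reps4T.flatMap (fun R => stab5T.map (compT R))

theorem enum4 : EnumFix [2, 1, 0, 23] stab4T :=
  EnumFix.extend (by norm_num) (by decide) enum5 reps4_tab reps4_fix reps4_cover

end Cfsg.Agent.Lib.Helper94
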