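import Mathlib
import Cfsg.Prelude.Def_GeometricClasses
import Cfsg.Agent.Lib.Helper71.OK1
import Cfsg.Agent.Lib.Helper52.Siegel
import Cfsg.Agent.Lib.Helper29.OKB1f

set_option autoImplicit false
set_option linter.unusedVariables false

/-!
# S5701 piece B2: some element of `M` moves a singular `L`-line to a non-`L`-line
-/

namespace Cfsg.Agent.Lib.Helper94.OKB2

open Matrix Cfsg.Agent.Lib.Helper71.SpK Cfsg.Agent.Lib.Helper71.OK

theorem exists_moved_line {ι : Type} [Fintype ι] [DecidableEq ι] {F : Type*} [Field F] [Finite F]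
    {Q : QuadraticForm F (ι → F)} {L : Type*} [Field L] [Algebra F L] [FiniteDimensional F L]
    (S : KO (QuadraticMap.polar ⇑Q) L) (h2 : (2 : F) ≠ 0)
    (hQ : (QuadraticMap.polarBilin Q).Nondegenerate)
    (hr : (Module.finrank F L).Prime) (hd : 4 * Module.finrank F L ≤ Fintype.card ι) (M : Subgroup (GL ι F)) (hNM : S.NO Q ≤ M) (hMΩ : M ≤ Cfsg.Geo.omegaGL ⇑Q) {h : GL ι F} (hh : h ∈ M)
    (hhN : h ∉ Cfsg.Geo.subalgebraNormalizer S.φ.range) :
    ∃ g ∈ M, ∃ v : ι → F, v ≠ 0 ∧ S.B v v = 0 ∧ ∀ v', gim (S.line v) g ≠ S.line v' := by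
  by_contra hcon
  push Not at hcon
  apply hhN
  -- the key fact: conjugation by elements of `M` preserves `φ(L)`
  have key : ∀ g ∈ M, ∀ l : L, ∃ l' : L,
      ((g⁻¹ : GL ι F) : Matrix ι ι F) * S.φ l * (g : Matrix ι ι F) = S.φ l' := by
    intro g hg l
    apply Cfsg.Agent.Lib.Helper29.OKB1.mem_range_of_sing_line S h2 hQ hr hd
    intro v hv
    by_cases hv0 : v = 0
    · subst hv0
      exact ⟨0, by simp⟩
    obtain ⟨v', hv'⟩ := hcon g hg v hv0 hv
    have h1 : (g : Matrix ι ι F) *ᵥ v ∈ S.line v' := by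
      rw [← hv']
      exact mulVec_mem_gim g (S.self_mem_line v)
    have h3 : S.φ l *ᵥ ((g : Matrix ι ι F) *ᵥ v) ∈ S.line v' := S.line_act_mem h1 l
    rw [← hv', mem_gim] at h3
    obtain ⟨l', hl'⟩ := S.mem_line.mp h3
    refine ⟨l', ?_⟩
    rw [hl', Matrix.mulVec_mulVec, Matrix.mulVec_mulVec, mul_assoc]
  intro k
  constructor
  · intro hk
    obtain ⟨l, rfl⟩ := (AlgHom.mem_range S.φ).1 hk
    obtain ⟨l', hl'⟩ := key h⁻¹ (M.inv_mem hh) l
    rw [inv_inv] at hl'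
    exact (AlgHom.mem_range S.φ).2 ⟨l', hl'.symm⟩
  · intro hk
    obtain ⟨l, hl⟩ := (AlgHom.mem_range S.φ).1 hk
    obtain ⟨l', hl'⟩ := key h hh l
    refine (AlgHom.mem_range S.φ).2 ⟨l', ?_⟩
    rw [← hl', hl]
    simp [← mul_assoc]

end Cfsg.Agent.Lib.Helper94.OKB2
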