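import Mathlib
import Cfsg.Prelude.Def_GeometricClasses
import Cfsg.Agent.Lib.Helper71.SpK0

/-!
Piece J4 of helper71's S5664 project (helper94): in case (i), the image of `hW` under `B(·,u)`
is an `F`-line, when the degree of `L/F` is prime.
-/

set_option autoImplicit false

namespace Cfsg.Agent.Lib.Helper94.SpJ4

open Matrix Cfsg.Agent.Lib.Helper97 Cfsg.Agent.Lib.Helper71.SpK
open Cfsg.Agent.Lib.Helper71.SpK.KS

variable {ι : Type} [Fintype ι] [DecidableEq ι] {F : Type*} [Field F]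
variable {f : (ι → F) → (ι → F) → F} {L : Type*} [Field L] [Algebra F L]

theorem case1_line (S : KS f L) [FiniteDimensional F L] (hr : (Module.finrank F L).Prime)
    (M : Subgroup (GL ι F)) (hNM : S.NG ≤ M) {u : ι → F} (hu : u ≠ 0) {h : GL ι F}
    (hne : gim (S.line u) h ≠ S.line u) (hD : S.line u ⊓ gim (S.line u) h ≠ ⊥)
    (hmax : MaxP M (S.line u) h) {y₀ : ι → F} (hy₀ : y₀ ∈ gim (S.line u) h)
    (hy₀u : S.B y₀ u ≠ 0) :
    ∀ y ∈ gim (S.line u) h, ∃ c : F, S.B y u = algebraMap F L c * S.B y₀ u := by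
  obtain ⟨DK, hDK⟩ : ∃ DK : Submodule F L, ∀ k : L, k ∈ DK ↔ S.φ k *ᵥ u ∈ gim (S.line u) h :=
    ⟨(gim (S.line u) h).comap (S.actL u), fun k => Iff.rfl⟩
  obtain ⟨E, hE⟩ : ∃ E : Subalgebra F L, ∀ e : L, e ∈ E ↔ ∀ k ∈ DK, e * k ∈ DK := by
    refine ⟨{ carrier := {e : L | ∀ k ∈ DK, e * k ∈ DK}
              mul_mem' := ?_
              one_mem' := ?_
              add_mem' := ?_
              zero_mem' := ?_
              algebraMap_mem' := ?_ }, fun e => Iff.rfl⟩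
    · intro a b ha hb k hk
      rw [mul_assoc]
      exact ha _ (hb k hk)
    · intro k hk
      rw [one_mul]
      exact hk
    · intro a b ha hb k hk
      rw [add_mul]
      exact DK.add_mem (ha k hk) (hb k hk)
    · intro k hk
      rw [zero_mul]
      exact DK.zero_mem
    · intro c k hk
      rw [← Algebra.smul_def]
      exact DK.smul_mem c hk
  have claim : ∀ y ∈ gim (S.line u) h, S.B y u * (S.B y₀ u)⁻¹ ∈ E := by
    intro y hy
    rw [hE]
    intro k hk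
    have hxM : S.T u (k * (S.B y₀ u)⁻¹) ∈ M := hNM (S.T_mem_NG u _)
    have h1 : ∀ z ∈ S.line u ⊓ gim (S.line u) h,
        ((S.T u (k * (S.B y₀ u)⁻¹) : GL ι F) : Matrix ι ι F) *ᵥ z = z := by
      intro z hz
      rw [S.T_mulVec, S.B_line hz.1, mul_zero, S.φ_zero_mulVec, add_zero]
    have h2 : y₀ ∉ S.line u := fun hmem => hy₀u (S.B_line hmem)
    have h3 : ((S.T u (k * (S.B y₀ u)⁻¹) : GL ι F) : Matrix ι ι F) *ᵥ y₀ ∈ gim (S.line u) h := by
      rw [S.T_mulVec, mul_assoc, inv_mul_cancel₀ hy₀u, mul_one]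
      exact (gim (S.line u) h).add_mem hy₀ ((hDK k).1 hk)
    have h4 := hmax _ hxM h1 ⟨y₀, hy₀, h2, h3⟩ y hy
    rw [S.T_mulVec] at h4
    have h5 : S.φ (k * (S.B y₀ u)⁻¹ * S.B y u) *ᵥ u ∈ gim (S.line u) h := by
      have e : S.φ (k * (S.B y₀ u)⁻¹ * S.B y u) *ᵥ u
          = (y + S.φ (k * (S.B y₀ u)⁻¹ * S.B y u) *ᵥ u) - y := by abel
      rw [e]
      exact (gim (S.line u) h).sub_mem h4 hy
    have e2 : S.B y u * (S.B y₀ u)⁻¹ * k = k * (S.B y₀ u)⁻¹ * S.B y u := by ring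
    rw [e2]
    exact (hDK _).2 h5
  haveI := Subalgebra.isSimpleOrder_of_finrank_prime F L hr
  rcases eq_bot_or_eq_top E with hbot | htop
  · intro y hy
    have h1 := claim y hy
    rw [hbot, Algebra.mem_bot] at h1
    obtain ⟨c, hc⟩ := h1
    refine ⟨c, ?_⟩
    rw [hc, mul_assoc, inv_mul_cancel₀ hy₀u, mul_one]
  · exfalso
    obtain ⟨z, hz, hz0⟩ := (Submodule.ne_bot_iff _).mp hD
    obtain ⟨k, rfl⟩ := S.mem_line.mp hz.1
    have hk0 : k ≠ 0 := by
      rintro rfl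
      exact hz0 (S.φ_zero_mulVec u)
    have hkD : k ∈ DK := (hDK k).2 hz.2
    have hle : S.line u ≤ gim (S.line u) h := by
      intro w hw
      obtain ⟨l, rfl⟩ := S.mem_line.mp hw
      have h1 : l * k⁻¹ ∈ E := by rw [htop]; exact Algebra.mem_top
      have h2 := (hE _).1 h1 k hkD
      rw [mul_assoc, inv_mul_cancel₀ hk0, mul_one] at h2
      exact (hDK l).1 h2
    exact hne (Submodule.eq_of_le_of_finrank_eq hle (finrank_gim (S.line u) h).symm).symm

end Cfsg.Agent.Lib.Helper94.SpJ4
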