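import Mathlib

/-!
Piece DC-P5 of helper82's S4719 project (helper94): an abelian minimal normal subgroup is a
`p`-group.
-/

set_option autoImplicit false

namespace Cfsg.Agent.Lib.Helper94.DCP5

theorem minimal_normal_abelian {G : Type*} [Group G] [Finite G] (M : Subgroup G) [M.Normal]
    (hM : M ≠ ⊥) (hmin : ∀ N : Subgroup G, N.Normal → N ≤ M → N = ⊥ ∨ N = M)
    (hc : ∀ x ∈ M, ∀ y ∈ M, x * y = y * x) :
    ∃ (p i : ℕ), p.Prime ∧ 1 ≤ i ∧ Nat.card M = p ^ i := by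
  classical
  have hcard1 : Nat.card M ≠ 1 := fun h => hM (M.eq_bot_iff_card.mpr h)
  obtain ⟨p, hp, hpdvd⟩ := Nat.exists_prime_and_dvd hcard1
  have : Fact p.Prime := ⟨hp⟩
  let Ω : Subgroup G :=
    { carrier := {x | x ∈ M ∧ x ^ p = 1}
      mul_mem' := by
        rintro a b ⟨ha, ha'⟩ ⟨hb, hb'⟩
        refine ⟨M.mul_mem ha hb, ?_⟩
        have hcomm : Commute a b := hc a ha b hb
        rw [hcomm.mul_pow, ha', hb', one_mul]
      one_mem' := ⟨M.one_mem, one_pow _⟩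
      inv_mem' := by
        rintro a ⟨ha, ha'⟩
        exact ⟨M.inv_mem ha, by rw [inv_pow, ha', inv_one]⟩ }
  have hΩmem : ∀ x, x ∈ Ω ↔ x ∈ M ∧ x ^ p = 1 := fun x => Iff.rfl
  have hΩn : Ω.Normal := by
    constructor
    intro n hn g
    rw [hΩmem] at hn ⊢
    refine ⟨Subgroup.Normal.conj_mem inferInstance n hn.1 g, ?_⟩
    rw [conj_pow, hn.2, mul_one, mul_inv_cancel]
  have hΩM : Ω ≤ M := fun x hx => hx.1
  have hΩ0 : Ω ≠ ⊥ := by
    obtain ⟨x, hx⟩ := exists_prime_orderOf_dvd_card' (G := M) p hpdvd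
    intro h
    have hxΩ : (x : G) ∈ Ω := by
      rw [hΩmem]
      refine ⟨x.2, ?_⟩
      have h1 : x ^ p = 1 := by rw [← hx]; exact pow_orderOf_eq_one x
      have h2 := congrArg (Subtype.val) h1
      simpa using h2
    rw [h, Subgroup.mem_bot] at hxΩ
    have hx1 : x = 1 := Subtype.ext hxΩ
    rw [hx1, orderOf_one] at hx
    exact hp.one_lt.ne hx
  have hΩeq : Ω = M := (hmin Ω hΩn hΩM).resolve_left hΩ0
  have hpg : IsPGroup p M := by
    intro g
    refine ⟨1, ?_⟩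
    have hg : (g : G) ∈ Ω := by rw [hΩeq]; exact g.2
    rw [pow_one]
    exact Subtype.ext (by simpa using hg.2)
  obtain ⟨i, hi⟩ := IsPGroup.iff_card.mp hpg
  refine ⟨p, i, hp, ?_, hi⟩
  by_contra h0
  have hi0 : i = 0 := by omega
  rw [hi0, pow_zero] at hi
  exact hcard1 hi

end Cfsg.Agent.Lib.Helper94.DCP5
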