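import Mathlib

/-!
# S0997 (Brauer–Tuan), piece BW-AR5 (helper94): the arithmetic core of case B
-/

set_option autoImplicit false

namespace Cfsg.Agent.Lib.Helper5.BW

/-- BW-AR5 -/
theorem core_B (a τ : ℤ) (p b f t c' N : ℕ) (hp : 5 ≤ p) (hf : f = p - 2) (ht : 2 * t = p - 1)
    (hc' : 1 ≤ c') (ha : a = 1 + τ) (hτ : τ ≠ (f : ℤ))
    (hcol : 1 + a ^ 2 + (t : ℤ) * τ ^ 2 ≤ ((2 ^ b * c' : ℕ) : ℤ))
    (hN : N = 0 ∨ N = p)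
    (hform : (N : ℝ) * ((2 ^ b * c' : ℕ) : ℝ) ^ 2 = ((p * 2 ^ b * f : ℕ) : ℝ) *
      (1 + (-1 : ℝ) * (a : ℝ) ^ 2 / ((p - 1 : ℕ) : ℝ) + (τ : ℝ) ^ 2 / (f : ℝ))) :
    2 ^ b ≤ p := by
  by_contra hcon
  have hcon' : p + 1 ≤ 2 ^ b := by omega
  have hpR : (5 : ℝ) ≤ (p : ℝ) := by exact_mod_cast hp
  have hfR : (f : ℝ) = (p : ℝ) - 2 := by
    rw [hf, Nat.cast_sub (by omega)]
    norm_num
  have hp1R : ((p - 1 : ℕ) : ℝ) = (p : ℝ) - 1 := by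
    rw [Nat.cast_sub (by omega)]
    norm_num
  have htR : 2 * (t : ℝ) = (p : ℝ) - 1 := by
    rw [← hp1R]
    exact_mod_cast ht
  have haR : (a : ℝ) = 1 + (τ : ℝ) := by
    rw [ha]
    push_cast
    ring
  have hτR : (τ : ℝ) ≠ (f : ℝ) := by
    intro h
    apply hτ
    exact_mod_cast h
  have hCcast : ((2 ^ b * c' : ℕ) : ℝ) = (2 : ℝ) ^ b * (c' : ℝ) := by push_cast; ring
  have hB1 : (1 : ℝ) ≤ (2 : ℝ) ^ b := one_le_pow₀ (by norm_num)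
  have hBp : (p : ℝ) + 1 ≤ (2 : ℝ) ^ b := by exact_mod_cast hcon'
  have hc'R : (1 : ℝ) ≤ (c' : ℝ) := by exact_mod_cast hc'
  have hBC : (2 : ℝ) ^ b ≤ (2 : ℝ) ^ b * (c' : ℝ) := by nlinarith
  have hcolR : 1 + (a : ℝ) ^ 2 + (t : ℝ) * (τ : ℝ) ^ 2 ≤ (2 : ℝ) ^ b * (c' : ℝ) := by
    rw [← hCcast]
    exact_mod_cast hcol
  have hf0 : (0 : ℝ) < (f : ℝ) := by rw [hfR]; linarith
  have hf1 : (f : ℝ) + 1 ≠ 0 := by linarith
  have hbr : 1 + (-1 : ℝ) * (a : ℝ) ^ 2 / ((p - 1 : ℕ) : ℝ) + (τ : ℝ) ^ 2 / (f : ℝ) =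
      ((f : ℝ) - τ) ^ 2 / ((f : ℝ) * ((f : ℝ) + 1)) := by
    have h1 : (p : ℝ) - 1 = (f : ℝ) + 1 := by rw [hfR]; ring
    rw [hp1R, haR, h1]
    field_simp
    ring
  have hpc : ((p * 2 ^ b * f : ℕ) : ℝ) = (p : ℝ) * (2 : ℝ) ^ b * (f : ℝ) := by push_cast; ring
  rw [hbr, hCcast, hpc] at hform
  have hsq : 0 < ((f : ℝ) - τ) ^ 2 := by
    have : (f : ℝ) - τ ≠ 0 := fun h => hτR (by linarith)
    positivity
  have hrhs : (p : ℝ) * (2 : ℝ) ^ b * (f : ℝ) *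
      (((f : ℝ) - τ) ^ 2 / ((f : ℝ) * ((f : ℝ) + 1))) =
      (p : ℝ) * (2 : ℝ) ^ b * ((f : ℝ) - τ) ^ 2 / ((f : ℝ) + 1) := by
    field_simp
  rw [hrhs] at hform
  have hNp : N = p := by
    rcases hN with h | h
    · exfalso
      rw [h, Nat.cast_zero, zero_mul] at hform
      have : 0 < (p : ℝ) * (2 : ℝ) ^ b * ((f : ℝ) - τ) ^ 2 / ((f : ℝ) + 1) := by positivity
      linarith
    · exact h
  rw [hNp, eq_div_iff hf1] at hform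
  have hp0 : (p : ℝ) ≠ 0 := by linarith
  have hkey : ((f : ℝ) + 1) * ((2 : ℝ) ^ b * (c' : ℝ)) ^ 2 =
      (2 : ℝ) ^ b * ((f : ℝ) - τ) ^ 2 := by
    have h2 : (p : ℝ) * (((f : ℝ) + 1) * ((2 : ℝ) ^ b * (c' : ℝ)) ^ 2) =
        (p : ℝ) * ((2 : ℝ) ^ b * ((f : ℝ) - τ) ^ 2) := by linear_combination hform
    exact mul_left_cancel₀ hp0 h2
  -- abbreviations
  obtain ⟨C, hCdef⟩ : ∃ C : ℝ, C = (2 : ℝ) ^ b * (c' : ℝ) := ⟨_, rfl⟩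
  obtain ⟨P, hPdef⟩ : ∃ P : ℝ, P = (f : ℝ) + 1 := ⟨_, rfl⟩
  obtain ⟨x, hxdef⟩ : ∃ x : ℝ, x = (τ : ℝ) := ⟨_, rfl⟩
  rw [← hCdef] at hkey hBC hcolR
  have hP4 : (4 : ℝ) ≤ P := by rw [hPdef, hfR]; linarith
  have hCP : P + 2 ≤ C := by
    have : P + 2 = (p : ℝ) + 1 := by rw [hPdef, hfR]; ring
    linarith
  have hC0 : 0 < C := by linarith
  have hA : P * C ≤ (P - 1 - x) ^ 2 := by
    have h3 : (2 : ℝ) ^ b * ((f : ℝ) - τ) ^ 2 ≤ C * ((f : ℝ) - τ) ^ 2 :=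
      mul_le_mul_of_nonneg_right hBC hsq.le
    have h4 : P * C * C ≤ (P - 1 - x) ^ 2 * C := by
      have e1 : P * C * C = ((f : ℝ) + 1) * C ^ 2 := by rw [hPdef]; ring
      have e2 : (P - 1 - x) ^ 2 * C = C * ((f : ℝ) - τ) ^ 2 := by rw [hPdef, hxdef]; ring
      rw [e1, e2, hkey]
      exact h3
    exact le_of_mul_le_mul_right h4 hC0
  have hCc : 2 + 2 * (1 + x) ^ 2 + P * x ^ 2 ≤ 2 * C := by
    have e1 : P = 2 * (t : ℝ) := by rw [hPdef, htR, hfR]; ring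
    rw [e1, hxdef, ← haR]
    nlinarith [hcolR]
  have hPC2 : P * (P + 2) ≤ P * C := mul_le_mul_of_nonneg_left hCP (by linarith)
  have h5 : τ ≤ -2 ∨ τ = -1 ∨ τ = 0 ∨ τ = 1 ∨ 2 ≤ τ := by omega
  rcases h5 with h | h | h | h | h
  · -- `τ ≤ -2`
    have hx : x ≤ -2 := by rw [hxdef]; exact_mod_cast h
    have h6 : P * (2 + 2 * (1 + x) ^ 2 + P * x ^ 2) ≤ 2 * (P - 1 - x) ^ 2 := by
      have := mul_le_mul_of_nonneg_left hCc (by linarith : (0 : ℝ) ≤ P)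
      nlinarith
    have h7 : 0 ≤ (-x - 2) * ((P ^ 2 + 2 * P - 2) * (-x + 2) - (8 * P - 4)) := by
      apply mul_nonneg
      · linarith
      · nlinarith
    nlinarith
  · have hx : x = -1 := by rw [hxdef, h]; norm_num
    rw [hx] at hA
    nlinarith
  · have hx : x = 0 := by rw [hxdef, h]; norm_num
    rw [hx] at hA
    nlinarith
  · have hx : x = 1 := by rw [hxdef, h]; norm_num
    rw [hx] at hA
    nlinarith
  · -- `2 ≤ τ`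
    have hx : 2 ≤ x := by rw [hxdef]; exact_mod_cast h
    have h6 : P * (2 + 2 * (1 + x) ^ 2 + P * x ^ 2) ≤ 2 * (P - 1 - x) ^ 2 := by
      have := mul_le_mul_of_nonneg_left hCc (by linarith : (0 : ℝ) ≤ P)
      nlinarith
    have h7 : 0 ≤ (x - 2) * ((P ^ 2 + 2 * P - 2) * (x + 2) + (8 * P - 4)) := by
      apply mul_nonneg
      · linarith
      · nlinarith
    nlinarith

end Cfsg.Agent.Lib.Helper5.BW
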