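import Cfsg.Agent.Lib.Helper98.H74Defs

/-!
# Project H74 (S5974, helper98), piece C2F (`char2_fix`), delivered as `char2_fix_of`:
the sibling pieces K4, SUM, COMPL are taken as hypotheses (in exactly the shape of their skeleton
statements, see the glue at the end of the doc comment of `char2_fix_of`).
-/

set_option autoImplicit false

namespace Cfsg.Agent.Lib.Helper98.H74

open Cfsg.Agent.Lib.Helper47 Cfsg.Agent.Lib.Helper98.T73 Module Polynomial

universe u

variable {F : Type u} [Field F] [Fintype F] {V : Type u} [AddCommGroup V] [Module F V]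
  [FiniteDimensional F V] {Q : V → F} {B : V → V → F}

omit [FiniteDimensional F V] in
/-- transfer of `SubTyp` from a subspace `H'` of the space `Y` to its image in `V` -/
theorem C2F_subtyp_map (Y : Submodule F V) (H' : Submodule F Y) (k : ℕ) (ε : ℤ)
    (h : SubTyp (fun w : Y => Q (w : V)) (resForm B Y) H' k ε) :
    SubTyp Q B (H'.map Y.subtype) k ε := by
  obtain ⟨h1, h2, h3⟩ := h
  let e : H' ≃ₗ[F] H'.map Y.subtype :=
    Submodule.equivMapOfInjective Y.subtype (Submodule.injective_subtype Y) H'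
  have he : ∀ w : H', ((e w : H'.map Y.subtype) : V) = ((w : Y) : V) := fun w => rfl
  refine ⟨?_, ?_, ?_⟩
  · intro x hx
    obtain ⟨x', rfl⟩ := e.surjective x
    have hx0 : x' = 0 := by
      apply h1
      intro y'
      have h5 : B ((e x' : H'.map Y.subtype) : V) ((e y' : H'.map Y.subtype) : V) = 0 :=
        hx (e y')
      rw [he, he] at h5
      exact h5
    rw [hx0, map_zero]
  · rw [← h2]
    exact (LinearEquiv.finrank_eq e).symm
  · exact IsTyp.of_equiv e.toEquiv (fun v => rfl) h3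

/-- C2F, with the sibling pieces as hypotheses.  Glue:
`char2_fix hf hQ hnd d hdim htyp g hgQ hg k hk hcond =
  char2_fix_of (fun V' _ _ _ Q' B' hQ' hnd' n hn hdim' htyp' g' hgQ' hg' =>
      k4 hf hQ' hnd' n hn hdim' htyp' g' hgQ' hg') (subtyp_sup hf hQ) d
    (subtyp_compl hf hQ hnd d hdim 1 htyp) hQ hnd hdim htyp g hgQ hg k hk hcond`. -/
theorem char2_fix_of
    (hK4 : ∀ (V' : Type u) [AddCommGroup V'] [Module F V'] [FiniteDimensional F V']
      (Q' : V' → F) (B' : V' → V' → F), IsQuad Q' B' → Nondeg B' → ∀ n : ℕ, 1 ≤ n →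
      finrank F V' = 2 * n + 2 → IsTyp Q' n 1 → ∀ g' : Module.End F V', QI Q' g' →
      g' * g' = 1 → ∃ H : Submodule F V', H.map g' ≤ H ∧ SubTyp Q' B' H 1 1)
    (hSUM : ∀ (X Y : Submodule F V), (∀ x ∈ X, ∀ y ∈ Y, B x y = 0) →
      ∀ (k₁ k₂ : ℕ) (ε₁ ε₂ : ℤ), SubTyp Q B X k₁ ε₁ → SubTyp Q B Y k₂ ε₂ →
      SubTyp Q B (X ⊔ Y) (k₁ + k₂ + 1) (ε₁ * ε₂))
    (d : ℕ)
    (hCOMPL : ∀ (X : Submodule F V) (k : ℕ) (τ : ℤ), SubTyp Q B X k τ → k + 2 ≤ d →
      ∃ Y : Submodule F V, (∀ x ∈ X, ∀ y ∈ Y, B x y = 0) ∧ X ⊔ Y = ⊤ ∧ X ⊓ Y = ⊥ ∧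
        SubTyp Q B Y (d - k - 2) (1 * τ) ∧
        ∀ g : Module.End F V, QI Q g → X.map g ≤ X → Y.map g ≤ Y)
    (hQ : IsQuad Q B) (hnd : Nondeg B)
    (hdim : finrank F V = 2 * d) (htyp : IsTyp Q (d - 1) 1) (g : Module.End F V) (hgQ : QI Q g)
    (hg : g * g = 1) (k : ℕ) (hk : 2 * k + 2 < d) (hcond : Odd d ∨ Odd k) :
    ∃ W : Submodule F V, SubTyp Q B W k 1 ∧ W.map g ≤ W := by
  have key : ∀ l : ℕ, 1 ≤ l → 4 * l ≤ 2 * d →
      ∃ W' : Submodule F V, SubTyp Q B W' (2 * l - 1) 1 ∧ W'.map g ≤ W' := by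
    intro l hl
    induction l, hl using Nat.le_induction with
    | base =>
      intro h4
      obtain ⟨H, hH1, hH2⟩ := hK4 V Q B hQ hnd (d - 1) (by omega) (by rw [hdim]; omega) htyp g
        hgQ hg
      exact ⟨H, hH2, hH1⟩
    | succ l hl ih =>
      intro h4
      obtain ⟨W', hW', hW'g⟩ := ih (by omega)
      obtain ⟨Y, hXY, -, -, hY, hYg⟩ := hCOMPL W' (2 * l - 1) 1 hW' (by omega)
      have hYg' : Y.map g ≤ Y := hYg g hgQ hW'g
      have hYmem : ∀ y ∈ Y, g y ∈ Y := fun y hy => hYg' (Submodule.mem_map_of_mem hy)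
      rw [mul_one] at hY
      obtain ⟨hY1, hY2, hY3⟩ := hY
      have hgYQ : QI (fun w : Y => Q (w : V)) (g.restrict hYmem) := fun v => hgQ (v : V)
      have hgY2 : g.restrict hYmem * g.restrict hYmem = 1 := by
        apply LinearMap.ext
        intro v
        apply Subtype.ext
        have h1 : g (g (v : V)) = (v : V) := by
          have h2 := congrArg (fun f : Module.End F V => f (v : V)) hg
          simpa using h2
        exact h1
      obtain ⟨H', hH'1, hH'2⟩ := hK4 Y (fun w : Y => Q (w : V)) (resForm B Y) (hQ.res Y) hY1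
        (d - (2 * l - 1) - 2) (by omega) hY2 hY3 (g.restrict hYmem) hgYQ hgY2
      have hH : SubTyp Q B (H'.map Y.subtype) 1 1 := C2F_subtyp_map Y H' 1 1 hH'2
      have hHY : H'.map Y.subtype ≤ Y := by
        rintro _ ⟨w, -, rfl⟩
        exact w.2
      have hsum := hSUM W' (H'.map Y.subtype) (fun x hx y hy => hXY x hx y (hHY hy))
        (2 * l - 1) 1 1 1 hW' hH
      refine ⟨W' ⊔ H'.map Y.subtype, ?_, ?_⟩
      · have e1 : 2 * l - 1 + 1 + 1 = 2 * (l + 1) - 1 := by omega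
        rw [e1, mul_one] at hsum
        exact hsum
      · rw [Submodule.map_sup]
        apply sup_le_sup hW'g
        rintro _ ⟨_, ⟨w, hw, rfl⟩, rfl⟩
        exact ⟨g.restrict hYmem w, hH'1 (Submodule.mem_map_of_mem hw), rfl⟩
  rcases Nat.even_or_odd k with hke | hko
  · have hdo : Odd d := by
      rcases hcond with h | h
      · exact h
      · exact absurd hke (Nat.not_even_iff_odd.mpr h)
    obtain ⟨a, ha⟩ := hke
    obtain ⟨b, hb⟩ := hdo
    obtain ⟨W', hW', hW'g⟩ := key (b - a) (by omega) (by omega)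
    obtain ⟨Y, -, -, -, hY, hYg⟩ := hCOMPL W' (2 * (b - a) - 1) 1 hW' (by omega)
    refine ⟨Y, ?_, hYg g hgQ hW'g⟩
    have e1 : d - (2 * (b - a) - 1) - 2 = k := by omega
    rw [e1, mul_one] at hY
    exact hY
  · obtain ⟨a, ha⟩ := hko
    obtain ⟨W', hW', hW'g⟩ := key (a + 1) (by omega) (by omega)
    have e1 : 2 * (a + 1) - 1 = k := by omega
    rw [e1] at hW'
    exact ⟨W', hW', hW'g⟩

end Cfsg.Agent.Lib.Helper98.H74
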