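import Cfsg.Agent.Lib.Helper98.H90Defs

/-!
# Project H74, batch 2 (S5990, helper98): BACKUP copy of piece AR90EF (`ar90_even_fwd`), named
`ar90_even_fwd_b` (same statement).
-/

set_option autoImplicit false

namespace Cfsg.Agent.Lib.Helper98.H74

open Cfsg.Agent.Lib.Helper47 Cfsg.Agent.Lib.Helper98.T73 Module Polynomial

/-- AR90EF (backup copy) -/
theorem ar90_even_fwd_b (i d m : ℕ) (hi : 1 ≤ i) (heven : Even i) (hd : 4 ≤ d) (hm : 2 ≤ m)
    (hme : Even m) (hmd : m + 2 ≤ 2 * d) (him : i ≤ m) (hM : ModelH (-1) (-1) i d m) :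
    Cond90 i d m := by
  have hipos : 0 < i := by omega
  have hsgn : ∀ A, sgn i A = (-1) ^ A := fun A => by
    unfold sgn
    rw [if_pos heven]
  have hdm := Nat.div_add_mod (2 * d) i
  have hρlt : (2 * d) % i < i := Nat.mod_lt _ hipos
  have hq1 : 1 ≤ (2 * d) / i := by
    rw [Nat.le_div_iff_mul_le hipos]
    omega
  have hodd_of : ∀ j : ℕ, ((-1 : ℤ)) ^ j = -1 → Odd j := by
    intro j hj
    rcases Nat.even_or_odd j with he | ho
    · rw [Even.neg_one_pow he] at hj
      norm_num at hj
    · exact ho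
  have hdiv : ∀ j w : ℕ, m = i * j + w → w < i → j = m / i ∧ w = m % i := by
    intro j w h hw
    have h1 : m / i = j := by
      rw [h, Nat.mul_add_div hipos, Nat.div_eq_of_lt hw, add_zero]
    have h2 : m % i = w := by
      rw [h, Nat.mul_add_mod, Nat.mod_eq_of_lt hw]
    exact ⟨h1.symm, h2.symm⟩
  unfold Cond90
  rw [if_pos heven]
  unfold ModelH at hM
  by_cases hρ : (2 * d) % i = 0
  · left
    refine ⟨hρ, ?_⟩
    rcases Nat.even_or_odd ((2 * d) / i) with hqe | hqo
    · exact Or.inl hqe
    · right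
      have hV : Valid (-1) i d ((2 * d) / i) := by
        unfold Valid
        refine ⟨hq1, by omega, fun ho => absurd heven (Nat.not_even_iff_odd.mpr ho), fun _ => ?_⟩
        rw [hsgn]
        exact Odd.neg_one_pow hqo
      obtain ⟨j, w, hMC⟩ := hM _ hV
      unfold MC at hMC
      obtain ⟨hjA, -, hmjw, hw, hw0, -⟩ := hMC
      have hw00 : w = 0 := by omega
      have hj := hodd_of j (by rw [← hsgn]; exact hw0 hw00)
      obtain ⟨h1, h2⟩ := hdiv j w hmjw (by omega)
      rw [← h1, ← h2]
      exact ⟨hw00, hj⟩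
  · right
    have hρpos : 0 < (2 * d) % i := Nat.pos_of_ne_zero hρ
    refine ⟨hρpos, him, ?_⟩
    have hV : Valid (-1) i d ((2 * d) / i) := by
      unfold Valid
      refine ⟨hq1, by omega, fun ho => absurd heven (Nat.not_even_iff_odd.mpr ho), fun h => ?_⟩
      exfalso
      omega
    obtain ⟨j, w, hMC⟩ := hM _ hV
    unfold MC at hMC
    obtain ⟨hjA, -, hmjw, hw, hw0, hwe⟩ := hMC
    have hwlt : w < i := by omega
    obtain ⟨h1, h2⟩ := hdiv j w hmjw hwlt
    rw [← h1, ← h2]
    rcases Nat.eq_zero_or_pos w with hz | hpos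
    · right; left
      exact ⟨hz, hodd_of j (by rw [← hsgn]; exact hw0 hz)⟩
    · by_cases hwρ : w < (2 * d) % i
      · left
        exact ⟨hpos, hwρ⟩
      · right; right
        have hweq : w = (2 * d) % i := by omega
        refine ⟨hweq, ?_⟩
        have hpar := hwe hpos (by omega)
        rw [hsgn, hsgn] at hpar
        have hsum : 2 * d + m - 2 * ((2 * d) % i) = i * ((2 * d) / i + j) := by
          rw [mul_add]
          omega
        rw [hsum, Nat.mul_div_cancel_left _ hipos]
        rcases Nat.even_or_odd ((2 * d) / i) with hqe | hqo <;>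
          rcases Nat.even_or_odd j with hje | hjo
        · exact hqe.add hje
        · rw [Even.neg_one_pow hqe, Odd.neg_one_pow hjo] at hpar
          norm_num at hpar
        · rw [Odd.neg_one_pow hqo, Even.neg_one_pow hje] at hpar
          norm_num at hpar
        · exact hqo.add_odd hjo

end Cfsg.Agent.Lib.Helper98.H74
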