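import Cfsg.Agent.Lib.Helper98.H90Defs

/-!
# Project H74, batch 2 (S5990, helper98): BACKUP copy of piece AR90OF (`ar90_odd_fwd`), named
`ar90_odd_fwd_b` (same statement).
-/

set_option autoImplicit false

namespace Cfsg.Agent.Lib.Helper98.H74

open Cfsg.Agent.Lib.Helper47 Cfsg.Agent.Lib.Helper98.T73 Module Polynomial

/-- AR90OF (backup copy) -/
theorem ar90_odd_fwd_b (i d m : ℕ) (hi : 1 ≤ i) (hodd : ¬ Even i) (hd : 4 ≤ d) (hm : 2 ≤ m)
    (hme : Even m) (hmd : m + 2 ≤ 2 * d) (him : 2 * i ≤ m) (hM : ModelH (-1) (-1) i d m) :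
    Cond90 i d m := by
  have hoddi : Odd i := Nat.not_even_iff_odd.mp hodd
  have hsgn : ∀ A, sgn i A = 1 := fun A => by
    unfold sgn
    rw [if_neg hodd]
  have hc : 0 < 2 * i := by omega
  unfold Cond90
  rw [if_neg hodd]
  by_cases hρ : (2 * d) % (2 * i) = 0
  · exact Or.inl hρ
  · right
    refine ⟨him, ?_⟩
    have hq1 : 1 ≤ (2 * d) / (2 * i) := by
      rw [Nat.le_div_iff_mul_le hc]
      omega
    have hdm := Nat.div_add_mod (2 * d) (2 * i)
    have h3 : i * (2 * ((2 * d) / (2 * i))) = 2 * i * ((2 * d) / (2 * i)) := by ring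
    have hV : Valid (-1) i d (2 * ((2 * d) / (2 * i))) := by
      unfold Valid
      refine ⟨by omega, by omega, fun _ => even_two_mul _, fun h => ?_⟩
      exfalso
      omega
    unfold ModelH at hM
    have hM' := hM _ hV
    unfold MC at hM'
    obtain ⟨j, w, hjA, hjev, hmjw, hw, hw0, -⟩ := hM'
    obtain ⟨b, hb⟩ := hjev hoddi
    have hwpos : 0 < w := by
      rcases Nat.eq_zero_or_pos w with h | h
      · have h5 := hw0 h
        rw [hsgn] at h5
        norm_num at h5
      · exact h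
    have hlt : (2 * d) % (2 * i) < 2 * i := Nat.mod_lt _ hc
    have hwlt : w < 2 * i := by omega
    have hmw : m % (2 * i) = w := by
      have h4 : m = w + (2 * i) * b := by
        rw [hmjw, hb]
        ring
      rw [h4, Nat.add_mul_mod_self_left]
      exact Nat.mod_eq_of_lt hwlt
    rw [hmw]
    omega

end Cfsg.Agent.Lib.Helper98.H74
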