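import Cfsg.Agent.Lib.Helper98.H90Defs
import Cfsg.Agent.Lib.Helper94.H74C2F

/-!
# Project H74, batch 2 (S5990, helper98), piece C2FM (`char2_fix_minus`), delivered as
`char2_fix_minus_of`: the sibling pieces K4G, PEELM, SUM, COMPL are taken as hypotheses,
quantified over all spaces of the universe (they are applied to `V` and to subspaces of `V`
regarded as spaces of their own).  Glue:
`char2_fix_minus hf hQ hnd d hd hdim htyp g hgQ hg k hk hcond =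
  char2_fix_minus_of
    (fun V' _ _ _ Q' B' hQ' hnd' n hn hdim' g' hgQ' hg' => k4g hf hQ' hnd' n hn hdim' g' hgQ' hg')
    (fun V' _ _ _ Q' B' hQ' hnd' hdim' htyp' g' hgQ' hg' =>
      char2_plane_minus hf hQ' hnd' hdim' htyp' g' hgQ' hg')
    (fun V' _ _ _ Q' B' hQ' => subtyp_sup hf hQ')
    (fun V' _ _ _ Q' B' hQ' hnd' d' hdim' => subtyp_compl hf hQ' hnd' d' hdim')
    hQ hnd d hd hdim htyp g hgQ hg k hk hcond`.
-/

set_option autoImplicit false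

namespace Cfsg.Agent.Lib.Helper98.H74

open Cfsg.Agent.Lib.Helper47 Cfsg.Agent.Lib.Helper98.T73 Module Polynomial

universe u

variable {F : Type u} [Field F] [Fintype F] {V : Type u} [AddCommGroup V] [Module F V]
  [FiniteDimensional F V] {Q : V → F} {B : V → V → F}

omit [Fintype F] [FiniteDimensional F V] in
theorem C2FM_restrict_sq (g : Module.End F V) (hg : g * g = 1) (Y : Submodule F V)
    (hYmem : ∀ y ∈ Y, g y ∈ Y) : g.restrict hYmem * g.restrict hYmem = 1 := by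
  apply LinearMap.ext
  intro v
  apply Subtype.ext
  have h1 : g (g (v : V)) = (v : V) := by
    have h2 := congrArg (fun f : Module.End F V => f (v : V)) hg
    simpa using h2
  exact h1

omit [Fintype F] [FiniteDimensional F V] in
theorem C2FM_map_inv (g : Module.End F V) (Y : Submodule F V) (hYmem : ∀ y ∈ Y, g y ∈ Y)
    (P' : Submodule F Y) (h : P'.map (g.restrict hYmem) ≤ P') :
    (P'.map Y.subtype).map g ≤ P'.map Y.subtype := by
  rintro _ ⟨_, ⟨w, hw, rfl⟩, rfl⟩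
  exact ⟨g.restrict hYmem w, h (Submodule.mem_map_of_mem hw), rfl⟩

omit [Fintype F] [FiniteDimensional F V] in
theorem C2FM_map_le (Y : Submodule F V) (P' : Submodule F Y) : P'.map Y.subtype ≤ Y := by
  rintro _ ⟨w, -, rfl⟩
  exact w.2

/-- orthogonal sums of `l` invariant `+` type blocks of dimension 4 (any ambient type) -/
theorem C2FM_key
    (hK4G : ∀ (V' : Type u) [AddCommGroup V'] [Module F V'] [FiniteDimensional F V']
      (Q' : V' → F) (B' : V' → V' → F), IsQuad Q' B' → Nondeg B' → ∀ n : ℕ, 2 ≤ n →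
      finrank F V' = 2 * n + 2 → ∀ g' : Module.End F V', QI Q' g' → g' * g' = 1 →
      ∃ H : Submodule F V', H.map g' ≤ H ∧ SubTyp Q' B' H 1 1)
    (hSUM : ∀ (V' : Type u) [AddCommGroup V'] [Module F V'] [FiniteDimensional F V']
      (Q' : V' → F) (B' : V' → V' → F), IsQuad Q' B' → ∀ (X Y : Submodule F V'),
      (∀ x ∈ X, ∀ y ∈ Y, B' x y = 0) → ∀ (k₁ k₂ : ℕ) (ε₁ ε₂ : ℤ), SubTyp Q' B' X k₁ ε₁ →
      SubTyp Q' B' Y k₂ ε₂ → SubTyp Q' B' (X ⊔ Y) (k₁ + k₂ + 1) (ε₁ * ε₂))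
    (hCOMPL : ∀ (V' : Type u) [AddCommGroup V'] [Module F V'] [FiniteDimensional F V']
      (Q' : V' → F) (B' : V' → V' → F), IsQuad Q' B' → Nondeg B' → ∀ d' : ℕ,
      finrank F V' = 2 * d' → ∀ ε : ℤ, IsTyp Q' (d' - 1) ε → ∀ (X : Submodule F V') (k : ℕ)
      (τ : ℤ), SubTyp Q' B' X k τ → k + 2 ≤ d' →
      ∃ Y : Submodule F V', (∀ x ∈ X, ∀ y ∈ Y, B' x y = 0) ∧ X ⊔ Y = ⊤ ∧ X ⊓ Y = ⊥ ∧
        SubTyp Q' B' Y (d' - k - 2) (ε * τ) ∧
        ∀ g : Module.End F V', QI Q' g → X.map g ≤ X → Y.map g ≤ Y)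
    (hQ : IsQuad Q B) (hnd : Nondeg B) (d : ℕ) (hdim : finrank F V = 2 * d) (ε : ℤ)
    (htyp : IsTyp Q (d - 1) ε) (g : Module.End F V) (hgQ : QI Q g) (hg : g * g = 1) :
    ∀ l : ℕ, 1 ≤ l → 4 * l + 2 ≤ 2 * d →
      ∃ W' : Submodule F V, SubTyp Q B W' (2 * l - 1) 1 ∧ W'.map g ≤ W' := by
  intro l hl
  induction l, hl using Nat.le_induction with
  | base =>
    intro h4
    obtain ⟨H, hH1, hH2⟩ := hK4G V Q B hQ hnd (d - 1) (by omega) (by rw [hdim]; omega) g hgQ hg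
    exact ⟨H, hH2, hH1⟩
  | succ l hl ih =>
    intro h4
    obtain ⟨W', hW', hW'g⟩ := ih (by omega)
    obtain ⟨Y, hXY, -, -, hY, hYg⟩ :=
      hCOMPL V Q B hQ hnd d hdim ε htyp W' (2 * l - 1) 1 hW' (by omega)
    have hYg' : Y.map g ≤ Y := hYg g hgQ hW'g
    have hYmem : ∀ y ∈ Y, g y ∈ Y := fun y hy => hYg' (Submodule.mem_map_of_mem hy)
    obtain ⟨hY1, hY2, hY3⟩ := hY
    have hgYQ : QI (fun w : Y => Q (w : V)) (g.restrict hYmem) := fun v => hgQ (v : V)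
    have hgY2 := C2FM_restrict_sq g hg Y hYmem
    obtain ⟨H', hH'1, hH'2⟩ := hK4G Y (fun w : Y => Q (w : V)) (resForm B Y) (hQ.res Y) hY1
      (d - (2 * l - 1) - 2) (by omega) hY2 (g.restrict hYmem) hgYQ hgY2
    have hH : SubTyp Q B (H'.map Y.subtype) 1 1 := C2F_subtyp_map Y H' 1 1 hH'2
    have hsum := hSUM V Q B hQ W' (H'.map Y.subtype)
      (fun x hx y hy => hXY x hx y (C2FM_map_le Y H' hy)) (2 * l - 1) 1 1 1 hW' hH
    refine ⟨W' ⊔ H'.map Y.subtype, ?_, ?_⟩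
    · have e1 : 2 * l - 1 + 1 + 1 = 2 * (l + 1) - 1 := by omega
      rw [e1, mul_one] at hsum
      exact hsum
    · rw [Submodule.map_sup]
      exact sup_le_sup hW'g (C2FM_map_inv g Y hYmem H' hH'1)

/-- an invariant elliptic plane in a `-` type space of dimension `≡ 0 mod 4` -/
theorem C2FM_plane
    (hK4G : ∀ (V' : Type u) [AddCommGroup V'] [Module F V'] [FiniteDimensional F V']
      (Q' : V' → F) (B' : V' → V' → F), IsQuad Q' B' → Nondeg B' → ∀ n : ℕ, 2 ≤ n →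
      finrank F V' = 2 * n + 2 → ∀ g' : Module.End F V', QI Q' g' → g' * g' = 1 →
      ∃ H : Submodule F V', H.map g' ≤ H ∧ SubTyp Q' B' H 1 1)
    (hPEELM : ∀ (V' : Type u) [AddCommGroup V'] [Module F V'] [FiniteDimensional F V']
      (Q' : V' → F) (B' : V' → V' → F), IsQuad Q' B' → Nondeg B' → finrank F V' = 4 →
      IsTyp Q' 1 (-1) → ∀ g' : Module.End F V', QI Q' g' → g' * g' = 1 →
      ∃ P : Submodule F V', P.map g' ≤ P ∧ SubTyp Q' B' P 0 (-1))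
    (hSUM : ∀ (V' : Type u) [AddCommGroup V'] [Module F V'] [FiniteDimensional F V']
      (Q' : V' → F) (B' : V' → V' → F), IsQuad Q' B' → ∀ (X Y : Submodule F V'),
      (∀ x ∈ X, ∀ y ∈ Y, B' x y = 0) → ∀ (k₁ k₂ : ℕ) (ε₁ ε₂ : ℤ), SubTyp Q' B' X k₁ ε₁ →
      SubTyp Q' B' Y k₂ ε₂ → SubTyp Q' B' (X ⊔ Y) (k₁ + k₂ + 1) (ε₁ * ε₂))
    (hCOMPL : ∀ (V' : Type u) [AddCommGroup V'] [Module F V'] [FiniteDimensional F V']
      (Q' : V' → F) (B' : V' → V' → F), IsQuad Q' B' → Nondeg B' → ∀ d' : ℕ,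
      finrank F V' = 2 * d' → ∀ ε : ℤ, IsTyp Q' (d' - 1) ε → ∀ (X : Submodule F V') (k : ℕ)
      (τ : ℤ), SubTyp Q' B' X k τ → k + 2 ≤ d' →
      ∃ Y : Submodule F V', (∀ x ∈ X, ∀ y ∈ Y, B' x y = 0) ∧ X ⊔ Y = ⊤ ∧ X ⊓ Y = ⊥ ∧
        SubTyp Q' B' Y (d' - k - 2) (ε * τ) ∧
        ∀ g : Module.End F V', QI Q' g → X.map g ≤ X → Y.map g ≤ Y)
    (hQ : IsQuad Q B) (hnd : Nondeg B) (e : ℕ) (he : Even e) (he2 : 2 ≤ e)
    (hdim : finrank F V = 2 * e) (htyp : IsTyp Q (e - 1) (-1)) (g : Module.End F V)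
    (hgQ : QI Q g) (hg : g * g = 1) :
    ∃ P : Submodule F V, SubTyp Q B P 0 (-1) ∧ P.map g ≤ P := by
  by_cases h2 : e = 2
  · subst h2
    obtain ⟨P, hP1, hP2⟩ := hPEELM V Q B hQ hnd (by rw [hdim]) htyp g hgQ hg
    exact ⟨P, hP2, hP1⟩
  · obtain ⟨a, ha⟩ := he
    obtain ⟨Z, hZ, hZg⟩ := C2FM_key hK4G hSUM hCOMPL hQ hnd e hdim (-1) htyp g hgQ hg (a - 1)
      (by omega) (by omega)
    obtain ⟨Y, hXY, -, -, hY, hYg⟩ :=
      hCOMPL V Q B hQ hnd e hdim (-1) htyp Z (2 * (a - 1) - 1) 1 hZ (by omega)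
    have e1 : e - (2 * (a - 1) - 1) - 2 = 1 := by omega
    rw [e1, mul_one] at hY
    obtain ⟨hY1, hY2, hY3⟩ := hY
    have hYg' : Y.map g ≤ Y := hYg g hgQ hZg
    have hYmem : ∀ y ∈ Y, g y ∈ Y := fun y hy => hYg' (Submodule.mem_map_of_mem hy)
    have hgYQ : QI (fun w : Y => Q (w : V)) (g.restrict hYmem) := fun v => hgQ (v : V)
    have hgY2 := C2FM_restrict_sq g hg Y hYmem
    obtain ⟨P', hP'1, hP'2⟩ := hPEELM Y (fun w : Y => Q (w : V)) (resForm B Y) (hQ.res Y) hY1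
      (by rw [hY2]) hY3 (g.restrict hYmem) hgYQ hgY2
    exact ⟨P'.map Y.subtype, C2F_subtyp_map Y P' 0 (-1) hP'2, C2FM_map_inv g Y hYmem P' hP'1⟩

/-- C2FM, with the sibling pieces as hypotheses (see the glue in the module doc). -/
theorem char2_fix_minus_of
    (hK4G : ∀ (V' : Type u) [AddCommGroup V'] [Module F V'] [FiniteDimensional F V']
      (Q' : V' → F) (B' : V' → V' → F), IsQuad Q' B' → Nondeg B' → ∀ n : ℕ, 2 ≤ n →
      finrank F V' = 2 * n + 2 → ∀ g' : Module.End F V', QI Q' g' → g' * g' = 1 →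
      ∃ H : Submodule F V', H.map g' ≤ H ∧ SubTyp Q' B' H 1 1)
    (hPEELM : ∀ (V' : Type u) [AddCommGroup V'] [Module F V'] [FiniteDimensional F V']
      (Q' : V' → F) (B' : V' → V' → F), IsQuad Q' B' → Nondeg B' → finrank F V' = 4 →
      IsTyp Q' 1 (-1) → ∀ g' : Module.End F V', QI Q' g' → g' * g' = 1 →
      ∃ P : Submodule F V', P.map g' ≤ P ∧ SubTyp Q' B' P 0 (-1))
    (hSUM : ∀ (V' : Type u) [AddCommGroup V'] [Module F V'] [FiniteDimensional F V']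
      (Q' : V' → F) (B' : V' → V' → F), IsQuad Q' B' → ∀ (X Y : Submodule F V'),
      (∀ x ∈ X, ∀ y ∈ Y, B' x y = 0) → ∀ (k₁ k₂ : ℕ) (ε₁ ε₂ : ℤ), SubTyp Q' B' X k₁ ε₁ →
      SubTyp Q' B' Y k₂ ε₂ → SubTyp Q' B' (X ⊔ Y) (k₁ + k₂ + 1) (ε₁ * ε₂))
    (hCOMPL : ∀ (V' : Type u) [AddCommGroup V'] [Module F V'] [FiniteDimensional F V']
      (Q' : V' → F) (B' : V' → V' → F), IsQuad Q' B' → Nondeg B' → ∀ d' : ℕ,
      finrank F V' = 2 * d' → ∀ ε : ℤ, IsTyp Q' (d' - 1) ε → ∀ (X : Submodule F V') (k : ℕ)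
      (τ : ℤ), SubTyp Q' B' X k τ → k + 2 ≤ d' →
      ∃ Y : Submodule F V', (∀ x ∈ X, ∀ y ∈ Y, B' x y = 0) ∧ X ⊔ Y = ⊤ ∧ X ⊓ Y = ⊥ ∧
        SubTyp Q' B' Y (d' - k - 2) (ε * τ) ∧
        ∀ g : Module.End F V', QI Q' g → X.map g ≤ X → Y.map g ≤ Y)
    (hQ : IsQuad Q B) (hnd : Nondeg B) (d : ℕ)
    (hd : 3 ≤ d) (hdim : finrank F V = 2 * d) (htyp : IsTyp Q (d - 1) (-1))
    (g : Module.End F V) (hgQ : QI Q g) (hg : g * g = 1) (k : ℕ) (hk : k + 2 ≤ d)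
    (hcond : Even d ∨ Even k) :
    ∃ W : Submodule F V, SubTyp Q B W k (-1) ∧ W.map g ≤ W := by
  by_cases hpar : Odd (d - k - 2)
  · obtain ⟨c, hc⟩ := hpar
    obtain ⟨Y, hY, hYg⟩ := C2FM_key hK4G hSUM hCOMPL hQ hnd d hdim (-1) htyp g hgQ hg (c + 1)
      (by omega) (by omega)
    obtain ⟨W, -, -, -, hW, hWg⟩ :=
      hCOMPL V Q B hQ hnd d hdim (-1) htyp Y (2 * (c + 1) - 1) 1 hY (by omega)
    refine ⟨W, ?_, hWg g hgQ hYg⟩
    have e1 : d - (2 * (c + 1) - 1) - 2 = k := by omega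
    rw [e1, mul_one] at hW
    exact hW
  · have hde : Even d ∧ Even k := by
      rw [Nat.not_odd_iff_even] at hpar
      obtain ⟨c, hc⟩ := hpar
      rcases hcond with h | h
      · obtain ⟨a, ha⟩ := h
        exact ⟨⟨a, ha⟩, ⟨a - c - 1, by omega⟩⟩
      · obtain ⟨a, ha⟩ := h
        exact ⟨⟨a + c + 1, by omega⟩, ⟨a, ha⟩⟩
    obtain ⟨⟨a, ha⟩, ⟨b, hb⟩⟩ := hde
    by_cases hk0 : k = 0
    · subst hk0
      exact C2FM_plane hK4G hPEELM hSUM hCOMPL hQ hnd d ⟨a, ha⟩ (by omega) hdim htyp g hgQ hg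
    · obtain ⟨Z, hZ, hZg⟩ := C2FM_key hK4G hSUM hCOMPL hQ hnd d hdim (-1) htyp g hgQ hg b
        (by omega) (by omega)
      obtain ⟨Y, hXY, -, -, hY, hYg⟩ :=
        hCOMPL V Q B hQ hnd d hdim (-1) htyp Z (2 * b - 1) 1 hZ (by omega)
      rw [mul_one] at hY
      obtain ⟨hY1, hY2, hY3⟩ := hY
      have hYg' : Y.map g ≤ Y := hYg g hgQ hZg
      have hYmem : ∀ y ∈ Y, g y ∈ Y := fun y hy => hYg' (Submodule.mem_map_of_mem hy)
      have hgYQ : QI (fun w : Y => Q (w : V)) (g.restrict hYmem) := fun v => hgQ (v : V)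
      have hgY2 := C2FM_restrict_sq g hg Y hYmem
      have hY3' : IsTyp (fun w : Y => Q (w : V)) (d - k - 1) (-1) := by
        have e2 : d - k - 1 = d - (2 * b - 1) - 2 := by omega
        rw [e2]
        exact hY3
      obtain ⟨P', hP', hP'g⟩ := C2FM_plane hK4G hPEELM hSUM hCOMPL (hQ.res Y) hY1 (d - k)
        ⟨a - b, by omega⟩ (by omega) (by rw [hY2]; omega) hY3' (g.restrict hYmem) hgYQ hgY2
      have hE : SubTyp Q B (P'.map Y.subtype) 0 (-1) := C2F_subtyp_map Y P' 0 (-1) hP'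
      have hsum := hSUM V Q B hQ Z (P'.map Y.subtype)
        (fun x hx y hy => hXY x hx y (C2FM_map_le Y P' hy)) (2 * b - 1) 0 1 (-1) hZ hE
      refine ⟨Z ⊔ P'.map Y.subtype, ?_, ?_⟩
      · have e1 : 2 * b - 1 + 0 + 1 = k := by omega
        rw [e1, one_mul] at hsum
        exact hsum
      · rw [Submodule.map_sup]
        exact sup_le_sup hZg (C2FM_map_inv g Y hYmem P' hP'g)

end Cfsg.Agent.Lib.Helper98.H74
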