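import Cfsg.Agent.Lib.Helper98.H90Defs
import Cfsg.Agent.Lib.Helper47.H74K4b
import Cfsg.Agent.Lib.Helper77.H74HYPTYP
import Cfsg.Agent.Lib.Helper40.H74COMPL
import Cfsg.Agent.Lib.Helper24.H74SUM

/-!
# Project H74, batch 2 (S5990, helper98): BACKUP copy of piece K4G (`k4g`), named `k4g_b`
(same statement).  The three-planes branch of `Helper47.H74K4b.k4_of`, with the type of the
ambient space supplied by `QFacts.typ_exists`.
-/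

set_option autoImplicit false

namespace Cfsg.Agent.Lib.Helper98.H74

open Cfsg.Agent.Lib.Helper47 Cfsg.Agent.Lib.Helper98.T73 Module Polynomial

universe u

variable {F : Type u} [Field F] [Fintype F] {V : Type u} [AddCommGroup V] [Module F V]
  [FiniteDimensional F V] {Q : V → F} {B : V → V → F}

/-- K4G (backup copy) -/
theorem k4g_b (hf : QFacts F) [CharP F 2] (hQ : IsQuad Q B) (hnd : Nondeg B) (n : ℕ) (hn : 2 ≤ n)
    (hdim : finrank F V = 2 * n + 2) (g : Module.End F V) (hgQ : QI Q g)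
    (hg : g * g = 1) : ∃ H : Submodule F V, H.map g ≤ H ∧ SubTyp Q B H 1 1 := by
  classical
  haveI : Fact (Nat.Prime 2) := ⟨Nat.prime_two⟩
  have hhyp : ∀ W : Submodule F V, HypM Q (2 * 1 + 2) W → SubTyp Q B W 1 1 :=
    fun W hW => (hyp_iff hf hQ 2 W 1).mp hW
  obtain ⟨ε, htyp⟩ : ∃ ε : ℤ, IsTyp Q (n + 1 - 1) ε := by
    rcases hf.typ_exists n V Q B hQ hnd hdim with h | h
    · exact ⟨1, by simpa using h⟩
    · exact ⟨-1, by simpa using h⟩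
  have hdim' : finrank F V = 2 * (n + 1) := by rw [hdim]; ring
  have hcompl : ∀ (X : Submodule F V) (k : ℕ) (τ : ℤ), SubTyp Q B X k τ → k + 2 ≤ n + 1 →
      ∃ Y : Submodule F V, (∀ x ∈ X, ∀ y ∈ Y, B x y = 0) ∧ X ⊔ Y = ⊤ ∧ X ⊓ Y = ⊥ ∧
        SubTyp Q B Y (n + 1 - k - 2) (ε * τ) ∧
        ∀ g : Module.End F V, QI Q g → X.map g ≤ X → Y.map g ≤ Y :=
    fun X k τ hX hk => subtyp_compl hf hQ hnd (n + 1) hdim' ε htyp X k τ hX hk
  have hndtop : Nondeg (resForm B (⊤ : Submodule F V)) := by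
    intro x hx
    have h3 := hnd x.1 (fun y => hx ⟨y, Submodule.mem_top⟩)
    exact Subtype.ext h3
  have pair : ∀ (X Y : Submodule F V), (∀ x ∈ X, ∀ y ∈ Y, B x y = 0) → X.map g ≤ X →
      Y.map g ≤ Y → ∀ ε : ℤ, (ε = 1 ∨ ε = -1) → SubTyp Q B X 0 ε → SubTyp Q B Y 0 ε →
      ∃ H : Submodule F V, H.map g ≤ H ∧ SubTyp Q B H 1 1 := by
    intro X Y hXY hXg hYg ε hε hX hY
    have h3 := subtyp_sup hf hQ X Y hXY 0 0 ε ε hX hY
    have h4 : ε * ε = 1 := by rcases hε with rfl | rfl <;> norm_num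
    rw [h4] at h3
    refine ⟨X ⊔ Y, ?_, h3⟩
    rw [Submodule.map_sup]
    exact sup_le_sup hXg hYg
  have hne : ∀ (Y : Submodule F V) (k : ℕ), finrank F Y = 2 * k + 2 → Y ≠ ⊥ := by
    intro Y k hk hbot
    rw [hbot, finrank_bot] at hk
    omega
  -- step 1
  obtain ⟨P1, -, hP1g, hP1⟩ := K4b_peel hf hQ g hgQ hg hhyp ⊤ le_top hndtop
    (hne ⊤ n (by rw [finrank_top, hdim]))
  rcases hP1 with ⟨ε₁, hε₁, hP1t⟩ | hP1
  swap
  · exact ⟨P1, hP1g, hP1⟩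
  -- step 2
  obtain ⟨Y1, horth1, -, -, hY1, hinv1⟩ := hcompl P1 0 ε₁ hP1t (by omega)
  have hY1g : Y1.map g ≤ Y1 := hinv1 g hgQ hP1g
  obtain ⟨P2, hP2Y, hP2g, hP2⟩ := K4b_peel hf hQ g hgQ hg hhyp Y1 hY1g hY1.1
    (hne Y1 _ hY1.2.1)
  rcases hP2 with ⟨ε₂, hε₂, hP2t⟩ | hP2
  swap
  · exact ⟨P2, hP2g, hP2⟩
  have horth12 : ∀ x ∈ P1, ∀ y ∈ P2, B x y = 0 := fun x hx y hy => horth1 x hx y (hP2Y hy)
  -- step 3
  have hS := subtyp_sup hf hQ P1 P2 horth12 0 0 ε₁ ε₂ hP1t hP2t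
  have hSg : (P1 ⊔ P2).map g ≤ P1 ⊔ P2 := by
    rw [Submodule.map_sup]
    exact sup_le_sup hP1g hP2g
  obtain ⟨Y2, horth2, -, -, hY2, hinv2⟩ := hcompl (P1 ⊔ P2) (0 + 0 + 1) (ε₁ * ε₂) hS (by omega)
  have hY2g : Y2.map g ≤ Y2 := hinv2 g hgQ hSg
  obtain ⟨P3, hP3Y, hP3g, hP3⟩ := K4b_peel hf hQ g hgQ hg hhyp Y2 hY2g hY2.1
    (hne Y2 _ hY2.2.1)
  rcases hP3 with ⟨ε₃, hε₃, hP3t⟩ | hP3
  swap
  · exact ⟨P3, hP3g, hP3⟩
  have horth13 : ∀ x ∈ P1, ∀ y ∈ P3, B x y = 0 := fun x hx y hy =>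
    horth2 x (Submodule.mem_sup_left hx) y (hP3Y hy)
  have horth23 : ∀ x ∈ P2, ∀ y ∈ P3, B x y = 0 := fun x hx y hy =>
    horth2 x (Submodule.mem_sup_right hx) y (hP3Y hy)
  by_cases h12 : ε₁ = ε₂
  · subst h12
    exact pair P1 P2 horth12 hP1g hP2g ε₁ hε₁ hP1t hP2t
  · by_cases h13 : ε₁ = ε₃
    · subst h13
      exact pair P1 P3 horth13 hP1g hP3g ε₁ hε₁ hP1t hP3t
    · have h23 : ε₂ = ε₃ := by omega
      subst h23
      exact pair P2 P3 horth23 hP2g hP3g ε₂ hε₂ hP2t hP3t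

end Cfsg.Agent.Lib.Helper98.H74
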