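import Cfsg.Agent.Lib.Helper98.H90Defs
import Cfsg.Agent.Lib.Helper47.H74K4b
import Cfsg.Agent.Lib.Helper77.H74HYPTYP
import Cfsg.Agent.Lib.Helper40.H74COMPL
import Cfsg.Agent.Lib.Helper28.H74TOP

/-!
# Project H74, batch 2 (S5990, helper98): BACKUP copy of piece PEELM (`char2_plane_minus`),
named `char2_plane_minus_b` (same statement).
-/

set_option autoImplicit false

namespace Cfsg.Agent.Lib.Helper98.H74

open Cfsg.Agent.Lib.Helper47 Cfsg.Agent.Lib.Helper98.T73 Module Polynomial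

universe u

variable {F : Type u} [Field F] [Fintype F] {V : Type u} [AddCommGroup V] [Module F V]
  [FiniteDimensional F V] {Q : V → F} {B : V → V → F}

/-- PEELM (backup copy) -/
theorem char2_plane_minus_b (hf : QFacts F) [CharP F 2] (hQ : IsQuad Q B) (hnd : Nondeg B)
    (hdim : finrank F V = 4) (htyp : IsTyp Q 1 (-1)) (g : Module.End F V) (hgQ : QI Q g)
    (hg : g * g = 1) : ∃ P : Submodule F V, P.map g ≤ P ∧ SubTyp Q B P 0 (-1) := by
  classical
  haveI : Fact (Nat.Prime 2) := ⟨Nat.prime_two⟩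
  have hhyp : ∀ W : Submodule F V, HypM Q (2 * 1 + 2) W → SubTyp Q B W 1 1 :=
    fun W hW => (hyp_iff hf hQ 2 W 1).mp hW
  have hndtop : Nondeg (resForm B (⊤ : Submodule F V)) := by
    intro x hx
    have h3 := hnd x.1 (fun y => hx ⟨y, Submodule.mem_top⟩)
    exact Subtype.ext h3
  have htop : SubTyp Q B (⊤ : Submodule F V) 1 (-1) := by
    refine ⟨hndtop, ?_, ?_⟩
    · rw [finrank_top, hdim]
    · exact IsTyp.of_equiv (Submodule.topEquiv (R := F) (M := V)).symm.toEquiv
        (fun v => rfl) htyp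
  have hne : (⊤ : Submodule F V) ≠ ⊥ := by
    intro hbot
    have h4 : finrank F (⊤ : Submodule F V) = 4 := by rw [finrank_top, hdim]
    rw [hbot, finrank_bot] at h4
    omega
  obtain ⟨P, -, hPg, hP⟩ := K4b_peel hf hQ g hgQ hg hhyp ⊤ le_top hndtop hne
  rcases hP with ⟨ε, hε, hPt⟩ | hP
  · rcases hε with rfl | rfl
    · have hdim' : finrank F V = 2 * 2 := by rw [hdim]
      obtain ⟨Y, -, -, -, hY, hinv⟩ := subtyp_compl hf hQ hnd 2 hdim' (-1) htyp P 0 1 hPt
        (by omega)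
      refine ⟨Y, hinv g hgQ hPg, ?_⟩
      simpa using hY
    · exact ⟨P, hPg, hPt⟩
  · exfalso
    have h5 := (subtyp_le hQ ⊤ P 1 1 (-1) 1 htop hP le_top).2 rfl
    norm_num at h5

end Cfsg.Agent.Lib.Helper98.H74
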