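import Cfsg.Agent.Lib.Helper94.H90C2FM
import Cfsg.Agent.Lib.Helper94.H90K4Gb
import Cfsg.Agent.Lib.Helper94.H90PEELMb
import Cfsg.Agent.Lib.Helper24.H74SUM
import Cfsg.Agent.Lib.Helper40.H74COMPL

/-!
# Project H74, batch 2 (S5990, helper98): piece C2FM, final form `char2_fix_minus` (exact
skeleton statement, no hypotheses left), from `char2_fix_minus_of` and the landed pieces
`k4g_b`, `char2_plane_minus_b` (backup copies of K4G, PEELM), `subtyp_sup`, `subtyp_compl`.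
-/

set_option autoImplicit false

namespace Cfsg.Agent.Lib.Helper98.H74

open Cfsg.Agent.Lib.Helper47 Cfsg.Agent.Lib.Helper98.T73 Module Polynomial

universe u

variable {F : Type u} [Field F] [Fintype F] {V : Type u} [AddCommGroup V] [Module F V]
  [FiniteDimensional F V] {Q : V → F} {B : V → V → F}

/-- C2FM -/
theorem char2_fix_minus (hf : QFacts F) [CharP F 2] (hQ : IsQuad Q B) (hnd : Nondeg B) (d : ℕ)
    (hd : 3 ≤ d) (hdim : finrank F V = 2 * d) (htyp : IsTyp Q (d - 1) (-1))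
    (g : Module.End F V) (hgQ : QI Q g) (hg : g * g = 1) (k : ℕ) (hk : k + 2 ≤ d)
    (hcond : Even d ∨ Even k) :
    ∃ W : Submodule F V, SubTyp Q B W k (-1) ∧ W.map g ≤ W :=
  char2_fix_minus_of
    (fun _ _ _ _ _ _ hQ' hnd' n hn hdim' g' hgQ' hg' =>
      k4g_b hf hQ' hnd' n hn hdim' g' hgQ' hg')
    (fun _ _ _ _ _ _ hQ' hnd' hdim' htyp' g' hgQ' hg' =>
      char2_plane_minus_b hf hQ' hnd' hdim' htyp' g' hgQ' hg')
    (fun _ _ _ _ _ _ hQ' => subtyp_sup hf hQ')
    (fun _ _ _ _ _ _ hQ' hnd' d' hdim' => subtyp_compl hf hQ' hnd' d' hdim')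
    hQ hnd d hd hdim htyp g hgQ hg k hk hcond

end Cfsg.Agent.Lib.Helper98.H74
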