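import Mathlib
import Cfsg.Agent.Lib.Helper58.JEDefs
import Cfsg.Agent.Lib.Helper72.JMDefs

set_option autoImplicit false

namespace Cfsg.Agent.Lib.Helper94.JE

open Cfsg.Agent.Lib.Helper58.JE Cfsg.Agent.Lib.Helper72.JL Cfsg.Agent.Lib.Helper72.SC
  Cfsg.Agent.Lib.Helper78.Jc Cfsg.Agent.Lib.Helper72.JM

universe u

/-- JE-DATAX (needs also JL-VAB: `VT T` is abelian of exponent 2). -/
theorem datax (hVab : VabStmt.{u}) (hO2 : O2Stmt.{u}) (hPs : PsStmt.{u}) (hBo : BoStmt.{u})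
    (hC2 : C2Stmt.{u}) (h : FF3Stmt.{u}) : DataXStmt.{u} := by
  intro X _ _ T hS hex
  obtain ⟨A₀, hA₀, hA₀Q⟩ := hex
  obtain ⟨-, hVc, hVs, -, -⟩ := hVab X T hS
  have hcomm : ∀ a b : ↥(VT T), a * b = b * a := by
    intro a b
    exact Subtype.ext (hVc a.1 a.2 b.1 b.2)
  have hsq : ∀ v : ↥(VT T), v ^ 2 = 1 := by
    intro v
    rw [pow_two]
    exact Subtype.ext (hVs v.1 v.2)
  have hps : Cfsg.IsPSolvable 2 ↥(rhoT T).range := hPs X T hS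
  have ho2 : Cfsg.pCore 2 ↥(rhoT T).range = ⊥ := hO2 X T hS
  have hle : ∀ A' : Subgroup X, A'.map (rhoT T) ≤ (rhoT T).range := fun A' =>
    Subgroup.map_le_range _ _
  have hbo : ∀ A' : Subgroup X, IsMaxEA T A' →
      Cfsg.IsBestOffenderOn 2 (Vs ↥(VT T)) (up (A'.map (rhoT T))) := fun A' hA' =>
    hBo X T hS A' hA'
  have hne : A₀.map (rhoT T) ≠ ⊥ := by
    intro hbot
    apply hA₀Q
    intro a ha
    have h1 : rhoT T a ∈ (⊥ : Subgroup (MulAut ↥(VT T))) := by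
      rw [← hbot]
      exact Subgroup.mem_map_of_mem _ ha
    refine hC2 X T hS ⊥ IsPGroup.of_bot a h1 ⟨1, ?_⟩
    rw [pow_one, pow_two]
    exact hA₀.2.2.1 a ha
  obtain ⟨β, M, hβ, hMle, hMcard, hMnorm, hMinv, v₀, hv₀⟩ :=
    h ↥(VT T) (rhoT T).range (A₀.map (rhoT T)) hcomm hsq hps ho2 (hle A₀) (hbo A₀ hA₀) hne
  obtain ⟨b, hb, rfl⟩ := Subgroup.mem_map.1 hβ
  refine ⟨A₀, b, M, hA₀, hb, hMle, hMcard, ?_, hMinv, v₀, hv₀⟩
  intro A' hA' a ha m hm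
  refine hMnorm (rhoT T a) ?_ m hm
  have h2 : up (A'.map (rhoT T)) ≤ Hs 2 (rhoT T).range := by
    have h3 : up (A'.map (rhoT T)) ≤ up (rhoT T).range := Subgroup.map_mono (hle A')
    exact le_iSup (fun A : {A : Subgroup (Gam ↥(VT T)) //
      A ≤ up (rhoT T).range ∧ Cfsg.IsBestOffenderOn 2 (Vs ↥(VT T)) A} =>
        (A : Subgroup (Gam ↥(VT T)))) ⟨up (A'.map (rhoT T)), h3, hbo A' hA'⟩
  apply h2
  exact Subgroup.mem_map_of_mem _ (Subgroup.mem_map_of_mem _ ha)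

end Cfsg.Agent.Lib.Helper94.JE
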