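import Mathlib
import Cfsg.Prelude.Def_Sporadic_a
import Cfsg.Prelude.Def_Spor_Mathieu
import Cfsg.Agent.Lib.Helper9.M24Trans
import Cfsg.Agent.Lib.Helper9.M23Simple
import Cfsg.Agent.Lib.Helper89.TabMathieu

set_option autoImplicit false

/-!
# The affine group `23:11` inside `M23` (helper94)

`tau : t ↦ t + 1`, `mu u : t ↦ u t`; the group `F` generated by `tau` and the `mu u` with `u` a
square is the normaliser of `⟨tau⟩` in `M23` and has order `253`.
-/

namespace Cfsg.Agent.Lib.Helper94.L223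

open Cfsg Cfsg.Agent.Lib.Helper9 Cfsg.Agent.Lib.Helper89
open scoped Pointwise

instance fact23 : Fact (Nat.Prime 23) := ⟨by norm_num⟩

/-- the permutations of the 24 points -/
abbrev Pm : Type := Equiv.Perm GolayPt

/-- `t ↦ t + 1` -/
abbrev tau : Pm := shiftPerm

/-- `t ↦ u t` -/
def mu (u : (ZMod 23)ˣ) : Pm := Equiv.optionCongr (Units.mulLeft u)

/-- `t ↦ -t` -/
def negP : Pm := Equiv.optionCongr (Equiv.neg (ZMod 23))

/-- the unit `2` -/
def two : (ZMod 23)ˣ := Units.mk0 2 (by decide)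

/-- `t ↦ 2 t` -/
def q : Pm := mu two

/-- the generators of `23:11` -/
def S2 : Set Pm := {tau} ∪ {g : Pm | ∃ u : (ZMod 23)ˣ, IsSquare u ∧ g = Equiv.optionCongr (Units.mulLeft u)}

/-- the group `23:11` -/
def F : Subgroup Pm := Subgroup.closure S2

theorem tau_some (t : ZMod 23) : tau (some t) = some (t + 1) := rfl

theorem tau_none : tau none = none := rfl

theorem mu_some (u : (ZMod 23)ˣ) (t : ZMod 23) : mu u (some t) = some (u * t) := rfl

theorem mu_none (u : (ZMod 23)ˣ) : mu u none = none := rfl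

theorem negP_some (t : ZMod 23) : negP (some t) = some (-t) := rfl

theorem negP_none : negP none = none := rfl

theorem tau_pow_none (n : ℕ) : (tau ^ n) none = none := by
  induction n with
  | zero => rfl
  | succ n ih => rw [pow_succ, Equiv.Perm.mul_apply, tau_none, ih]

theorem tau_pow_some (n : ℕ) (t : ZMod 23) : (tau ^ n) (some t) = some (t + n) := by
  induction n generalizing t with
  | zero => simp
  | succ n ih =>
    rw [pow_succ, Equiv.Perm.mul_apply, tau_some, ih]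
    congr 1
    push_cast
    ring

theorem q_some (t : ZMod 23) : q (some t) = some (2 * t) := rfl

theorem q_none : q none = none := rfl

theorem q_pow_none (n : ℕ) : (q ^ n) none = none := by
  induction n with
  | zero => rfl
  | succ n ih => rw [pow_succ, Equiv.Perm.mul_apply, q_none, ih]

theorem q_pow_some (n : ℕ) (t : ZMod 23) : (q ^ n) (some t) = some (2 ^ n * t) := by
  induction n generalizing t with
  | zero => simp
  | succ n ih =>
    rw [pow_succ, Equiv.Perm.mul_apply, q_some, ih]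
    congr 1
    ring

/-! ### Tables -/

/-- table of `t ↦ 2 t` -/
def qT : List ℕ :=
  [0, 2, 4, 6, 8, 10, 12, 14, 16, 18, 20, 22, 1, 3, 5, 7, 9, 11, 13, 15, 17, 19, 21, 23]

/-- table of `t ↦ -t` -/
def negT : List ℕ :=
  [0, 22, 21, 20, 19, 18, 17, 16, 15, 14, 13, 12, 11, 10, 9, 8, 7, 6, 5, 4, 3, 2, 1, 23]

theorem q_table : ∀ p, q p = pt (qT.getD (idx p) 0) := by decide +kernel

theorem negP_table : ∀ p, negP p = pt (negT.getD (idx p) 0) := by decide +kernel

theorem hasTable_q : HasTable q qT := ⟨by decide, q_table⟩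

theorem q_mem : q ∈ M24 := mem_M24_of_table qT q_table (by decide +kernel)

theorem negP_not_mem : negP ∉ M24 := by
  intro h
  have h1 := tableOK_of_mem_M24 negT (by decide) negP_table h
  have h2 : tableOK negT = false := by decide +kernel
  rw [h1] at h2
  exact Bool.noConfusion h2

theorem orderOf_q : orderOf q = 11 := by
  have : Fact (Nat.Prime 11) := ⟨by norm_num⟩
  exact orderOf_eq_of_table hasTable_q (by decide +kernel) (by decide)

/-! ### Squares modulo 23 -/

theorem sq_eq_two_pow : ∀ r : ZMod 23, r ≠ 0 → ∃ i : Fin 11, r * r = 2 ^ (i : ℕ) := by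
  decide +kernel

theorem sq_or_neg_sq : ∀ k : ZMod 23, k ≠ 0 →
    (∃ r : ZMod 23, r ≠ 0 ∧ k = r * r) ∨ (∃ r : ZMod 23, r ≠ 0 ∧ -k = r * r) := by
  decide +kernel

theorem mu_sq_eq {k r : ZMod 23} (hk : k ≠ 0) (hr : r ≠ 0) (h : k = r * r) :
    ∃ i : ℕ, mu (Units.mk0 k hk) = q ^ i := by
  obtain ⟨i, hi⟩ := sq_eq_two_pow r hr
  refine ⟨i, ?_⟩
  ext p : 1
  cases p with
  | none => rw [mu_none, q_pow_none]
  | some t => rw [mu_some, q_pow_some, Units.val_mk0, h, hi]

theorem isSquare_mk0 {k r : ZMod 23} (hk : k ≠ 0) (hr : r ≠ 0) (h : k = r * r) :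
    IsSquare (Units.mk0 k hk) :=
  ⟨Units.mk0 r hr, Units.ext (by simp [h])⟩

theorem mu_mem_S2 {k r : ZMod 23} (hk : k ≠ 0) (hr : r ≠ 0) (h : k = r * r) :
    mu (Units.mk0 k hk) ∈ S2 :=
  Or.inr ⟨Units.mk0 k hk, isSquare_mk0 hk hr h, rfl⟩

theorem mu_eq_of_isSquare {u : (ZMod 23)ˣ} (hu : IsSquare u) : ∃ i : ℕ, mu u = q ^ i := by
  obtain ⟨v, rfl⟩ := hu
  have h := mu_sq_eq (k := ((v * v : (ZMod 23)ˣ) : ZMod 23)) (r := (v : ZMod 23))
    (Units.ne_zero _) (Units.ne_zero _) (by simp)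
  obtain ⟨i, hi⟩ := h
  refine ⟨i, ?_⟩
  rw [← hi]
  congr 1
  exact Units.ext rfl

theorem mu_mem_M24 {u : (ZMod 23)ˣ} (hu : IsSquare u) : mu u ∈ M24 := by
  obtain ⟨i, hi⟩ := mu_eq_of_isSquare hu
  rw [hi]
  exact Subgroup.pow_mem _ q_mem i

theorem q_mem_S2 : q ∈ S2 :=
  Or.inr ⟨two, ⟨Units.mk0 5 (by decide), Units.ext (by decide)⟩, rfl⟩

theorem tau_mem_F : tau ∈ F := Subgroup.subset_closure (Or.inl rfl)

theorem q_mem_F : q ∈ F := Subgroup.subset_closure q_mem_S2

end Cfsg.Agent.Lib.Helper94.L223
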