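import Mathlib
import Cfsg.Agent.Lib.Helper94.L223Basic

set_option autoImplicit false

/-!
# `F = 23:11` is the normaliser of `⟨tau⟩` in `M23`, of order 253 (helper94)
-/

namespace Cfsg.Agent.Lib.Helper94.L223

open Cfsg Cfsg.Agent.Lib.Helper9 Cfsg.Agent.Lib.Helper89
open scoped Pointwise

theorem mem_M23_iff {g : Pm} : g ∈ Spor.M23 ↔ g ∈ M24 ∧ g none = none := by
  unfold Spor.M23
  rw [Subgroup.mem_inf, MulAction.mem_stabilizer_iff]
  rfl

theorem mem_norm_zpowers {G : Type*} [Group G] [Finite G] (z n : G) :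
    n ∈ Subgroup.normalizer (Subgroup.zpowers z : Set G) ↔ n * z * n⁻¹ ∈ Subgroup.zpowers z := by
  constructor
  · intro h
    exact (Subgroup.mem_set_normalizer_iff.1 h z).1 (Subgroup.mem_zpowers z)
  · intro h
    apply Subgroup.mem_normalizer_fintype
    intro m hm
    obtain ⟨k, rfl⟩ := Subgroup.mem_zpowers_iff.1 hm
    rw [← conj_zpow]
    exact Subgroup.zpow_mem _ h k

theorem exists_pow_of_mem_zpowers {G : Type*} [Group G] [Finite G] {z w : G}
    (h : w ∈ Subgroup.zpowers z) : ∃ n : ℕ, z ^ n = w := by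
  rw [← mem_powers_iff_mem_zpowers] at h
  exact (Submonoid.mem_powers_iff _ _).1 h

theorem some_of_fix {g : Pm} (h0 : g none = none) (t : ZMod 23) : ∃ s, g (some t) = some s := by
  cases h : g (some t) with
  | none => exact absurd (g.injective (h.trans h0.symm)) (by simp)
  | some s => exact ⟨s, rfl⟩

/-- an element normalising `⟨tau⟩` and fixing the extra point is affine -/
theorem affine_of_normalizes {g : Pm} (h0 : g none = none)
    (hn : g * tau * g⁻¹ ∈ Subgroup.zpowers tau) :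
    ∃ k b : ZMod 23, k ≠ 0 ∧ ∀ t, g (some t) = some (k * t + b) := by
  obtain ⟨n, hn⟩ := exists_pow_of_mem_zpowers hn
  have hgt : ∀ p, g (tau p) = (tau ^ n) (g p) := by
    intro p
    have h1 : g * tau = tau ^ n * g := by rw [hn]; group
    exact congrArg (fun f : Pm => f p) h1
  obtain ⟨b, hb⟩ := some_of_fix h0 0
  have key : ∀ m : ℕ, g (some (m : ZMod 23)) = some ((n : ZMod 23) * m + b) := by
    intro m
    induction m with
    | zero => simpa using hb
    | succ m ih =>
      have h1 : (some ((m + 1 : ℕ) : ZMod 23) : GolayPt) = tau (some (m : ZMod 23)) := by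
        rw [tau_some]; push_cast; rfl
      rw [h1, hgt, ih, tau_pow_some]
      congr 1
      push_cast
      ring
  refine ⟨n, b, ?_, fun t => ?_⟩
  · intro hk
    have h1 := key 1
    have h2 := key 0
    rw [hk] at h1 h2
    have h3 := g.injective (h1.trans (by rw [h2]; simp))
    have h4 : ((1 : ℕ) : ZMod 23) = ((0 : ℕ) : ZMod 23) := Option.some.inj h3
    revert h4
    decide
  · have h1 := key t.val
    rwa [ZMod.natCast_zmod_val] at h1

theorem aff_eq {g : Pm} (h0 : g none = none) {k b : ZMod 23} (hk : k ≠ 0)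
    (h : ∀ t, g (some t) = some (k * t + b)) : g = tau ^ b.val * mu (Units.mk0 k hk) := by
  ext p : 1
  cases p with
  | none => rw [Equiv.Perm.mul_apply, mu_none, tau_pow_none, h0]
  | some t =>
    rw [Equiv.Perm.mul_apply, mu_some, tau_pow_some, h t, ZMod.natCast_zmod_val, Units.val_mk0]

theorem S2_sub_M24 : S2 ⊆ (M24 : Set Pm) := by
  rintro g (hg | ⟨u, hu, rfl⟩)
  · rw [Set.mem_singleton_iff] at hg
    rw [hg]
    exact shift_mem
  · exact mu_mem_M24 hu

theorem F_le_M24 : F ≤ M24 := (Subgroup.closure_le _).mpr S2_sub_M24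

/-- an affine map in `M24` has a square multiplier -/
theorem sq_of_aff_mem {g : Pm} (hg : g ∈ M24) (h0 : g none = none) {k b : ZMod 23} (hk : k ≠ 0)
    (h : ∀ t, g (some t) = some (k * t + b)) : ∃ r : ZMod 23, r ≠ 0 ∧ k = r * r := by
  rcases sq_or_neg_sq k hk with h1 | ⟨r, hr, hkr⟩
  · exact h1
  · exfalso
    have hnk : -k ≠ 0 := neg_ne_zero.mpr hk
    have hh'M : tau ^ b.val * mu (Units.mk0 (-k) hnk) ∈ M24 :=
      Subgroup.mul_mem _ (Subgroup.pow_mem _ shift_mem _) (mu_mem_M24 (isSquare_mk0 hnk hr hkr))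
    have h1 : g = tau ^ b.val * mu (Units.mk0 (-k) hnk) * negP := by
      ext p : 1
      cases p with
      | none =>
        rw [Equiv.Perm.mul_apply, Equiv.Perm.mul_apply, negP_none, mu_none, tau_pow_none, h0]
      | some t =>
        rw [Equiv.Perm.mul_apply, Equiv.Perm.mul_apply, negP_some, mu_some, tau_pow_some, h t,
          ZMod.natCast_zmod_val, Units.val_mk0]
        congr 1
        ring
    have h2 : negP = (tau ^ b.val * mu (Units.mk0 (-k) hnk))⁻¹ * g := by
      rw [h1]; group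
    apply negP_not_mem
    rw [h2]
    exact Subgroup.mul_mem _ (Subgroup.inv_mem _ hh'M) hg

/-- the normaliser of `⟨tau⟩` in `M23` -/
def Ntau : Subgroup Pm := Subgroup.normalizer (Subgroup.zpowers tau : Set Pm) ⊓ Spor.M23

theorem mu_mul_tau (u : (ZMod 23)ˣ) : mu u * tau = tau ^ (u : ZMod 23).val * mu u := by
  ext p : 1
  cases p with
  | none => rw [Equiv.Perm.mul_apply, Equiv.Perm.mul_apply, tau_none, mu_none, tau_pow_none]
  | some t =>
    rw [Equiv.Perm.mul_apply, Equiv.Perm.mul_apply, tau_some, mu_some, mu_some, tau_pow_some,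
      ZMod.natCast_zmod_val]
    congr 1
    ring

theorem mu_mem_normalizer (u : (ZMod 23)ˣ) :
    mu u ∈ Subgroup.normalizer (Subgroup.zpowers tau : Set Pm) := by
  rw [mem_norm_zpowers]
  have h1 : mu u * tau * (mu u)⁻¹ = tau ^ (u : ZMod 23).val := by rw [mu_mul_tau]; group
  rw [h1]
  exact Subgroup.pow_mem _ (Subgroup.mem_zpowers tau) _

theorem F_le_Ntau : F ≤ Ntau := by
  apply (Subgroup.closure_le _).mpr
  rintro g (hg | ⟨u, hu, rfl⟩)
  · rw [Set.mem_singleton_iff] at hg
    rw [hg]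
    exact ⟨Subgroup.le_normalizer (Subgroup.mem_zpowers tau), mem_M23_iff.2 ⟨shift_mem, rfl⟩⟩
  · exact ⟨mu_mem_normalizer u, mem_M23_iff.2 ⟨mu_mem_M24 hu, rfl⟩⟩

theorem Ntau_le_F : Ntau ≤ F := by
  intro g hg
  obtain ⟨hgn, hgM⟩ := Subgroup.mem_inf.1 hg
  rw [mem_M23_iff] at hgM
  have h1 : g * tau * g⁻¹ ∈ Subgroup.zpowers tau := (mem_norm_zpowers tau g).1 hgn
  obtain ⟨k, b, hk, hkb⟩ := affine_of_normalizes hgM.2 h1
  obtain ⟨r, hr, hkr⟩ := sq_of_aff_mem hgM.1 hgM.2 hk hkb
  rw [aff_eq hgM.2 hk hkb]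
  exact Subgroup.mul_mem _ (Subgroup.pow_mem _ tau_mem_F _)
    (Subgroup.subset_closure (mu_mem_S2 hk hr hkr))

theorem Ntau_eq_F : Ntau = F := le_antisymm Ntau_le_F F_le_Ntau

theorem F_le_M23 : F ≤ Spor.M23 := fun _ hg => (F_le_Ntau hg).2

/-- the pairs `(k, b)` with `k` a nonzero square -/
def affPairs : Finset (ZMod 23 × ZMod 23) :=
  Finset.univ.filter fun x => ∃ r : ZMod 23, r ≠ 0 ∧ x.1 = r * r

theorem card_affPairs : affPairs.card = 253 := by decide +kernel

theorem exists_pair (g : ↥F) : ∃ x : ZMod 23 × ZMod 23, x ∈ affPairs ∧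
    ∀ t, g.1 (some t) = some (x.1 * t + x.2) := by
  have hg := F_le_Ntau g.2
  have hgM := mem_M23_iff.1 hg.2
  have h1 : g.1 * tau * g.1⁻¹ ∈ Subgroup.zpowers tau := (mem_norm_zpowers tau g.1).1 hg.1
  obtain ⟨k, b, hk, hkb⟩ := affine_of_normalizes hgM.2 h1
  obtain ⟨r, hr, hkr⟩ := sq_of_aff_mem hgM.1 hgM.2 hk hkb
  refine ⟨(k, b), ?_, hkb⟩
  unfold affPairs
  rw [Finset.mem_filter]
  exact ⟨Finset.mem_univ _, r, hr, hkr⟩

theorem card_F_le : Nat.card ↥F ≤ 253 := by
  classical
  let f : ↥F → {x // x ∈ affPairs} := fun g =>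
    ⟨Classical.choose (exists_pair g), (Classical.choose_spec (exists_pair g)).1⟩
  have hf : Function.Injective f := by
    intro g g' h
    have h1 := (Classical.choose_spec (exists_pair g)).2
    have h2 := (Classical.choose_spec (exists_pair g')).2
    have h3 : Classical.choose (exists_pair g) = Classical.choose (exists_pair g') :=
      congrArg Subtype.val h
    rw [h3] at h1
    apply Subtype.ext
    ext p : 1
    cases p with
    | none =>
      rw [(mem_M23_iff.1 (F_le_M23 g.2)).2, (mem_M23_iff.1 (F_le_M23 g'.2)).2]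
    | some t => rw [h1 t, h2 t]
  have h1 := Nat.card_le_card_of_injective f hf
  have h2 : Nat.card {x // x ∈ affPairs} = 253 := by
    rw [Nat.card_eq_fintype_card, Fintype.card_coe, card_affPairs]
  rwa [h2] at h1

theorem card_F : Nat.card ↥F = 253 := by
  apply le_antisymm card_F_le
  have h23 : 23 ∣ Nat.card ↥F := by
    have h1 := Subgroup.orderOf_dvd_natCard F tau_mem_F
    rwa [orderOf_shift] at h1
  have h11 : 11 ∣ Nat.card ↥F := by
    have h1 := Subgroup.orderOf_dvd_natCard F q_mem_F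
    rwa [orderOf_q] at h1
  have h253 : 253 ∣ Nat.card ↥F :=
    Nat.Coprime.mul_dvd_of_dvd_of_dvd (by norm_num : Nat.Coprime 23 11) h23 h11
  exact Nat.le_of_dvd Nat.card_pos h253

end Cfsg.Agent.Lib.Helper94.L223
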