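import Mathlib
import Cfsg.Agent.Lib.Helper94.L223Aff

set_option autoImplicit false

/-!
# The normaliser in `M23` of the group `⟨t ↦ 2t⟩` of order 11 has order 55 (helper94)
-/

namespace Cfsg.Agent.Lib.Helper94.L223

open Cfsg Cfsg.Agent.Lib.Helper9 Cfsg.Agent.Lib.Helper89
open scoped Pointwise

/-- exponent `i` with `t = ± 2^i` -/
def dlI : List ℕ := [0, 0, 1, 8, 2, 6, 9, 4, 3, 5, 7, 10, 10, 7, 5, 3, 4, 9, 6, 2, 8, 1, 0]

/-- `1` when `t = 2^i`, `0` when `t = -2^i` -/
def sgnL : List ℕ := [0, 1, 1, 1, 1, 0, 1, 0, 1, 1, 0, 0, 1, 1, 0, 0, 1, 0, 1, 0, 0, 0, 0]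

/-- the powers of `2` modulo 23 -/
def pw2 : List ℕ := [1, 2, 4, 8, 16, 9, 18, 13, 3, 6, 12]

/-- entry of the candidate table: `± 2^i ↦ 2^(j i) c` resp. `2^(j i) d` -/
def candF (j c d t : ℕ) : ℕ :=
  if t = 0 then 0
  else (pw2.getD ((j * dlI.getD t 0) % 11) 0 * (if sgnL.getD t 0 = 1 then c else d)) % 23

/-- the candidate table -/
def candT (j c d : ℕ) : List ℕ := (List.range 23).map (candF j c d) ++ [23]

/-- the candidate table with packed parameters -/
def candN (n : ℕ) : List ℕ := candT (n / 529) (n / 23 % 23) (n % 23)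

theorem candF_lt (j c d t : ℕ) : candF j c d t < 23 := by
  unfold candF
  by_cases ht : t = 0
  · rw [if_pos ht]; norm_num
  · rw [if_neg ht]; exact Nat.mod_lt _ (by norm_num)

theorem candT_getD_lt (j c d : ℕ) {i : ℕ} (hi : i < 23) :
    (candT j c d).getD i 0 = candF j c d i := by
  unfold candT
  rw [List.getD_eq_getElem _ _ (by simp; omega), List.getElem_append_left (by simpa using hi),
    List.getElem_map, List.getElem_range]

theorem candT_getD_last (j c d : ℕ) : (candT j c d).getD 23 0 = 23 := by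
  unfold candT
  rw [List.getD_eq_getElem _ _ (by simp), List.getElem_append_right (by simp)]
  simp

theorem candT_valid (j c d : ℕ) : tableValid (candT j c d) = true := by
  rw [tableValid_iff]
  refine ⟨by simp [candT], fun t ht => ?_⟩
  unfold candT at ht
  rw [List.mem_append, List.mem_map, List.mem_singleton] at ht
  rcases ht with ⟨a, -, rfl⟩ | rfl
  · exact lt_trans (candF_lt j c d a) (by norm_num)
  · norm_num

theorem two_pow_ne_one : ∀ j : Fin 11, (j : ℕ) ≠ 0 → (2 : ZMod 23) ^ (j : ℕ) ≠ 1 := by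
  decide +kernel

theorem pw2_cast : ∀ e : Fin 11, ((pw2.getD (e : ℕ) 0 : ℕ) : ZMod 23) = 2 ^ (e : ℕ) := by
  decide +kernel

theorem dlog_spec : ∀ t : ZMod 23, t ≠ 0 → ∃ i : Fin 11,
    (t = 2 ^ (i : ℕ) ∧ dlI.getD t.val 0 = i ∧ sgnL.getD t.val 0 = 1) ∨
    (t = -2 ^ (i : ℕ) ∧ dlI.getD t.val 0 = i ∧ sgnL.getD t.val 0 = 0) := by
  decide +kernel

theorem two_pow_eleven : (2 : ZMod 23) ^ 11 = 1 := by decide +kernel

theorem pw2_mul_cast (j i x : ℕ) :
    (((pw2.getD ((j * i) % 11) 0 * x) % 23 : ℕ) : ZMod 23) = 2 ^ (j * i) * (x : ZMod 23) := by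
  rw [ZMod.natCast_mod, Nat.cast_mul]
  have h1 := pw2_cast ⟨(j * i) % 11, Nat.mod_lt _ (by norm_num)⟩
  simp only at h1
  rw [h1, ← pow_eq_pow_mod _ two_pow_eleven]

theorem pt_cast {n : ℕ} (h : n < 23) : pt n = some (n : ZMod 23) := by
  unfold pt
  rw [if_pos h]

/-- the normaliser of `⟨q⟩` in `M23` -/
def N11 : Subgroup Pm := Subgroup.normalizer (Subgroup.zpowers q : Set Pm) ⊓ Spor.M23

theorem q_ne_one : q ≠ 1 := by
  intro h
  have h1 := orderOf_q
  rw [h, orderOf_one] at h1
  norm_num at h1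

/-- the table of an element of `N11` is a candidate table -/
theorem exists_cand {g : Pm} (h0 : g none = none) (hn : g * q * g⁻¹ ∈ Subgroup.zpowers q) :
    ∃ n : ℕ, n < 5819 ∧ HasTable g (candN n) := by
  obtain ⟨j0, hj0⟩ := exists_pow_of_mem_zpowers hn
  have hjlt : j0 % 11 < 11 := Nat.mod_lt _ (by norm_num)
  have hj : q ^ (j0 % 11) = g * q * g⁻¹ := by
    rw [← hj0, ← orderOf_q, pow_mod_orderOf]
  have hjne : j0 % 11 ≠ 0 := by
    intro h
    rw [h, pow_zero] at hj
    apply q_ne_one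
    have h1 : q = g⁻¹ * (g * q * g⁻¹) * g := by group
    rw [h1, ← hj]
    group
  have hgq : ∀ p, g (q p) = (q ^ (j0 % 11)) (g p) := by
    intro p
    have h1 : g * q = q ^ (j0 % 11) * g := by rw [hj]; group
    exact congrArg (fun f : Pm => f p) h1
  have hpow : ∀ (i : ℕ) (x y : ZMod 23), g (some x) = some y →
      g (some (2 ^ i * x)) = some (2 ^ (j0 % 11 * i) * y) := by
    intro i x y hxy
    induction i with
    | zero => simpa using hxy
    | succ i ih =>
      have h1 : (some (2 ^ (i + 1) * x) : GolayPt) = q (some (2 ^ i * x)) := by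
        rw [q_some]; congr 1; ring
      rw [h1, hgq, ih, q_pow_some]
      congr 1
      ring
  obtain ⟨s, hs⟩ := some_of_fix h0 0
  have hs0 : s = 0 := by
    have h1 := hgq (some 0)
    rw [q_some, mul_zero, hs, q_pow_some] at h1
    have h2 : s = 2 ^ (j0 % 11) * s := Option.some.inj h1
    have h3 : ((2 : ZMod 23) ^ (j0 % 11) - 1) * s = 0 := by rw [sub_mul, one_mul, ← h2, sub_self]
    rcases mul_eq_zero.1 h3 with h4 | h4
    · exact absurd (sub_eq_zero.1 h4) (two_pow_ne_one ⟨j0 % 11, hjlt⟩ hjne)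
    · exact h4
  obtain ⟨c, hc⟩ := some_of_fix h0 1
  obtain ⟨d, hd⟩ := some_of_fix h0 (-1)
  have hT : HasTable g (candT (j0 % 11) c.val d.val) := by
    refine ⟨candT_valid _ _ _, fun p => ?_⟩
    cases p with
    | none =>
      show g none = pt ((candT (j0 % 11) c.val d.val).getD 23 0)
      rw [candT_getD_last, h0]
      rfl
    | some t =>
      show g (some t) = pt ((candT (j0 % 11) c.val d.val).getD t.val 0)
      rw [candT_getD_lt _ _ _ (ZMod.val_lt t), pt_cast (candF_lt _ _ _ _)]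
      by_cases ht : t = 0
      · rw [ht, hs, hs0]
        rfl
      · have hv : t.val ≠ 0 := by
          intro h
          exact ht ((ZMod.val_eq_zero t).1 h)
        obtain ⟨i, hi | hi⟩ := dlog_spec t ht
        · obtain ⟨h1, h2, h3⟩ := hi
          unfold candF
          rw [if_neg hv, h2, h3, if_pos rfl, pw2_mul_cast, ZMod.natCast_zmod_val]
          have h4 := hpow i 1 c hc
          rw [mul_one] at h4
          rw [h1, h4]
        · obtain ⟨h1, h2, h3⟩ := hi
          unfold candF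
          rw [if_neg hv, h2, h3, if_neg (by norm_num), pw2_mul_cast, ZMod.natCast_zmod_val]
          have h4 := hpow i (-1) d hd
          rw [mul_neg, mul_one] at h4
          rw [h1, h4]
  have hc23 := ZMod.val_lt c
  have hd23 := ZMod.val_lt d
  refine ⟨j0 % 11 * 529 + c.val * 23 + d.val, by omega, ?_⟩
  have e1 : (j0 % 11 * 529 + c.val * 23 + d.val) / 529 = j0 % 11 := by omega
  have e2 : (j0 % 11 * 529 + c.val * 23 + d.val) / 23 % 23 = c.val := by omega
  have e3 : (j0 % 11 * 529 + c.val * 23 + d.val) % 23 = d.val := by omega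
  unfold candN
  rw [e1, e2, e3]
  exact hT

end Cfsg.Agent.Lib.Helper94.L223
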