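import Mathlib
import Cfsg.Agent.Lib.Helper94.L223N11

set_option autoImplicit false

/-!
# Exactly 55 candidate tables preserve the code (helper94)
-/

namespace Cfsg.Agent.Lib.Helper94.L223

open Cfsg Cfsg.Agent.Lib.Helper9 Cfsg.Agent.Lib.Helper89

/-- the candidate tables that preserve the code -/
def validS : Finset ℕ := (Finset.range 5819).filter (fun n => tableOK (candN n) = true)

set_option maxRecDepth 100000 in
theorem card_validS : validS.card = 55 := by decide +kernel

end Cfsg.Agent.Lib.Helper94.L223
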