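import Mathlib
import Cfsg.Agent.Lib.Helper94.L223Count

set_option autoImplicit false

/-!
# `23:11` is maximal in `M23` (helper94)

Sylow counting: a group `X` between `F = 23:11` and `M23` has `|X| = 253 m` with `m ≡ 1 (23)`
Sylow 23-subgroups, and `23 m / e ≡ 1 (11)` Sylow 11-subgroups with `e ∈ {1, 5}`.
-/

namespace Cfsg.Agent.Lib.Helper94.L223

open Cfsg Cfsg.Agent.Lib.Helper9 Cfsg.Agent.Lib.Helper89
open scoped Pointwise

instance fact11 : Fact (Nat.Prime 11) := ⟨by norm_num⟩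

/-! ### The normaliser of `⟨q⟩` -/

theorem exists_valid (g : ↥N11) : ∃ n : ℕ, n ∈ validS ∧ HasTable g.1 (candN n) := by
  obtain ⟨hgn, hgM⟩ := Subgroup.mem_inf.1 g.2
  rw [mem_M23_iff] at hgM
  obtain ⟨n, hn, hT⟩ := exists_cand hgM.2 ((mem_norm_zpowers q g.1).1 hgn)
  refine ⟨n, ?_, hT⟩
  unfold validS
  rw [Finset.mem_filter, Finset.mem_range]
  exact ⟨hn, tableOK_of_mem_M24 (candN n) hT.1 hT.2 hgM.1⟩

theorem card_N11_le : Nat.card ↥N11 ≤ 55 := by
  classical
  let f : ↥N11 → {x // x ∈ validS} := fun g =>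
    ⟨Classical.choose (exists_valid g), (Classical.choose_spec (exists_valid g)).1⟩
  have hf : Function.Injective f := by
    intro g g' h
    have h1 := (Classical.choose_spec (exists_valid g)).2
    have h2 := (Classical.choose_spec (exists_valid g')).2
    have h3 : Classical.choose (exists_valid g) = Classical.choose (exists_valid g') :=
      congrArg Subtype.val h
    rw [h3] at h1
    exact Subtype.ext (h1.eq_of_eq h2)
  have h1 := Nat.card_le_card_of_injective f hf
  have h2 : Nat.card {x // x ∈ validS} = 55 := by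
    rw [Nat.card_eq_fintype_card, Fintype.card_coe, card_validS]
  rwa [h2] at h1

theorem q_mem_N11 : q ∈ N11 :=
  ⟨Subgroup.le_normalizer (Subgroup.mem_zpowers q), mem_M23_iff.2 ⟨q_mem, rfl⟩⟩

theorem cubeTwist_mul_q : cubeTwist * q = q ^ 3 * cubeTwist := by
  have h1 := hasTable_mul hasTable_cubeTwist hasTable_q
  have h2 := hasTable_mul (hasTable_pow hasTable_q 3) hasTable_cubeTwist
  have h3 : compT (powT qT 3) cubeTwistT = compT cubeTwistT qT := by decide +kernel
  rw [h3] at h2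
  exact h1.eq_of_eq h2

theorem cubeTwist_none : cubeTwist none = none := by
  rw [hasTable_cubeTwist.2 none]
  decide

theorem cubeTwist_mem_N11 : cubeTwist ∈ N11 := by
  have h1 : cubeTwist * q * cubeTwist⁻¹ = q ^ 3 := by rw [cubeTwist_mul_q]; group
  have h2 : cubeTwist ∈ Subgroup.normalizer (Subgroup.zpowers q : Set Pm) := by
    rw [mem_norm_zpowers, h1]
    exact Subgroup.pow_mem _ (Subgroup.mem_zpowers q) _
  exact Subgroup.mem_inf.2 ⟨h2, mem_M23_iff.2 ⟨cubeTwist_mem, cubeTwist_none⟩⟩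

theorem orderOf_cubeTwist : orderOf cubeTwist = 5 := by
  have : Fact (Nat.Prime 5) := ⟨by norm_num⟩
  exact orderOf_eq_of_table hasTable_cubeTwist (by decide +kernel) (by decide)

theorem card_N11 : Nat.card ↥N11 = 55 := by
  apply le_antisymm card_N11_le
  have h11 : 11 ∣ Nat.card ↥N11 := by
    have h1 := Subgroup.orderOf_dvd_natCard N11 q_mem_N11
    rwa [orderOf_q] at h1
  have h5 : 5 ∣ Nat.card ↥N11 := by
    have h1 := Subgroup.orderOf_dvd_natCard N11 cubeTwist_mem_N11
    rwa [orderOf_cubeTwist] at h1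
  have h55 : 55 ∣ Nat.card ↥N11 :=
    Nat.Coprime.mul_dvd_of_dvd_of_dvd (by norm_num : Nat.Coprime 5 11) h5 h11
  exact Nat.le_of_dvd Nat.card_pos h55

/-! ### Sylow counting -/

theorem sylow_index_modEq {G : Type*} [Group G] [Finite G] (p : ℕ) [Fact p.Prime]
    (C : Subgroup G) (hC : Nat.card C = p) (hp : ¬ p ^ 2 ∣ Nat.card G) :
    (Subgroup.normalizer (C : Set G)).index ≡ 1 [MOD p] := by
  have hdvd : p ∣ Nat.card G := hC ▸ Subgroup.card_subgroup_dvd_card C
  have hpos : Nat.card G ≠ 0 := Nat.card_pos.ne'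
  have hfac : (Nat.card G).factorization p = 1 := by
    have h1 : 1 ≤ (Nat.card G).factorization p :=
      (Nat.Prime.dvd_iff_one_le_factorization Fact.out hpos).1 hdvd
    have h2 : ¬ 2 ≤ (Nat.card G).factorization p :=
      fun h => hp ((Nat.Prime.pow_dvd_iff_le_factorization Fact.out hpos).2 h)
    omega
  have h1 := Sylow.card_eq_index_normalizer (Sylow.ofCard C (by rw [hC, hfac, pow_one]))
  have h2 := card_sylow_modEq_one p G
  rw [h1] at h2
  exact h2

theorem card_subgroupOf_eq {G : Type*} [Group G] (H K : Subgroup G) :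
    Nat.card ↥(H.subgroupOf K) = Nat.card ↥(H ⊓ K) := by
  rw [← Subgroup.inf_subgroupOf_right]
  exact Nat.card_congr (Subgroup.subgroupOfEquivOfLe inf_le_right).toEquiv

/-- index of the normaliser, inside a subgroup `X`, of a subgroup `C ≤ X` of prime order -/
theorem sylow_count {G : Type*} [Group G] [Finite G] (p : ℕ) [Fact p.Prime]
    (C X : Subgroup G) (hCX : C ≤ X) (hC : Nat.card C = p) (hp : ¬ p ^ 2 ∣ Nat.card X) :
    ∃ i : ℕ, Nat.card ↥(Subgroup.normalizer (C : Set G) ⊓ X) * i = Nat.card X ∧ i % p = 1 := by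
  have hC' : Nat.card ↥(C.subgroupOf X) = p := by
    rw [← hC]
    exact Nat.card_congr (Subgroup.subgroupOfEquivOfLe hCX).toEquiv
  have h1 := sylow_index_modEq p (C.subgroupOf X) hC' hp
  have h2 := Subgroup.card_mul_index (Subgroup.normalizer (C.subgroupOf X : Set ↥X))
  rw [← Subgroup.subgroupOf_normalizer_eq hCX, card_subgroupOf_eq] at h2
  refine ⟨_, h2, ?_⟩
  rw [← Subgroup.subgroupOf_normalizer_eq hCX] at h1
  have hp1 : 1 < p := (Fact.out : p.Prime).one_lt
  have h3 : ((Subgroup.normalizer (C : Set G)).subgroupOf X).index % p = 1 % p := h1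
  rwa [Nat.mod_eq_of_lt hp1] at h3

theorem arith_aux : ∀ k < 1754, 40320 % (23 * k + 1) = 0 →
    ((23 * (23 * k + 1)) % 11 = 1 ∨
      ((23 * (23 * k + 1)) % 5 = 0 ∧ (23 * (23 * k + 1) / 5) % 11 = 1)) →
    k = 0 ∨ k = 1753 := by
  decide +kernel

theorem arith (n m c i : ℕ) (h1 : n ∣ 10200960) (h2 : 253 * m = n) (h3 : m % 23 = 1)
    (h4 : c ∣ 55) (h5 : 11 ∣ c) (h6 : c * i = n) (h7 : i % 11 = 1) :
    n = 253 ∨ n = 10200960 := by
  have hm : m ∣ 40320 := by
    rw [← h2] at h1
    exact Nat.dvd_of_mul_dvd_mul_left (by norm_num : 0 < 253) (by simpa using h1)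
  have hm_le : m ≤ 40320 := Nat.le_of_dvd (by norm_num) hm
  have hm_mod : 40320 % m = 0 := Nat.mod_eq_zero_of_dvd hm
  have hc_le : c ≤ 55 := Nat.le_of_dvd (by norm_num) h4
  have hc : c = 11 ∨ c = 55 := by
    interval_cases c <;> omega
  have hk : m = 23 * (m / 23) + 1 := by omega
  have hk_lt : m / 23 < 1754 := by omega
  have key := arith_aux (m / 23) hk_lt (by rw [← hk]; exact hm_mod)
  rw [← hk] at key
  have h8 : m / 23 = 0 ∨ m / 23 = 1753 := by
    apply key
    rcases hc with rfl | rfl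
    · left; omega
    · right; omega
  rcases h8 with h8 | h8
  · left; omega
  · right; omega

/-- `23:11` is maximal in `M23`: an intermediate group has order 253 or `|M23|` -/
theorem card_between {X : Subgroup Pm} (hF : F ≤ X) (hX : X ≤ Spor.M23) :
    Nat.card ↥X = 253 ∨ Nat.card ↥X = 10200960 := by
  have hdvd : Nat.card ↥X ∣ 10200960 := by
    have h1 := Subgroup.card_dvd_of_le hX
    rwa [card_SporM23] at h1
  -- Sylow 23
  have h23 : ¬ 23 ^ 2 ∣ Nat.card ↥X := fun h => absurd (h.trans hdvd) (by norm_num)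
  have hC23 : Nat.card ↥(Subgroup.zpowers tau) = 23 := by
    rw [Nat.card_zpowers, orderOf_shift]
  obtain ⟨i, hi1, hi2⟩ := sylow_count 23 (Subgroup.zpowers tau) X
    ((Subgroup.zpowers_le.2 tau_mem_F).trans hF) hC23 h23
  have hN : Subgroup.normalizer (Subgroup.zpowers tau : Set Pm) ⊓ X = F := by
    apply le_antisymm
    · intro g hg
      obtain ⟨hg1, hg2⟩ := Subgroup.mem_inf.1 hg
      exact Ntau_le_F (Subgroup.mem_inf.2 ⟨hg1, hX hg2⟩)
    · exact le_inf (fun g hg => (F_le_Ntau hg).1) hF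
  rw [hN, card_F] at hi1
  -- Sylow 11
  have h11 : ¬ 11 ^ 2 ∣ Nat.card ↥X := fun h => absurd (h.trans hdvd) (by norm_num)
  have hC11 : Nat.card ↥(Subgroup.zpowers q) = 11 := by
    rw [Nat.card_zpowers, orderOf_q]
  have hqX : Subgroup.zpowers q ≤ X := (Subgroup.zpowers_le.2 q_mem_F).trans hF
  obtain ⟨j, hj1, hj2⟩ := sylow_count 11 (Subgroup.zpowers q) X hqX hC11 h11
  have hc1 : Nat.card ↥(Subgroup.normalizer (Subgroup.zpowers q : Set Pm) ⊓ X) ∣ 55 := by
    have h1 : Subgroup.normalizer (Subgroup.zpowers q : Set Pm) ⊓ X ≤ N11 :=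
      inf_le_inf_left _ hX
    have h2 := Subgroup.card_dvd_of_le h1
    rwa [card_N11] at h2
  have hc2 : 11 ∣ Nat.card ↥(Subgroup.normalizer (Subgroup.zpowers q : Set Pm) ⊓ X) := by
    have h1 : Subgroup.zpowers q ≤ Subgroup.normalizer (Subgroup.zpowers q : Set Pm) ⊓ X :=
      le_inf Subgroup.le_normalizer hqX
    have h2 := Subgroup.card_dvd_of_le h1
    rwa [hC11] at h2
  exact arith _ i _ j hdvd hi1 hi2 hc1 hc2 hj1 hj2

end Cfsg.Agent.Lib.Helper94.L223
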