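import Mathlib
import Cfsg.Agent.Lib.Helper94.L223Max

set_option autoImplicit false

/-!
# `PSL(2,23)` inside `M24` (helper94)

`L = ⟨t ↦ t + 1, t ↦ -1/t, t ↦ u t (u a square)⟩` preserves a relation on triples of points which
the cube twist does not preserve; with the maximality of `23:11` in `M23` this gives
`|L| = 6072` and the maximality of `L` in `M24`.
-/

namespace Cfsg.Agent.Lib.Helper94.L223

open Cfsg Cfsg.Agent.Lib.Helper9 Cfsg.Agent.Lib.Helper89
open scoped Pointwise

/-- the generators of `PSL(2,23)` -/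
def S1 : Set Pm := {tau, projInv} ∪
  {g : Pm | ∃ u : (ZMod 23)ˣ, IsSquare u ∧ g = Equiv.optionCongr (Units.mulLeft u)}

/-- the group `PSL(2,23)` -/
def L : Subgroup Pm := Subgroup.closure S1

/-- the determinant of two points of the projective line, on indices -/
def dtN (a b : ℕ) : ℕ :=
  if a = 23 then (if b = 23 then 0 else 1) else if b = 23 then 22 else (a + 23 - b) % 23

/-- the quadratic character of the product of the three determinants of a triple -/
def kap (a b c : ℕ) : ℕ := (dtN a b * dtN b c * dtN c a) ^ 11 % 23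

/-- the table preserves `kap` -/
def tabInv (T : List ℕ) : Prop :=
  ∀ a < 24, ∀ b < 24, ∀ c < 24, kap (T.getD a 0) (T.getD b 0) (T.getD c 0) = kap a b c

instance (T : List ℕ) : Decidable (tabInv T) := by unfold tabInv; infer_instance

/-- the permutation preserves `kap` -/
def Inv (g : Pm) : Prop :=
  ∀ a b c : GolayPt, kap (idx (g a)) (idx (g b)) (idx (g c)) = kap (idx a) (idx b) (idx c)

theorem tabInv_shift : tabInv shiftT := by decide +kernel

theorem tabInv_projInv : tabInv projInvT := by decide +kernel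

theorem tabInv_q : tabInv qT := by decide +kernel

theorem idx_apply {g : Pm} {T : List ℕ} (h : HasTable g T) (a : GolayPt) :
    idx (g a) = T.getD (idx a) 0 := by
  rw [h.2 a, idx_pt (h.getD_lt _)]

theorem inv_of_table {g : Pm} {T : List ℕ} (h : HasTable g T) (hT : tabInv T) : Inv g := by
  intro a b c
  rw [idx_apply h, idx_apply h, idx_apply h]
  exact hT _ (idx_lt a) _ (idx_lt b) _ (idx_lt c)

theorem Inv.mul {g h : Pm} (hg : Inv g) (hh : Inv h) : Inv (g * h) := by
  intro a b c
  rw [Equiv.Perm.mul_apply, Equiv.Perm.mul_apply, Equiv.Perm.mul_apply, hg, hh]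

theorem Inv.one : Inv 1 := fun _ _ _ => rfl

theorem Inv.inv {g : Pm} (hg : Inv g) : Inv g⁻¹ := by
  intro a b c
  have h := hg (g⁻¹ a) (g⁻¹ b) (g⁻¹ c)
  have e : ∀ x, g (g⁻¹ x) = x := fun x => g.apply_symm_apply x
  rw [e, e, e] at h
  exact h.symm

theorem Inv.pow {g : Pm} (hg : Inv g) (n : ℕ) : Inv (g ^ n) := by
  induction n with
  | zero => rw [pow_zero]; exact Inv.one
  | succ n ih => rw [pow_succ]; exact ih.mul hg

theorem inv_of_mem_L : ∀ g ∈ L, Inv g := by
  intro g hg
  unfold L at hg
  induction hg using Subgroup.closure_induction with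
  | mem x hx =>
    rcases hx with hx | ⟨u, hu, rfl⟩
    · rcases hx with rfl | hx
      · exact inv_of_table hasTable_shift tabInv_shift
      · rw [Set.mem_singleton_iff] at hx
        rw [hx]
        exact inv_of_table hasTable_projInv tabInv_projInv
    · obtain ⟨i, hi⟩ := mu_eq_of_isSquare hu
      have h1 : Equiv.optionCongr (Units.mulLeft u) = q ^ i := hi
      rw [h1]
      exact (inv_of_table hasTable_q tabInv_q).pow i
  | one => exact Inv.one
  | mul x y _ _ hx hy => exact hx.mul hy
  | inv x _ hx => exact hx.inv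

theorem not_inv_cubeTwist : ¬ Inv cubeTwist := by
  intro h
  have h1 := h (pt 0) (pt 1) (pt 2)
  rw [idx_apply hasTable_cubeTwist, idx_apply hasTable_cubeTwist,
    idx_apply hasTable_cubeTwist] at h1
  revert h1
  decide

/-! ### Orders -/

theorem S2_sub_S1 : S2 ⊆ S1 := by
  rintro g (hg | hg)
  · rw [Set.mem_singleton_iff] at hg
    exact Or.inl (Or.inl hg)
  · exact Or.inr hg

theorem F_le_L : F ≤ L := Subgroup.closure_mono S2_sub_S1

theorem tau_mem_L : tau ∈ L := F_le_L tau_mem_F

theorem projInv_mem_L : projInv ∈ L := Subgroup.subset_closure (Or.inl (Or.inr rfl))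

theorem L_le_M24 : L ≤ M24 := by
  apply (Subgroup.closure_le _).mpr
  rintro g (hg | ⟨u, hu, rfl⟩)
  · rcases hg with rfl | hg
    · exact shift_mem
    · rw [Set.mem_singleton_iff] at hg
      rw [hg]
      exact projInv_mem
  · exact mu_mem_M24 hu

theorem orbit_eq_univ {K : Subgroup Pm} (hL : L ≤ K) :
    MulAction.orbit K (none : GolayPt) = Set.univ := by
  ext p
  simp only [Set.mem_univ, iff_true]
  cases p with
  | none => exact MulAction.mem_orbit_self _
  | some t =>
    refine ⟨⟨tau ^ t.val * projInv,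
      hL (Subgroup.mul_mem _ (Subgroup.pow_mem _ tau_mem_L _) projInv_mem_L)⟩, ?_⟩
    show (tau ^ t.val * projInv) none = some t
    rw [Equiv.Perm.mul_apply]
    have h1 : projInv none = some 0 := rfl
    rw [h1, tau_pow_some, ZMod.natCast_zmod_val, zero_add]

theorem card_eq_mul_stab {K : Subgroup Pm} (hL : L ≤ K) :
    Nat.card ↥K = 24 * Nat.card ↥(K ⊓ MulAction.stabilizer Pm (none : GolayPt)) := by
  have h1 := card_eq_orbit_mul_stab' (G := Pm) K (none : GolayPt)
  rwa [orbit_eq_univ hL, Set.ncard_univ, card_golayPt] at h1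

theorem card_over {K : Subgroup Pm} (hL : L ≤ K) (hK : K ≤ M24) :
    Nat.card ↥K = 6072 ∨ Nat.card ↥K = 244823040 := by
  have h1 := card_eq_mul_stab hL
  have hF : F ≤ K ⊓ MulAction.stabilizer Pm (none : GolayPt) :=
    le_inf (F_le_L.trans hL) (fun g hg => (Subgroup.mem_inf.1 (F_le_M23 hg)).2)
  have hX : K ⊓ MulAction.stabilizer Pm (none : GolayPt) ≤ Spor.M23 :=
    inf_le_inf_right _ hK
  rcases card_between hF hX with h | h
  · left; rw [h1, h]
  · right; rw [h1, h]

theorem card_L : Nat.card ↥L = 6072 := by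
  have h1 := card_eq_mul_stab (le_refl L)
  have hF : F ≤ L ⊓ MulAction.stabilizer Pm (none : GolayPt) :=
    le_inf F_le_L (fun g hg => (Subgroup.mem_inf.1 (F_le_M23 hg)).2)
  have hX : L ⊓ MulAction.stabilizer Pm (none : GolayPt) ≤ Spor.M23 :=
    inf_le_inf_right _ L_le_M24
  rcases card_between hF hX with h | h
  · rw [h1, h]
  · exfalso
    have h2 : L ⊓ MulAction.stabilizer Pm (none : GolayPt) = Spor.M23 :=
      Subgroup.eq_of_le_of_card_ge hX (by rw [h, card_SporM23])
    have h3 : cubeTwist ∈ L ⊓ MulAction.stabilizer Pm (none : GolayPt) := by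
      rw [h2]
      exact mem_M23_iff.2 ⟨cubeTwist_mem, cubeTwist_none⟩
    exact not_inv_cubeTwist (inv_of_mem_L _ (Subgroup.mem_inf.1 h3).1)

/-- `L` is maximal in `M24` -/
theorem eq_of_over {K : Subgroup Pm} (hL : L ≤ K) (hK : K ≤ M24) : K = L ∨ K = M24 := by
  rcases card_over hL hK with h | h
  · left
    exact (Subgroup.eq_of_le_of_card_ge hL (by rw [h, card_L])).symm
  · right
    exact Subgroup.eq_of_le_of_card_ge hK (by rw [h, card_M24])

/-- `F` is maximal in `M23` -/
theorem eq_of_between {X : Subgroup Pm} (hF : F ≤ X) (hX : X ≤ Spor.M23) :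
    X = F ∨ X = Spor.M23 := by
  rcases card_between hF hX with h | h
  · left
    exact (Subgroup.eq_of_le_of_card_ge hF (by rw [h, card_F])).symm
  · right
    exact Subgroup.eq_of_le_of_card_ge hX (by rw [h, card_SporM23])

/-- coatoms of an interval of the subgroup lattice -/
theorem coatom_subgroupOf {G : Type*} [Group G] {A B : Subgroup G} (hAB : A ≤ B) (hne : A ≠ B)
    (h : ∀ K : Subgroup G, A ≤ K → K ≤ B → K = A ∨ K = B) : IsCoatom (A.subgroupOf B) := by
  constructor
  · intro h1
    rw [Subgroup.subgroupOf_eq_top] at h1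
    exact hne (le_antisymm hAB h1)
  · intro K hK
    have h1 : A ≤ K.map B.subtype := by
      intro x hx
      exact ⟨⟨x, hAB hx⟩, hK.le (Subgroup.mem_subgroupOf.2 hx), rfl⟩
    have h2 : K.map B.subtype ≤ B := Subgroup.map_subtype_le K
    have h3 : K = (K.map B.subtype).subgroupOf B :=
      (Subgroup.comap_map_eq_self_of_injective (Subgroup.subtype_injective B) K).symm
    rcases h (K.map B.subtype) h1 h2 with h4 | h4
    · exfalso
      rw [h4] at h3
      exact hK.ne h3.symm
    · rw [h3, h4]
      exact Subgroup.subgroupOf_self B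

end Cfsg.Agent.Lib.Helper94.L223
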