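import Mathlib
import Cfsg.Prelude.Def_Sporadic_a
import Cfsg.Prelude.Def_Spor_Conway
import Cfsg.Agent.Lib.Helper10.Lambda3

/-!
# Orthogonal pairs of minimal vectors of the rank-24 lattice

If the automorphism group is transitive on the vectors of squared length 64, then every pair
`(v, w)` of orthogonal vectors of squared length 32 can be moved to the standard pair
`((4, 4, 0, …), (4, -4, 0, …))`: the sum `v + w` has squared length 64, and once it is moved to
`(8, 0, …)` the two summands are `4 e_∞ ± 4 e_j`.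

* `pair_std_of_trans64`: the normal form of an orthogonal pair;
* `stab_trans_of_trans64`: the stabiliser of `v` is transitive on the minimal vectors orthogonal
  to `v`.
-/

set_option autoImplicit false

namespace Cfsg.Agent.Lib.Helper94

open Cfsg Cfsg.Agent.Lib.Helper9 Cfsg.Agent.Lib.Helper10

/-- The hypothesis: all vectors of squared length 64 are in one orbit. -/
def Trans64 : Prop :=
  ∀ x y : GolayPt → ℤ, x ∈ leechLattice → y ∈ leechLattice → sqNorm x = 64 → sqNorm y = 64 →
    CoEq x y

/-- The vector `(8, 0, …, 0)`. -/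
def axis8 : GolayPt → ℤ := fun p => if p = none then 8 else 0

theorem axis8_eq : axis8 = ((axisVec none : leechLattice) : GolayPt → ℤ) := by
  funext i
  rw [axisVec_apply]
  rfl

theorem axis8_mem : axis8 ∈ leechLattice := by
  rw [axis8_eq]
  exact (axisVec none).2

theorem sqNorm_axis8 : sqNorm axis8 = 64 := by decide +kernel

/-- A minimal vector with a coordinate `4` at the extra point is `4 e_∞ ± 4 e_j`. -/
theorem shape_of_four {a : GolayPt → ℤ} (ha : a ∈ leechLattice) (hn : sqNorm a = 32)
    (h4 : a none = 4) :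
    ∃ j : GolayPt, j ≠ none ∧ (a j = 4 ∨ a j = -4) ∧ ∀ q, q ≠ none → q ≠ j → a q = 0 := by
  classical
  -- all coordinates are divisible by four
  have hmod : ∀ i, a i % 4 = 0 := by
    intro i
    obtain ⟨par, hpar, μ, hμ, hm, -⟩ :=
      (mem_leechSet_struct a).mp ((mem_leechLattice_iff a).mp ha)
    have hp0 : par = 0 := by
      have := hm none
      rw [h4] at this
      rcases bitZ_cases μ none with ⟨-, hz⟩ | ⟨-, hz⟩ <;> rw [hz] at this <;> omega
    subst hp0
    by_contra hne
    have h2 : a i % 4 = 2 := by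
      have := hm i
      rcases bitZ_cases μ i with ⟨-, hz⟩ | ⟨-, hz⟩ <;> rw [hz] at this <;> omega
    obtain ⟨S, hS, hiS, hcard, hin, hout, -⟩ := even_struct ha h2
    have hnS : (none : GolayPt) ∉ S := by
      intro h
      have := hin none h
      rw [h4] at this
      omega
    have hge : ∀ q ∈ S, 4 ≤ a q ^ 2 := by
      intro q hq
      have := hin q hq
      have h : a q ≤ -2 ∨ 2 ≤ a q := by omega
      rcases h with h | h <;> nlinarith
    have hcardS := Finset.card_nsmul_le_sum S (fun q => a q ^ 2) 4 hge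
    have hcardS' : (S.card : ℤ) * 4 ≤ ∑ q ∈ S, a q ^ 2 := by simpa [nsmul_eq_mul] using hcardS
    have hsub : insert none S ⊆ (Finset.univ : Finset GolayPt) := Finset.subset_univ _
    have hle : ∑ q ∈ insert none S, a q ^ 2 ≤ ∑ q, a q ^ 2 :=
      Finset.sum_le_sum_of_subset_of_nonneg hsub (fun q _ _ => sq_nonneg _)
    rw [Finset.sum_insert hnS, h4] at hle
    have hn' : ∑ q, a q ^ 2 = 32 := hn
    have h8 : (8 : ℤ) ≤ S.card := by exact_mod_cast hcard
    nlinarith
  -- the other coordinates
  have hsplit : a none ^ 2 + ∑ q ∈ (Finset.univ.erase (none : GolayPt)), a q ^ 2 = 32 :=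
    (Finset.add_sum_erase Finset.univ (fun q => a q ^ 2) (Finset.mem_univ (none : GolayPt))).trans hn
  rw [h4] at hsplit
  set F : Finset GolayPt := (Finset.univ.erase (none : GolayPt)).filter (fun i => a i ≠ 0) with hF
  have hmemF : ∀ i, i ∈ F ↔ i ≠ none ∧ a i ≠ 0 := fun i => by
    rw [hF, Finset.mem_filter, Finset.mem_erase]
    simp
  have hsum : ∑ i ∈ F, a i ^ 2 = 16 := by
    have h1 : ∑ i ∈ F, a i ^ 2 = ∑ q ∈ (Finset.univ.erase (none : GolayPt)), a q ^ 2 := by
      rw [hF]
      apply Finset.sum_filter_of_ne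
      intro i _ h
      exact fun h0 => h (by rw [h0]; norm_num)
    rw [h1]
    linarith
  have hge : ∀ i ∈ F, 16 ≤ a i ^ 2 := fun i hi => sq_ge_16 (hmod i) ((hmemF i).mp hi).2
  have hcard := Finset.card_nsmul_le_sum F (fun i => a i ^ 2) 16 hge
  rw [hsum] at hcard
  have hc1 : F.card ≤ 1 := by
    have : (F.card : ℤ) * 16 ≤ 16 := by simpa [nsmul_eq_mul] using hcard
    omega
  have hc0 : F.card ≠ 0 := by
    intro h0
    rw [Finset.card_eq_zero] at h0
    rw [h0, Finset.sum_empty] at hsum
    norm_num at hsum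
  have hc : F.card = 1 := by omega
  obtain ⟨j, hj⟩ := Finset.card_eq_one.mp hc
  have hjF : j ∈ F := by rw [hj]; exact Finset.mem_singleton_self j
  rw [hj, Finset.sum_singleton] at hsum
  refine ⟨j, ((hmemF j).mp hjF).1, ?_, ?_⟩
  · have h : (a j - 4) * (a j + 4) = 0 := by nlinarith
    rcases mul_eq_zero.mp h with h | h
    · left; omega
    · right; omega
  · intro q hq hqj
    by_contra h0
    have : q ∈ F := (hmemF q).mpr ⟨hq, h0⟩
    rw [hj, Finset.mem_singleton] at this
    exact hqj this

/-- Squared length of the difference from `(8, 0, …)`. -/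
theorem sqNorm_axis8_sub (a : GolayPt → ℤ) :
    sqNorm (axis8 - a) = 64 - 16 * a none + sqNorm a := by
  have h1 : sqNorm (axis8 - a) = ∑ q, ((if q = none then (64 - 16 * a none : ℤ) else 0) + a q ^ 2) := by
    unfold sqNorm
    apply Finset.sum_congr rfl
    intro q _
    simp only [Pi.sub_apply, axis8]
    by_cases hq : q = none
    · subst hq
      rw [if_pos rfl, if_pos rfl]
      ring
    · rw [if_neg hq, if_neg hq]
      ring
  rw [h1, Finset.sum_add_distrib, Finset.sum_ite_eq' Finset.univ none, if_pos (Finset.mem_univ _)]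
  rfl

/-- Two minimal vectors with sum `(8, 0, …)` are moved to the standard pair by a monomial map. -/
theorem monomial_std (A B : leechLattice)
    (hsum : (A : GolayPt → ℤ) + (B : GolayPt → ℤ) = axis8)
    (hna : sqNorm (A : GolayPt → ℤ) = 32) (hnb : sqNorm (B : GolayPt → ℤ) = 32) :
    ∃ m : Equiv.Perm leechLattice, m ∈ Co0 ∧ ((m A : leechLattice) : GolayPt → ℤ) = Spor.vecU ∧
      ((m B : leechLattice) : GolayPt → ℤ) = Spor.vecU' := by
  classical
  have hb : (B : GolayPt → ℤ) = axis8 - (A : GolayPt → ℤ) := eq_sub_of_add_eq' hsum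
  have h4 : (A : GolayPt → ℤ) none = 4 := by
    have h1 := sqNorm_axis8_sub (A : GolayPt → ℤ)
    rw [← hb, hnb, hna] at h1
    omega
  obtain ⟨j, hj, hAj, hzero⟩ := shape_of_four A.2 hna h4
  have hBn : (B : GolayPt → ℤ) none = 4 := by
    rw [hb]
    simp only [Pi.sub_apply, axis8, if_pos]
    rw [h4]
    norm_num
  have hBq : ∀ q, q ≠ none → (B : GolayPt → ℤ) q = -(A : GolayPt → ℤ) q := by
    intro q hq
    rw [hb]
    simp only [Pi.sub_apply, axis8, if_neg hq]
    ring
  obtain ⟨σ, hσ, hσ1, hσ2⟩ := m24_trans2 (Ne.symm hj) (show (none : GolayPt) ≠ some 0 by simp)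
  have hs1 : σ.symm none = none := by rw [Equiv.symm_apply_eq, hσ1]
  have hs2 : σ.symm (some 0) = j := by rw [Equiv.symm_apply_eq, hσ2]
  have hs3 : ∀ i, i ≠ none → i ≠ some 0 → σ.symm i ≠ none ∧ σ.symm i ≠ j := by
    intro i hi1 hi2
    constructor
    · intro h
      rw [Equiv.symm_apply_eq, hσ1] at h
      exact hi1 h
    · intro h
      rw [Equiv.symm_apply_eq, hσ2] at h
      exact hi2 h
  rcases hAj with hAj | hAj
  · refine ⟨permPerm σ hσ, permPerm_mem σ hσ, ?_, ?_⟩
    · funext i
      rw [permPerm_apply]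
      unfold Spor.vecU
      by_cases hi1 : i = none
      · subst hi1
        rw [hs1, h4, if_pos (Or.inl rfl)]
      · by_cases hi2 : i = some 0
        · subst hi2
          rw [hs2, hAj, if_pos (Or.inr rfl)]
        · rw [if_neg (by tauto)]
          exact hzero _ (hs3 i hi1 hi2).1 (hs3 i hi1 hi2).2
    · funext i
      rw [permPerm_apply]
      unfold Spor.vecU'
      by_cases hi1 : i = none
      · subst hi1
        rw [hs1, hBn, if_pos rfl]
      · by_cases hi2 : i = some 0
        · subst hi2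
          rw [hs2, hBq j hj, hAj, if_neg hi1, if_pos rfl]
        · rw [if_neg hi1, if_neg hi2, hBq _ (hs3 i hi1 hi2).1,
            hzero _ (hs3 i hi1 hi2).1 (hs3 i hi1 hi2).2]
          rfl
  · obtain ⟨c, hc, hc1, hc2⟩ :=
      exists_sign_two (show (none : GolayPt) ≠ some 0 by simp) False True
    have hn1 : (none : GolayPt) ∉ c := fun h => hc1.mp h
    have hn2 : (some 0 : GolayPt) ∈ c := hc2.mpr trivial
    refine ⟨signPerm c hc * permPerm σ hσ, Co0.mul_mem (signPerm_mem c hc) (permPerm_mem σ hσ),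
      ?_, ?_⟩
    · funext i
      rw [Equiv.Perm.mul_apply, signPerm_apply, signVec_apply]
      show (if i ∈ c then -((permPerm σ hσ A : leechLattice) : GolayPt → ℤ) i
        else ((permPerm σ hσ A : leechLattice) : GolayPt → ℤ) i) = Spor.vecU i
      rw [permPerm_apply]
      unfold Spor.vecU
      by_cases hi1 : i = none
      · subst hi1
        rw [if_neg hn1, hs1, h4, if_pos (Or.inl rfl)]
      · by_cases hi2 : i = some 0
        · subst hi2
          rw [if_pos hn2, hs2, hAj, if_pos (Or.inr rfl)]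
          norm_num
        · have e1 : (if i = none ∨ i = some 0 then (4 : ℤ) else 0) = 0 := if_neg (by tauto)
          rw [e1, hzero _ (hs3 i hi1 hi2).1 (hs3 i hi1 hi2).2]
          split_ifs <;> rfl
    · funext i
      rw [Equiv.Perm.mul_apply, signPerm_apply, signVec_apply]
      show (if i ∈ c then -((permPerm σ hσ B : leechLattice) : GolayPt → ℤ) i
        else ((permPerm σ hσ B : leechLattice) : GolayPt → ℤ) i) = Spor.vecU' i
      rw [permPerm_apply]
      unfold Spor.vecU'
      by_cases hi1 : i = none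
      · subst hi1
        rw [if_neg hn1, hs1, hBn, if_pos rfl]
      · by_cases hi2 : i = some 0
        · subst hi2
          rw [if_pos hn2, hs2, hBq j hj, hAj, if_neg hi1, if_pos rfl]
          norm_num
        · have e1 : (if i = none then (4 : ℤ) else if i = some 0 then -4 else 0) = 0 := by
            rw [if_neg hi1, if_neg hi2]
          rw [e1, hBq _ (hs3 i hi1 hi2).1, hzero _ (hs3 i hi1 hi2).1 (hs3 i hi1 hi2).2]
          split_ifs <;> rfl

/-- An orthogonal pair of minimal vectors is in the orbit of the standard pair. -/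
theorem pair_std_of_trans64 (h64 : Trans64) (v w : leechLattice)
    (hv : sqNorm (v : GolayPt → ℤ) = 32) (hw : sqNorm (w : GolayPt → ℤ) = 32)
    (hd : dotInt (v : GolayPt → ℤ) (w : GolayPt → ℤ) = 0) :
    ∃ g : Equiv.Perm leechLattice, g ∈ Co0 ∧ ((g v : leechLattice) : GolayPt → ℤ) = Spor.vecU ∧
      ((g w : leechLattice) : GolayPt → ℤ) = Spor.vecU' := by
  have hu : sqNorm (((v + w : leechLattice)) : GolayPt → ℤ) = 64 := by
    have h1 : ((v + w : leechLattice) : GolayPt → ℤ) = (v : GolayPt → ℤ) + (w : GolayPt → ℤ) := rfl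
    rw [h1, sqNorm_add, hv, hw, hd]
    norm_num
  obtain ⟨hx, g, hg, hgu⟩ := h64 _ axis8 (v + w).2 axis8_mem hu sqNorm_axis8
  have hgu' : ((g (v + w) : leechLattice) : GolayPt → ℤ) = axis8 := hgu
  rw [hg.1 v w] at hgu'
  have hsum : ((g v : leechLattice) : GolayPt → ℤ) + ((g w : leechLattice) : GolayPt → ℤ) = axis8 :=
    hgu'
  have hna : sqNorm ((g v : leechLattice) : GolayPt → ℤ) = 32 := by rw [hg.2 v, hv]
  have hnb : sqNorm ((g w : leechLattice) : GolayPt → ℤ) = 32 := by rw [hg.2 w, hw]
  obtain ⟨m, hm, hm1, hm2⟩ := monomial_std (g v) (g w) hsum hna hnb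
  exact ⟨m * g, Co0.mul_mem hm hg, hm1, hm2⟩

/-- Given transitivity on the vectors of squared length 64, the stabiliser of a minimal vector
`v` is transitive on the minimal vectors orthogonal to `v`. -/
theorem stab_trans_of_trans64 (h64 : Trans64) (v w w' : leechLattice)
    (hv : sqNorm (v : GolayPt → ℤ) = 32) (hw : sqNorm (w : GolayPt → ℤ) = 32)
    (hw' : sqNorm (w' : GolayPt → ℤ) = 32)
    (hd : dotInt (v : GolayPt → ℤ) (w : GolayPt → ℤ) = 0)
    (hd' : dotInt (v : GolayPt → ℤ) (w' : GolayPt → ℤ) = 0) :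
    ∃ g : Co0, g • v = v ∧ g • w = w' := by
  obtain ⟨g1, hg1, h1v, h1w⟩ := pair_std_of_trans64 h64 v w hv hw hd
  obtain ⟨g2, hg2, h2v, h2w⟩ := pair_std_of_trans64 h64 v w' hv hw' hd'
  have e1 : g1 v = g2 v := Subtype.ext (h1v.trans h2v.symm)
  have e2 : g1 w = g2 w' := Subtype.ext (h1w.trans h2w.symm)
  refine ⟨⟨g2⁻¹ * g1, Co0.mul_mem (Co0.inv_mem hg2) hg1⟩, ?_, ?_⟩
  · show (g2⁻¹ * g1) v = v
    rw [Equiv.Perm.mul_apply, e1]
    exact g2.symm_apply_apply v
  · show (g2⁻¹ * g1) w = w'
    rw [Equiv.Perm.mul_apply, e2]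
    exact g2.symm_apply_apply w'

end Cfsg.Agent.Lib.Helper94
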