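import Mathlib
import Cfsg.Prelude.Def_Sporadic_a
import Cfsg.Prelude.Def_SporadicCombinatorics
import Cfsg.Agent.Lib.Helper94.M24Classes
import Cfsg.Agent.Lib.Helper94.M24TrioData
import Cfsg.Agent.Lib.Helper95.Sextet
import Cfsg.Agent.Lib.Helper36.M24Fam

/-!
# Counting the octads, dodecads, sextets and trios fixed by an element of `M24`

* `ncard_fixed_conj`: the number of fixed members of an invariant family is a class function;
* `ncard_fixed_octads`, `ncard_fixed_dodecads`: fixed octads / dodecads of an element given by a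
  table, as a count over the 4096 code words;
* `ncard_fixed_sextets`: fixed sextets, as a count over the list `sxL` of helper95;
* `trioL_complete`, `ncard_trios_filter`, `ncard_fixed_trios`: the same for trios, with the
  explicit list `trioL`.
-/

set_option autoImplicit false

namespace Cfsg.Agent.Lib.Helper94

open Cfsg Cfsg.Agent.Lib.Helper9
open scoped Pointwise

/-- Conjugation invariance of the number of fixed members of an invariant family. -/
theorem ncard_fixed_conj {Ω : Type*} [MulAction (Equiv.Perm GolayPt) Ω] (F : Set Ω)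
    (k g : Equiv.Perm GolayPt) (hF : ∀ X, k • X ∈ F ↔ X ∈ F) :
    {X | X ∈ F ∧ (k * g * k⁻¹) • X = X}.ncard = {X | X ∈ F ∧ g • X = X}.ncard := by
  have e : {X | X ∈ F ∧ (k * g * k⁻¹) • X = X} =
      (fun X => k • X) '' {X | X ∈ F ∧ g • X = X} := by
    ext X
    constructor
    · rintro ⟨hX, hfix⟩
      refine ⟨k⁻¹ • X, ⟨?_, ?_⟩, smul_inv_smul k X⟩
      · rw [← hF, smul_inv_smul]
        exact hX
      · have h1 : k⁻¹ • ((k * g * k⁻¹) • X) = g • k⁻¹ • X := by
          rw [mul_smul, mul_smul, inv_smul_smul]
        rw [← h1, hfix]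
    · rintro ⟨Y, ⟨hY, hfix⟩, rfl⟩
      refine ⟨(hF Y).2 hY, ?_⟩
      show (k * g * k⁻¹) • k • Y = k • Y
      rw [mul_smul, mul_smul, inv_smul_smul, hfix]
  rw [e, Set.ncard_image_of_injective _ (MulAction.injective k)]

/-! ### Octads and dodecads -/

/-- Counting the code words of a given weight with a property. -/
theorem ncard_code_filter (F : Set (Finset GolayPt)) (n : ℕ)
    (hF : ∀ b, b ∈ F ↔ ∃ m, m ∈ sums gB ∧ popc m = n ∧ support₂ (dec m) = b)
    (Q : Finset GolayPt → Prop) (P : ℕ → Bool)
    (h : ∀ m ∈ sums gB, popc m = n → (Q (support₂ (dec m)) ↔ P m = true)) :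
    {b : Finset GolayPt | b ∈ F ∧ Q b}.ncard = cnt (fun m => popc m == n && P m) gB 0 := by
  have hset : {b : Finset GolayPt | b ∈ F ∧ Q b} =
      (fun m => support₂ (dec m)) '' {m | m ∈ sums gB ∧ (popc m == n && P m) = true} := by
    ext b
    constructor
    · rintro ⟨hb, hq⟩
      obtain ⟨m, hm, h8, rfl⟩ := (hF b).mp hb
      refine ⟨m, ⟨hm, ?_⟩, rfl⟩
      rw [Bool.and_eq_true, beq_iff_eq]
      exact ⟨h8, (h m hm h8).mp hq⟩
    · rintro ⟨m, ⟨hm, hp⟩, rfl⟩
      rw [Bool.and_eq_true, beq_iff_eq] at hp
      exact ⟨(hF _).mpr ⟨m, hm, hp.1, rfl⟩, (h m hm hp.1).mpr hp.2⟩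
  rw [hset, Set.InjOn.ncard_image]
  · have h2 : {m | m ∈ sums gB ∧ (popc m == n && P m) = true} =
        (((sums gB).filter (fun m => popc m == n && P m)).toFinset : Set ℕ) := by
      ext m
      simp
    rw [h2, Set.ncard_coe_finset, List.toFinset_card_of_nodup (nodup_sums_gB.filter _), cnt_eq,
      List.countP_eq_length_filter]
    simp
  · intro m hm m' hm' hmm
    exact dec_injOn (sums_gB_lt m hm.1) (sums_gB_lt m' hm'.1) (support₂_injective hmm)

/-- The number of octads fixed by an element with a table. -/
theorem ncard_fixed_octads {g : Equiv.Perm GolayPt} {X : List ℕ} (hX : HasTable g X) :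
    {o : Finset GolayPt | o ∈ octads ∧ g • o = o}.ncard =
      cnt (fun m => popc m == 8 && pull X m == m) gB 0 :=
  ncard_code_filter octads 8 mem_octads_iff _ _ (fun m hm _ => by
    rw [smul_eq_iff_pull hX (sums_gB_lt m hm), beq_iff_eq])

/-- The number of dodecads fixed by an element with a table. -/
theorem ncard_fixed_dodecads {g : Equiv.Perm GolayPt} {X : List ℕ} (hX : HasTable g X) :
    {d : Finset GolayPt | d ∈ dodecads ∧ g • d = d}.ncard =
      cnt (fun m => popc m == 12 && pull X m == m) gB 0 :=
  ncard_code_filter dodecads 12 mem_dodecads_iff _ _ (fun m hm _ => by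
    rw [smul_eq_iff_pull hX (sums_gB_lt m hm), beq_iff_eq])

theorem smul_mem_octads_iff' {k : Equiv.Perm GolayPt} (hk : k ∈ M24) (b : Finset GolayPt) :
    k • b ∈ octads ↔ b ∈ octads := by
  constructor
  · intro h
    have := smul_octad_mem (M24.inv_mem hk) h
    rwa [inv_smul_smul] at this
  · exact smul_octad_mem hk

theorem smul_mem_dodecads_iff' {k : Equiv.Perm GolayPt} (hk : k ∈ M24) (b : Finset GolayPt) :
    k • b ∈ dodecads ↔ b ∈ dodecads := by
  constructor
  · intro h
    have := Helper36.smul_dodecad_mem (M24.inv_mem hk) h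
    rwa [inv_smul_smul] at this
  · exact Helper36.smul_dodecad_mem hk

theorem smul_mem_sextets_iff' {k : Equiv.Perm GolayPt} (hk : k ∈ M24)
    (S : Finset (Finset GolayPt)) : k • S ∈ sextets ↔ S ∈ sextets := by
  constructor
  · intro h
    have := Helper36.smul_sextet_mem (M24.inv_mem hk) h
    rwa [inv_smul_smul] at this
  · exact Helper36.smul_sextet_mem hk

theorem smul_mem_trios_iff' {k : Equiv.Perm GolayPt} (hk : k ∈ M24)
    (T : Finset (Finset GolayPt)) : k • T ∈ trios ↔ T ∈ trios := by
  constructor
  · intro h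
    have := Helper36.smul_trio_mem (M24.inv_mem hk) h
    rwa [inv_smul_smul] at this
  · exact Helper36.smul_trio_mem hk

/-! ### Sextets -/

/-- The number of sextets fixed by an element with a table. -/
theorem ncard_fixed_sextets {g : Equiv.Perm GolayPt} (hg : g ∈ M24) {X : List ℕ}
    (hX : HasTable g X) :
    {S : Finset (Finset GolayPt) | S ∈ sextets ∧ g • S = S}.ncard =
      (Helper95.sxL.filter (fun L => L.contains (pull X (L.headD 0)))).length :=
  Helper95.ncard_sextets_filter _ _ (fun L hL => by
    have hok := Helper95.sxL_mem_ok hL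
    have hS := Helper95.sxSet_mem_sextets hok
    have hhead := Helper95.head_mem_sxSet hL
    have hpull : g⁻¹ • support₂ (dec (L.headD 0)) = support₂ (dec (pull X (L.headD 0))) := by
      rw [smul_support₂, inv_inv, dec_comp_of_table hX.1 hX.2]
    rw [List.contains_iff_mem]
    constructor
    · intro hfix
      have h1 : g⁻¹ • Helper95.sxSet L = Helper95.sxSet L := by
        rw [inv_smul_eq_iff, hfix]
      have h2 : g⁻¹ • support₂ (dec (L.headD 0)) ∈ g⁻¹ • Helper95.sxSet L :=
        Finset.smul_mem_smul_finset hhead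
      rw [h1, hpull, Helper95.mem_sxSet] at h2
      obtain ⟨m, hm, hmeq⟩ := h2
      have e : m = pull X (L.headD 0) :=
        Helper95.support₂_dec_injective (Helper95.sxOK_mem hok hm).1 (pull_lt24 hX _) hmeq
      rw [← e]
      exact hm
    · intro hmem
      have h2 : support₂ (dec (pull X (L.headD 0))) ∈ Helper95.sxSet L :=
        Helper95.mem_sxSet.mpr ⟨_, hmem, rfl⟩
      have h3 : support₂ (dec (pull X (L.headD 0))) ∈ g⁻¹ • Helper95.sxSet L := by
        rw [← hpull]
        exact Finset.smul_mem_smul_finset hhead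
      have h4 : g⁻¹ • Helper95.sxSet L = Helper95.sxSet L :=
        Helper95.sextet_eq_of_common (Helper95.smul_sextet_mem (M24.inv_mem hg) hS) hS h3 h2
      rw [inv_smul_eq_iff] at h4
      exact h4.symm)

/-! ### Trios -/

theorem trioL_ok : trioL.all (fun c => Helper36.trioValidB c && Helper36.trioCanon c) = true := by
  decide +kernel

theorem trioL_incr : Helper95.incr trioL = true := by decide +kernel

theorem trioL_length : trioL.length = 3795 := by decide +kernel

theorem trioL_nodup : trioL.Nodup :=
  (Helper95.incr_pairwise _ trioL_incr).imp (fun h => ne_of_lt h)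

theorem trioL_valid {c : ℕ} (hc : c ∈ trioL) : Helper36.trioValid c := by
  have h := List.all_eq_true.mp trioL_ok c hc
  rw [Bool.and_eq_true] at h
  exact Helper36.trioValid_of h.1

theorem trioL_canon {c : ℕ} (hc : c ∈ trioL) : Helper36.trioCanon c = true := by
  have h := List.all_eq_true.mp trioL_ok c hc
  rw [Bool.and_eq_true] at h
  exact h.2

theorem trioObj_injOn : Set.InjOn Helper36.trioObj (↑trioL.toFinset : Set ℕ) := by
  intro c hc d hd h
  rw [Finset.mem_coe, List.mem_toFinset] at hc hd
  exact Helper36.trioObj_inj (trioL_valid hc) (trioL_valid hd) (trioL_canon hc) (trioL_canon hd) h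

/-- Every trio is listed. -/
theorem trioL_complete : Helper36.trioObj '' (↑trioL.toFinset : Set ℕ) = trios := by
  apply Set.eq_of_subset_of_ncard_le
  · rintro T ⟨c, hc, rfl⟩
    rw [Finset.mem_coe, List.mem_toFinset] at hc
    exact Helper36.trioObj_mem (trioL_valid hc)
  · rw [Set.InjOn.ncard_image trioObj_injOn, Set.ncard_coe_finset,
      List.toFinset_card_of_nodup trioL_nodup, trioL_length]
    exact le_of_eq Cfsg.Agent.S1557.result.2
  · exact Set.toFinite _

/-- Counting trios with a property. -/
theorem ncard_trios_filter (P : Finset (Finset GolayPt) → Prop) (p : ℕ → Bool)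
    (h : ∀ c ∈ trioL, P (Helper36.trioObj c) ↔ p c = true) :
    {T | T ∈ trios ∧ P T}.ncard = (trioL.filter p).length := by
  classical
  have heq : {T | T ∈ trios ∧ P T} =
      Helper36.trioObj '' (((trioL.filter p).toFinset : Finset ℕ) : Set ℕ) := by
    ext T
    constructor
    · rintro ⟨hT, hP⟩
      rw [← trioL_complete] at hT
      obtain ⟨c, hc, rfl⟩ := hT
      rw [Finset.mem_coe, List.mem_toFinset] at hc
      refine ⟨c, ?_, rfl⟩
      rw [Finset.mem_coe, List.mem_toFinset, List.mem_filter]
      exact ⟨hc, (h c hc).mp hP⟩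
    · rintro ⟨c, hc, rfl⟩
      rw [Finset.mem_coe, List.mem_toFinset, List.mem_filter] at hc
      exact ⟨Helper36.trioObj_mem (trioL_valid hc.1), (h c hc.1).mpr hc.2⟩
  rw [heq, Set.InjOn.ncard_image, Set.ncard_coe_finset,
    List.toFinset_card_of_nodup (trioL_nodup.filter _)]
  intro c hc d hd hcd
  rw [Finset.mem_coe, List.mem_toFinset, List.mem_filter] at hc hd
  exact trioObj_injOn (by rw [Finset.mem_coe, List.mem_toFinset]; exact hc.1)
    (by rw [Finset.mem_coe, List.mem_toFinset]; exact hd.1) hcd

/-- The test for a trio code to be fixed by a table. -/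
def fixTrio (X : List ℕ) (c : ℕ) : Bool :=
  (pull X (c % 16777216) == c % 16777216 || pull X (c % 16777216) == c / 16777216 ||
    pull X (c % 16777216) == 16777215 ^^^ (c % 16777216 ||| c / 16777216)) &&
  (pull X (c / 16777216) == c % 16777216 || pull X (c / 16777216) == c / 16777216 ||
    pull X (c / 16777216) == 16777215 ^^^ (c % 16777216 ||| c / 16777216))

/-- The number of trios fixed by an element with a table. -/
theorem ncard_fixed_trios {g : Equiv.Perm GolayPt} (hg : g ∈ M24) {X : List ℕ}
    (hX : HasTable g X) :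
    {T : Finset (Finset GolayPt) | T ∈ trios ∧ g • T = T}.ncard =
      (trioL.filter (fixTrio X)).length :=
  ncard_trios_filter _ _ (fun c hc => by
    have hv := trioL_valid hc
    have hvB : Helper36.trioValidB c = true := by
      have h := List.all_eq_true.mp trioL_ok c hc
      rw [Bool.and_eq_true] at h
      exact h.1
    constructor
    · intro hfix
      have h1 : g⁻¹ • Helper36.trioObj c = Helper36.trioObj c := by
        rw [inv_smul_eq_iff, hfix]
      have hm1 : g⁻¹ • Helper36.ms (c % 16777216) ∈ g⁻¹ • Helper36.trioObj c :=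
        Finset.smul_mem_smul_finset (Helper36.mem_trioObj_of (Or.inl rfl))
      have hm2 : g⁻¹ • Helper36.ms (c / 16777216) ∈ g⁻¹ • Helper36.trioObj c :=
        Finset.smul_mem_smul_finset (Helper36.mem_trioObj_of (Or.inr (Or.inl rfl)))
      rw [h1, ← Helper36.ms_pull hX, Helper36.mem_trioObj_iff hv.1 (pull_lt24 hX _)] at hm1 hm2
      unfold fixTrio
      rw [Bool.and_eq_true, Bool.or_eq_true, Bool.or_eq_true, Bool.or_eq_true, Bool.or_eq_true,
        beq_iff_eq, beq_iff_eq, beq_iff_eq, beq_iff_eq, beq_iff_eq, beq_iff_eq]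
      exact ⟨or_assoc.mpr hm1, or_assoc.mpr hm2⟩
    · intro hp
      have hrel : Helper36.relTrio X c c = true := by
        unfold fixTrio at hp
        unfold Helper36.trioValidB at hvB
        unfold Helper36.relTrio
        rw [hp, Bool.true_and]
        exact hvB
      have h1 := (Helper36.relTrio_sound hg hX hv hrel).2
      rw [eq_comm, inv_smul_eq_iff] at h1
      exact h1.symm)

end Cfsg.Agent.Lib.Helper94
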