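import Mathlib
import Cfsg.Prelude.Def_Sporadic_a
import Cfsg.Prelude.Def_SporadicCombinatorics
import Cfsg.Agent.Lib.Helper94.M24FixCount

/-!
# Enumerating subgroups of `M24` by cosets of the stabiliser of five points

* `card_eq_of_enum`: the order of a subgroup from a duplicate-free list of tables;
* `cosetT_sound`: the tables in `cosetT (prodT sgsTabs w)` are tables of elements of `M24`;
* `TDec.enum_cosets`, `TDec.card_cosets`: a table-decidable subgroup `H` all of whose elements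
  have the images of `23, 0, 1, 2, 3` prescribed by one of finitely many tables is enumerated by
  filtering the corresponding cosets;
* `fixTrio_iff`: the test for a listed trio to be fixed;
* `mem_normalizer_zpowers`, `mem_centralizer_zpowers`, `conj_mem_normalizer_zpowers`, ... :
  normalisers and centralisers of cyclic subgroups.
-/

set_option autoImplicit false

namespace Cfsg.Agent.Lib.Helper94

open Cfsg Cfsg.Agent.Lib.Helper9
open scoped Pointwise

/-- Exact order of a subgroup from a duplicate-free list of the tables of its elements. -/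
theorem card_eq_of_enum {H : Subgroup (Equiv.Perm GolayPt)} {Ts : List (List ℕ)} (hnd : Ts.Nodup)
    (hc : ∀ σ ∈ H, ∃ T ∈ Ts, HasTable σ T) (hs : ∀ T ∈ Ts, ∃ σ ∈ H, HasTable σ T) :
    Nat.card ↥H = Ts.length := by
  have hmem : ∀ σ : ↥H, tableOf σ.1 ∈ Ts := by
    intro σ
    obtain ⟨T, hT, hσT⟩ := hc σ.1 σ.2
    have : tableOf σ.1 = T := (hasTable_tableOf σ.1).unique hσT
    rw [this]
    exact hT
  let f : ↥H → {T // T ∈ Ts} := fun σ => ⟨tableOf σ.1, hmem σ⟩
  have hf : Function.Bijective f := by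
    constructor
    · intro σ τ hστ
      apply Subtype.ext
      have h1 : tableOf σ.1 = tableOf τ.1 := congrArg Subtype.val hστ
      have h2 := hasTable_tableOf σ.1
      rw [h1] at h2
      exact h2.eq_of_eq (hasTable_tableOf τ.1)
    · rintro ⟨T, hT⟩
      obtain ⟨σ, hσ, hσT⟩ := hs T hT
      exact ⟨⟨σ, hσ⟩, Subtype.ext ((hasTable_tableOf σ).unique hσT)⟩
  rw [Nat.card_congr (Equiv.ofBijective f hf)]
  have : Nat.card {T // T ∈ Ts} = (Ts.toFinset).card := by
    rw [← Nat.card_eq_finsetCard]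
    apply Nat.card_congr
    exact Equiv.subtypeEquivRight (fun T => by simp)
  rw [this, List.toFinset_card_of_nodup hnd]

theorem cosetT_sound {w : List ℕ} {T : List ℕ} (hT : T ∈ cosetT (prodT sgsTabs w)) :
    ∃ σ ∈ M24, HasTable σ T := by
  rw [cosetT, List.mem_map] at hT
  obtain ⟨S, hS, rfl⟩ := hT
  obtain ⟨τ, hτ, hτS⟩ := enum5.sound S hS
  have hu := good_sgs_M24.prod w
  exact ⟨prodW sgsEnv w * τ, M24.mul_mem hu.1 hτ.1, hasTable_mul hu.2 hτS⟩

theorem TDec.enum_cosets {H : Subgroup (Equiv.Perm GolayPt)} {P : List ℕ → Bool} (h : TDec H P)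
    {ws us : List (List ℕ)} (hus : ws.map (prodT sgsTabs) = us)
    (hcover : ∀ σ ∈ H, ∃ U ∈ us, ∀ i ∈ ([3, 2, 1, 0, 23] : List ℕ), σ (pt i) = pt (U.getD i 0)) :
    (∀ σ ∈ H, ∃ T ∈ (us.flatMap cosetT).filter P, HasTable σ T) ∧
      (∀ T ∈ (us.flatMap cosetT).filter P, ∃ σ ∈ H, HasTable σ T) := by
  constructor
  · intro σ hσ
    obtain ⟨U, hU, hσU⟩ := hcover σ hσ
    rw [← hus, List.mem_map] at hU
    obtain ⟨w, hw, rfl⟩ := hU
    obtain ⟨T, hT, hσT⟩ := mem_cosetT (w := w) (h.le hσ) hσU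
    refine ⟨T, ?_, hσT⟩
    rw [List.mem_filter, List.mem_flatMap]
    refine ⟨⟨prodT sgsTabs w, ?_, hT⟩, (h.spec σ (h.le hσ) T hσT).1 hσ⟩
    rw [← hus]
    exact List.mem_map_of_mem hw
  · intro T hT
    rw [List.mem_filter, List.mem_flatMap] at hT
    obtain ⟨⟨U, hU, hTU⟩, hP⟩ := hT
    rw [← hus, List.mem_map] at hU
    obtain ⟨w, _, rfl⟩ := hU
    obtain ⟨σ, hσ, hσT⟩ := cosetT_sound hTU
    exact ⟨σ, (h.spec σ hσ T hσT).2 hP, hσT⟩

theorem TDec.card_cosets {H : Subgroup (Equiv.Perm GolayPt)} {P : List ℕ → Bool} (h : TDec H P)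
    {ws us : List (List ℕ)} (hus : ws.map (prodT sgsTabs) = us)
    (hcover : ∀ σ ∈ H, ∃ U ∈ us, ∀ i ∈ ([3, 2, 1, 0, 23] : List ℕ), σ (pt i) = pt (U.getD i 0))
    (hnd : ((us.flatMap cosetT).filter P).Nodup) :
    Nat.card ↥H = ((us.flatMap cosetT).filter P).length :=
  card_eq_of_enum hnd (h.enum_cosets hus hcover).1 (h.enum_cosets hus hcover).2

/-- The test `fixTrio` decides whether a listed trio is fixed. -/
theorem fixTrio_iff {g : Equiv.Perm GolayPt} (hg : g ∈ M24) {X : List ℕ} (hX : HasTable g X)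
    {c : ℕ} (hc : c ∈ trioL) :
    g • Helper36.trioObj c = Helper36.trioObj c ↔ fixTrio X c = true := by
  have hv := trioL_valid hc
  have hvB : Helper36.trioValidB c = true := by
    have h := List.all_eq_true.mp trioL_ok c hc
    rw [Bool.and_eq_true] at h
    exact h.1
  constructor
  · intro hfix
    have h1 : g⁻¹ • Helper36.trioObj c = Helper36.trioObj c := by
      rw [inv_smul_eq_iff, hfix]
    have hm1 : g⁻¹ • Helper36.ms (c % 16777216) ∈ g⁻¹ • Helper36.trioObj c :=
      Finset.smul_mem_smul_finset (Helper36.mem_trioObj_of (Or.inl rfl))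
    have hm2 : g⁻¹ • Helper36.ms (c / 16777216) ∈ g⁻¹ • Helper36.trioObj c :=
      Finset.smul_mem_smul_finset (Helper36.mem_trioObj_of (Or.inr (Or.inl rfl)))
    rw [h1, ← Helper36.ms_pull hX, Helper36.mem_trioObj_iff hv.1 (pull_lt24 hX _)] at hm1 hm2
    unfold fixTrio
    rw [Bool.and_eq_true, Bool.or_eq_true, Bool.or_eq_true, Bool.or_eq_true, Bool.or_eq_true,
      beq_iff_eq, beq_iff_eq, beq_iff_eq, beq_iff_eq, beq_iff_eq, beq_iff_eq]
    exact ⟨or_assoc.mpr hm1, or_assoc.mpr hm2⟩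
  · intro hp
    have hrel : Helper36.relTrio X c c = true := by
      unfold fixTrio at hp
      unfold Helper36.trioValidB at hvB
      unfold Helper36.relTrio
      rw [hp, Bool.true_and]
      exact hvB
    have h1 := (Helper36.relTrio_sound hg hX hv hrel).2
    rw [eq_comm, inv_smul_eq_iff] at h1
    exact h1.symm

/-! ### Normalisers and centralisers of cyclic subgroups -/

section cyclic

variable {G : Type*} [Group G]

theorem mem_normalizer_zpowers [Finite G] (z n : G) :
    n ∈ Subgroup.normalizer (Subgroup.zpowers z : Set G) ↔ n * z * n⁻¹ ∈ Subgroup.zpowers z := by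
  constructor
  · intro h
    exact (Subgroup.mem_set_normalizer_iff.1 h z).1 (Subgroup.mem_zpowers z)
  · intro h
    apply Subgroup.mem_normalizer_fintype
    intro m hm
    obtain ⟨k, rfl⟩ := Subgroup.mem_zpowers_iff.1 hm
    rw [← conj_zpow]
    exact Subgroup.zpow_mem _ h k

theorem mem_centralizer_zpowers (z n : G) :
    n ∈ Subgroup.centralizer (Subgroup.zpowers z : Set G) ↔ n * z = z * n := by
  rw [Subgroup.mem_centralizer_iff]
  constructor
  · intro h
    exact (h z (Subgroup.mem_zpowers z)).symm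
  · intro h m hm
    obtain ⟨k, rfl⟩ := Subgroup.mem_zpowers_iff.1 hm
    exact ((Commute.zpow_right (show Commute n z from h) k).eq).symm

theorem conj_mem_zpowers_iff (g z w : G) :
    g * w * g⁻¹ ∈ Subgroup.zpowers (g * z * g⁻¹) ↔ w ∈ Subgroup.zpowers z := by
  rw [Subgroup.mem_zpowers_iff, Subgroup.mem_zpowers_iff]
  constructor
  · rintro ⟨k, hk⟩
    refine ⟨k, ?_⟩
    rw [conj_zpow] at hk
    exact mul_left_cancel (mul_right_cancel hk)
  · rintro ⟨k, rfl⟩
    exact ⟨k, by rw [conj_zpow]⟩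

/-- Conjugation by `g⁻¹` carries the normaliser of `⟨g z g⁻¹⟩` to the normaliser of `⟨z⟩`. -/
theorem conj_mem_normalizer_zpowers [Finite G] (g z n : G) :
    n ∈ Subgroup.normalizer (Subgroup.zpowers (g * z * g⁻¹) : Set G) ↔
      g⁻¹ * n * g ∈ Subgroup.normalizer (Subgroup.zpowers z : Set G) := by
  rw [mem_normalizer_zpowers, mem_normalizer_zpowers, ← conj_mem_zpowers_iff g z]
  have e : g * (g⁻¹ * n * g * z * (g⁻¹ * n * g)⁻¹) * g⁻¹ = n * (g * z * g⁻¹) * n⁻¹ := by group
  rw [e]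

/-- Conjugation by `g⁻¹` carries the centraliser of `⟨g z g⁻¹⟩` to the centraliser of `⟨z⟩`. -/
theorem conj_mem_centralizer_zpowers (g z n : G) :
    n ∈ Subgroup.centralizer (Subgroup.zpowers (g * z * g⁻¹) : Set G) ↔
      g⁻¹ * n * g ∈ Subgroup.centralizer (Subgroup.zpowers z : Set G) := by
  rw [mem_centralizer_zpowers, mem_centralizer_zpowers]
  constructor
  · intro h
    have e1 : g⁻¹ * n * g * z = g⁻¹ * (n * (g * z * g⁻¹)) * g := by group
    have e2 : z * (g⁻¹ * n * g) = g⁻¹ * (g * z * g⁻¹ * n) * g := by group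
    rw [e1, e2, h]
  · intro h
    have e1 : n * (g * z * g⁻¹) = g * (g⁻¹ * n * g * z) * g⁻¹ := by group
    have e2 : g * z * g⁻¹ * n = g * (z * (g⁻¹ * n * g)) * g⁻¹ := by group
    rw [e1, e2, h]

end cyclic

/-! ### Cyclic subgroups of `↥M24` versus the symmetric group -/

theorem coe_mem_zpowers_iff (z w : ↥M24) :
    (w : Equiv.Perm GolayPt) ∈ Subgroup.zpowers (z : Equiv.Perm GolayPt) ↔
      w ∈ Subgroup.zpowers z := by
  rw [Subgroup.mem_zpowers_iff, Subgroup.mem_zpowers_iff]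
  constructor
  · rintro ⟨k, hk⟩
    exact ⟨k, Subtype.ext (by rw [Subgroup.coe_zpow]; exact hk)⟩
  · rintro ⟨k, rfl⟩
    exact ⟨k, by rw [Subgroup.coe_zpow]⟩

/-- The normaliser in `↥M24` of a cyclic subgroup, as a subgroup of the symmetric group. -/
theorem map_normalizer_zpowers (z : ↥M24) :
    (Subgroup.normalizer (Subgroup.zpowers z : Set ↥M24)).map M24.subtype =
      M24 ⊓ Subgroup.normalizer
        (Subgroup.zpowers (z : Equiv.Perm GolayPt) : Set (Equiv.Perm GolayPt)) := by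
  ext σ
  rw [Subgroup.mem_map, Subgroup.mem_inf, mem_normalizer_zpowers]
  constructor
  · rintro ⟨n, hn, rfl⟩
    rw [mem_normalizer_zpowers] at hn
    exact ⟨n.2, (coe_mem_zpowers_iff z (n * z * n⁻¹)).2 hn⟩
  · rintro ⟨hσ, h⟩
    refine ⟨⟨σ, hσ⟩, ?_, rfl⟩
    rw [mem_normalizer_zpowers]
    exact (coe_mem_zpowers_iff z (⟨σ, hσ⟩ * z * ⟨σ, hσ⟩⁻¹)).1 h

/-- The centraliser in `↥M24` of a cyclic subgroup, as a subgroup of the symmetric group. -/
theorem map_centralizer_zpowers (z : ↥M24) :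
    (Subgroup.centralizer (Subgroup.zpowers z : Set ↥M24)).map M24.subtype =
      M24 ⊓ Subgroup.centralizer
        (Subgroup.zpowers (z : Equiv.Perm GolayPt) : Set (Equiv.Perm GolayPt)) := by
  ext σ
  rw [Subgroup.mem_map, Subgroup.mem_inf, mem_centralizer_zpowers]
  constructor
  · rintro ⟨n, hn, rfl⟩
    rw [mem_centralizer_zpowers] at hn
    exact ⟨n.2, congrArg Subtype.val hn⟩
  · rintro ⟨hσ, h⟩
    refine ⟨⟨σ, hσ⟩, ?_, rfl⟩
    rw [mem_centralizer_zpowers]
    exact Subtype.ext h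

end Cfsg.Agent.Lib.Helper94
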