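import Mathlib
import Cfsg.Prelude.Def_GeometricClasses
import Cfsg.Agent.Lib.Helper71.SpK0

/-!
Piece J13 of helper71's S5664 project (helper94): the abstract data `KS f L` from a field
subalgebra `K` of the matrix algebra on which the symplectic form is alternating
(`exists_KS`), and a symplectic transvection which does not normalise `K`
(`exists_iso_not_normalizer`).
-/

set_option autoImplicit false

namespace Cfsg.Agent.Lib.Helper94.SpJ13

open Matrix Cfsg.Agent.Lib.Helper97 Cfsg.Agent.Lib.Helper71.SpK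

universe u

/-- The raw data of `exists_KS`, stated with the ring structure of the subalgebra. -/
theorem exists_KS_aux {ι : Type} [Fintype ι] [DecidableEq ι] [Nonempty ι] {F : Type u} [Field F]
    {f : (ι → F) → (ι → F) → F} (hf : Cfsg.Geo.IsSymplecticForm f) {r : ℕ}
    (K : Subalgebra F (Matrix ι ι F)) (hK : Cfsg.Geo.IsFieldSubalgebra r K)
    (halt : ∀ k ∈ K, ∀ v : ι → F, f (k *ᵥ v) v = 0) :
    ∃ (β : ↥K →ₗ[F] F) (B : (ι → F) → (ι → F) → ↥K), β ≠ 0 ∧
      (∀ x y u, B (x + y) u = B x u + B y u) ∧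
      (∀ (l : ↥K) (x u : ι → F), B ((l : Matrix ι ι F) *ᵥ x) u = l * B x u) ∧
      (∀ x u, B x u = - B u x) ∧ (∀ x, B x x = 0) ∧ (∀ x u, β (B x u) = f x u) := by
  have hcomm : ∀ a b : ↥K, a * b = b * a := fun a b => Subtype.ext (hK.comm a a.2 b b.2)
  have h01 : (1 : ↥K) ∉ (⊥ : Submodule F ↥K) := by
    rw [Submodule.mem_bot]
    intro h
    exact one_ne_zero (α := Matrix ι ι F) (congrArg Subtype.val h)
  obtain ⟨β, hβ1, -⟩ := Submodule.exists_dual_map_eq_bot_of_notMem h01 inferInstance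
  have hβ : β ≠ 0 := by
    rintro rfl
    exact hβ1 rfl
  let Bm : ↥K →ₗ[F] (↥K →ₗ[F] F) := (LinearMap.mul F ↥K).compr₂ β
  have hBm : ∀ c k : ↥K, Bm c k = β (c * k) := fun c k => rfl
  have hinj : Function.Injective Bm := by
    rw [← LinearMap.ker_eq_bot, LinearMap.ker_eq_bot']
    intro c hc
    by_contra hc0
    obtain ⟨c', hc', hcc'⟩ := hK.inv c c.2 (fun h => hc0 (Subtype.ext h))
    apply hβ
    ext k
    have h1 := LinearMap.congr_fun hc (⟨c', hc'⟩ * k)
    rw [hBm, ← mul_assoc] at h1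
    have e : c * (⟨c', hc'⟩ : ↥K) = 1 := Subtype.ext hcc'
    rw [e, one_mul] at h1
    exact h1
  have hfin : Module.finrank F ↥K = Module.finrank F (↥K →ₗ[F] F) :=
    (Subspace.dual_finrank_eq).symm
  have hsurj : Function.Surjective Bm :=
    (LinearMap.injective_iff_surjective_of_finrank_eq_finrank hfin).mp hinj
  let e : ↥K ≃ₗ[F] (↥K →ₗ[F] F) := LinearEquiv.ofBijective Bm ⟨hinj, hsurj⟩
  have he : ∀ c k : ↥K, e c k = β (c * k) := fun c k => rfl
  have hb := hf.bilinear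
  let Ψ : (ι → F) → (ι → F) →ₗ[F] (↥K →ₗ[F] F) := fun u =>
    LinearMap.mk₂ F (fun x k => f ((k : Matrix ι ι F) *ᵥ x) u)
      (fun x x' k => by rw [Matrix.mulVec_add, hb.add_left])
      (fun c x k => by rw [Matrix.mulVec_smul, hb.smul_left, smul_eq_mul])
      (fun x k k' => by rw [Subalgebra.coe_add, Matrix.add_mulVec, hb.add_left])
      (fun c x k => by rw [Subalgebra.coe_smul, Matrix.smul_mulVec, hb.smul_left, smul_eq_mul])
  have hΨ : ∀ (u x : ι → F) (k : ↥K), Ψ u x k = f ((k : Matrix ι ι F) *ᵥ x) u :=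
    fun u x k => rfl
  have hext : ∀ a b : ↥K, (∀ k : ↥K, β (a * k) = β (b * k)) → a = b := by
    intro a b h
    apply e.injective
    ext k
    rw [he, he, h]
  obtain ⟨B, hB⟩ : ∃ B : (ι → F) → (ι → F) → ↥K,
      ∀ (x u : ι → F) (k : ↥K), β (B x u * k) = f ((k : Matrix ι ι F) *ᵥ x) u := by
    refine ⟨fun x u => e.symm (Ψ u x), fun x u k => ?_⟩
    show β (e.symm (Ψ u x) * k) = _
    rw [← he, LinearEquiv.apply_symm_apply, hΨ]
  have hadd : ∀ x y u, B (x + y) u = B x u + B y u := by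
    intro x y u
    apply hext
    intro k
    rw [add_mul, map_add, hB, hB, hB, Matrix.mulVec_add, hb.add_left]
  have hadd' : ∀ x u w, B x (u + w) = B x u + B x w := by
    intro x u w
    apply hext
    intro k
    rw [add_mul, map_add, hB, hB, hB, hb.add_right]
  have hself : ∀ x, B x x = 0 := by
    intro x
    apply hext
    intro k
    rw [hB, zero_mul, map_zero]
    exact halt k k.2 x
  refine ⟨β, B, hβ, hadd, ?_, ?_, hself, ?_⟩
  · intro l x u
    apply hext
    intro k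
    have e1 : l * B x u * k = B x u * (k * l) := by
      rw [hcomm l (B x u), mul_assoc, hcomm l k]
    rw [e1, hB, hB, Matrix.mulVec_mulVec, ← Subalgebra.coe_mul]
  · intro x u
    have h1 := hself (x + u)
    rw [hadd, hadd', hadd', hself, hself, zero_add, add_zero] at h1
    exact eq_neg_of_add_eq_zero_left h1
  · intro x u
    have h1 := hB x u 1
    rw [mul_one, OneMemClass.coe_one, Matrix.one_mulVec] at h1
    exact h1

/-- A field subalgebra is a field. -/
theorem fs_isField' {ι : Type} [Fintype ι] [DecidableEq ι] [Nonempty ι] {F : Type u} [Field F]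
    {r : ℕ} {K : Subalgebra F (Matrix ι ι F)}
    (hK : Cfsg.Geo.IsFieldSubalgebra r K) : IsField ↥K where
  exists_pair_ne := ⟨0, 1, fun h => zero_ne_one (α := Matrix ι ι F)
    (congrArg Subtype.val h)⟩
  mul_comm a b := Subtype.ext (hK.comm a a.2 b b.2)
  mul_inv_cancel {a} ha := by
    obtain ⟨y, hy, hay⟩ := hK.inv a a.2 (fun h => ha (Subtype.ext h))
    exact ⟨⟨y, hy⟩, Subtype.ext hay⟩

theorem exists_KS {ι : Type} [Fintype ι] [DecidableEq ι] [Nonempty ι] {F : Type u} [Field F]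
    {f : (ι → F) → (ι → F) → F} (hf : Cfsg.Geo.IsSymplecticForm f) {r : ℕ}
    (K : Subalgebra F (Matrix ι ι F)) (hK : Cfsg.Geo.IsFieldSubalgebra r K)
    (halt : ∀ k ∈ K, ∀ v : ι → F, f (k *ᵥ v) v = 0) :
    ∃ (L : Type u) (_ : Field L) (_ : Algebra F L) (_ : FiniteDimensional F L) (S : KS f L),
      S.φ.range = K ∧ Module.finrank F L = r := by
  obtain ⟨β, B, hβ, h1, h2, h3, h4, h5⟩ := exists_KS_aux hf K hK halt
  letI : Field ↥K := (fs_isField' hK).toField
  refine ⟨↥K, inferInstance, Subalgebra.algebra K, ?_, ?_⟩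
  · exact FiniteDimensional.finiteDimensional_subalgebra K
  · exact ⟨{ φ := K.val, B := B, β := β, β_ne := hβ, B_add := h1, B_act := h2, B_skew := h3,
             B_self := h4, β_B := h5 }, Subalgebra.range_val K, hK.finrank_eq⟩

/-- A non-zero element of a field subalgebra kills no non-zero vector. -/
theorem fs_eq_zero_of_mulVec {ι : Type} [Fintype ι] [DecidableEq ι] {F : Type u} [Field F]
    {r : ℕ} {K : Subalgebra F (Matrix ι ι F)} (hK : Cfsg.Geo.IsFieldSubalgebra r K)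
    {κ : Matrix ι ι F} (hκ : κ ∈ K) {x : ι → F} (hx : x ≠ 0) (h : κ *ᵥ x = 0) : κ = 0 := by
  by_contra hne
  obtain ⟨y, hy, hκy⟩ := hK.inv κ hκ hne
  have h1 : y * κ = 1 := by rw [← hK.comm κ hκ y hy, hκy]
  apply hx
  calc x = (y * κ) *ᵥ x := by rw [h1, Matrix.one_mulVec]
    _ = 0 := by rw [← Matrix.mulVec_mulVec, h, Matrix.mulVec_zero]

/-- A field subalgebra of degree at least two contains a non-scalar matrix. -/
theorem exists_non_scalar {ι : Type} [Fintype ι] [DecidableEq ι] {F : Type u} [Field F]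
    {r : ℕ} (hr2 : 2 ≤ r) (K : Subalgebra F (Matrix ι ι F))
    (hK : Cfsg.Geo.IsFieldSubalgebra r K) :
    ∃ ω ∈ K, ∀ c : F, ω ≠ c • (1 : Matrix ι ι F) := by
  by_contra hcon
  push Not at hcon
  have hsurj : Function.Surjective (LinearMap.toSpanSingleton F ↥K 1) := by
    intro k
    obtain ⟨c, hc⟩ := hcon k k.2
    refine ⟨c, ?_⟩
    apply Subtype.ext
    rw [LinearMap.toSpanSingleton_apply, hc]
    rfl
  have h1 : Module.finrank F ↥K ≤ Module.finrank F F := by
    have h2 := LinearMap.finrank_range_le (LinearMap.toSpanSingleton F ↥K 1)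
    rw [LinearMap.range_eq_top.mpr hsurj, finrank_top] at h2
    exact h2
  rw [hK.finrank_eq, Module.finrank_self] at h1
  omega

theorem exists_iso_not_normalizer {ι : Type} [Fintype ι] [DecidableEq ι] {F : Type u} [Field F]
    {f : (ι → F) → (ι → F) → F} (hf : Cfsg.Geo.IsSymplecticForm f) {r : ℕ} (hr2 : 2 ≤ r)
    (K : Subalgebra F (Matrix ι ι F)) (hK : Cfsg.Geo.IsFieldSubalgebra r K)
    (halt : ∀ k ∈ K, ∀ v : ι → F, f (k *ᵥ v) v = 0) (hcard : 3 ≤ Fintype.card ι) :
    ∃ g : GL ι F, (∀ x y : ι → F, f ((g : Matrix ι ι F) *ᵥ x) ((g : Matrix ι ι F) *ᵥ y) = f x y) ∧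
      g ∉ Cfsg.Geo.subalgebraNormalizer K := by
  classical
  have hb := hf.bilinear
  obtain ⟨ω, hω, hωns⟩ := exists_non_scalar hr2 K hK
  obtain ⟨i⟩ : Nonempty ι := by
    rw [← Fintype.card_pos_iff]
    omega
  obtain ⟨v, hv⟩ : ∃ v : ι → F, v ≠ 0 := by
    refine ⟨Pi.single i 1, fun h => ?_⟩
    have := congrFun h i
    rw [Pi.single_eq_same, Pi.zero_apply] at this
    exact one_ne_zero this
  obtain ⟨x₁, hx₁⟩ := (hf.nondegenerate v hv).1
  refine ⟨tvG v ((1 : F) • rho f v) (symp_dot0 hf v 1), fun x y => stv_pres hf v 1 x y, ?_⟩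
  intro hmem
  obtain ⟨t, ht⟩ : ∃ t : GL ι F, t = tvG v ((1 : F) • rho f v) (symp_dot0 hf v 1) := ⟨_, rfl⟩
  rw [← ht] at hmem
  have htx : ∀ x : ι → F, (t : Matrix ι ι F) *ᵥ x = x + f x v • v := by
    intro x
    rw [ht, stv_mulVec hf, one_mul]
  have htinv : ∀ x : ι → F, ((t⁻¹ : GL ι F) : Matrix ι ι F) *ᵥ x = x - f x v • v := by
    intro x
    apply gl_mulVec_inj t
    have e0 : f (x - f x v • v) v = f x v := by
      rw [sub_eq_add_neg, hb.add_left, ← neg_smul, hb.smul_left, hf.alternating, mul_zero,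
        add_zero]
    rw [gl_mulVec_inv', htx, e0]
    module
  have hA : (t : Matrix ι ι F) * ω * ((t⁻¹ : GL ι F) : Matrix ι ι F) ∈ K := (hmem ω).1 hω
  have hκ : (t : Matrix ι ι F) * ω * ((t⁻¹ : GL ι F) : Matrix ι ι F) - ω ∈ K := K.sub_mem hA hω
  have hκx : ∀ x : ι → F,
      ((t : Matrix ι ι F) * ω * ((t⁻¹ : GL ι F) : Matrix ι ι F) - ω) *ᵥ x
        = f (ω *ᵥ x) v • v - f x v • (ω *ᵥ v) := by
    intro x
    have e1 : f (ω *ᵥ x - f x v • ω *ᵥ v) v = f (ω *ᵥ x) v := by
      rw [sub_eq_add_neg, hb.add_left, ← neg_smul, hb.smul_left, halt ω hω v, mul_zero, add_zero]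
    rw [Matrix.sub_mulVec, ← Matrix.mulVec_mulVec, ← Matrix.mulVec_mulVec, htinv, Matrix.mulVec_sub,
      Matrix.mulVec_smul, htx, e1]
    module
  -- κ is not injective, hence zero
  have hκ0 : (t : Matrix ι ι F) * ω * ((t⁻¹ : GL ι F) : Matrix ι ι F) - ω = 0 := by
    by_contra hne
    have hinj : Function.Injective (Matrix.toLin'
        ((t : Matrix ι ι F) * ω * ((t⁻¹ : GL ι F) : Matrix ι ι F) - ω)) := by
      rw [← LinearMap.ker_eq_bot, LinearMap.ker_eq_bot']
      intro x hx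
      by_contra hx0
      rw [Matrix.toLin'_apply] at hx
      exact hne (fs_eq_zero_of_mulVec hK hκ hx0 hx)
    have hsurj := LinearMap.injective_iff_surjective.mp hinj
    have hle : (⊤ : Submodule F (ι → F)) ≤ Submodule.span F ({v, ω *ᵥ v} : Set (ι → F)) := by
      intro y _
      obtain ⟨x, rfl⟩ := hsurj y
      rw [Matrix.toLin'_apply, hκx, sub_eq_add_neg, ← neg_smul]
      exact Submodule.mem_span_pair.mpr ⟨_, _, rfl⟩
    have h1 := Submodule.finrank_mono hle
    have h2 : Module.finrank F (Submodule.span F ({v, ω *ᵥ v} : Set (ι → F))) ≤ 2 := by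
      have h := finrank_span_finset_le_card (R := F) ({v, ω *ᵥ v} : Finset (ι → F))
      rw [Finset.coe_pair] at h
      exact h.trans Finset.card_le_two
    rw [finrank_top, Module.finrank_pi] at h1
    omega
  -- hence ω v = c v
  have h3 := hκx x₁
  rw [hκ0, Matrix.zero_mulVec] at h3
  have h4 : (ω - (f (ω *ᵥ x₁) v / f x₁ v) • (1 : Matrix ι ι F)) *ᵥ v = 0 := by
    rw [Matrix.sub_mulVec, Matrix.smul_mulVec, Matrix.one_mulVec]
    have h5 : f x₁ v • (ω *ᵥ v) = f (ω *ᵥ x₁) v • v := (sub_eq_zero.mp h3.symm).symm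
    have h6 : ω *ᵥ v = (f x₁ v)⁻¹ • (f x₁ v • (ω *ᵥ v)) := by
      rw [smul_smul, inv_mul_cancel₀ hx₁, one_smul]
    rw [h6, h5, smul_smul, div_eq_inv_mul, sub_self]
  have h7 : ω - (f (ω *ᵥ x₁) v / f x₁ v) • (1 : Matrix ι ι F) ∈ K :=
    K.sub_mem hω (K.smul_mem K.one_mem _)
  exact hωns _ (sub_eq_zero.mp (fs_eq_zero_of_mulVec hK h7 hv h4))

end Cfsg.Agent.Lib.Helper94.SpJ13
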