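import Mathlib
import Cfsg.Prelude.Def_GeometricClasses
import Cfsg.Agent.Lib.Helper71.OK1
import Cfsg.Agent.Lib.Helper52.Siegel
import Cfsg.Agent.Lib.Helper94.SpJ13

set_option autoImplicit false
set_option linter.unusedVariables false
set_option linter.style.haveILetI false

/-!
# S5701 piece S1: the structure `KO` from a self-adjoint field subalgebra
-/

namespace Cfsg.Agent.Lib.Helper94.OKS1

open Matrix Cfsg.Agent.Lib.Helper71.SpK Cfsg.Agent.Lib.Helper71.OK

universe u

/-- The raw data of `exists_KO`, stated with the ring structure of the subalgebra. -/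
theorem exists_KO_aux {ι : Type} [Fintype ι] [DecidableEq ι] [Nonempty ι] {F : Type u} [Field F]
    (Q : QuadraticForm F (ι → F)) {r : ℕ}
    (K : Subalgebra F (Matrix ι ι F)) (hK : Cfsg.Geo.IsFieldSubalgebra r K)
    (hsa : Cfsg.Geo.IsSelfAdjointFor (QuadraticMap.polar ⇑Q) K) :
    ∃ (β : ↥K →ₗ[F] F) (B : (ι → F) → (ι → F) → ↥K), β ≠ 0 ∧
      (∀ x y u, B (x + y) u = B x u + B y u) ∧
      (∀ (l : ↥K) (x u : ι → F), B ((l : Matrix ι ι F) *ᵥ x) u = l * B x u) ∧
      (∀ x u, B x u = B u x) ∧ (∀ x u, β (B x u) = QuadraticMap.polar ⇑Q x u) := by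
  have hcomm : ∀ a b : ↥K, a * b = b * a := fun a b => Subtype.ext (hK.comm a a.2 b b.2)
  have h01 : (1 : ↥K) ∉ (⊥ : Submodule F ↥K) := by
    rw [Submodule.mem_bot]
    intro h
    exact one_ne_zero (α := Matrix ι ι F) (congrArg Subtype.val h)
  obtain ⟨β, hβ1, -⟩ := Submodule.exists_dual_map_eq_bot_of_notMem h01 inferInstance
  have hβ : β ≠ 0 := by
    rintro rfl
    exact hβ1 rfl
  let Bm : ↥K →ₗ[F] (↥K →ₗ[F] F) := (LinearMap.mul F ↥K).compr₂ β
  have hBm : ∀ c k : ↥K, Bm c k = β (c * k) := fun c k => rfl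
  have hinj : Function.Injective Bm := by
    rw [← LinearMap.ker_eq_bot, LinearMap.ker_eq_bot']
    intro c hc
    by_contra hc0
    obtain ⟨c', hc', hcc'⟩ := hK.inv c c.2 (fun h => hc0 (Subtype.ext h))
    apply hβ
    ext k
    have h1 := LinearMap.congr_fun hc (⟨c', hc'⟩ * k)
    rw [hBm, ← mul_assoc] at h1
    have e : c * (⟨c', hc'⟩ : ↥K) = 1 := Subtype.ext hcc'
    rw [e, one_mul] at h1
    exact h1
  have hfin : Module.finrank F ↥K = Module.finrank F (↥K →ₗ[F] F) :=
    (Subspace.dual_finrank_eq).symm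
  have hsurj : Function.Surjective Bm :=
    (LinearMap.injective_iff_surjective_of_finrank_eq_finrank hfin).mp hinj
  let e : ↥K ≃ₗ[F] (↥K →ₗ[F] F) := LinearEquiv.ofBijective Bm ⟨hinj, hsurj⟩
  have he : ∀ c k : ↥K, e c k = β (c * k) := fun c k => rfl
  let Ψ : (ι → F) → (ι → F) →ₗ[F] (↥K →ₗ[F] F) := fun u =>
    LinearMap.mk₂ F (fun x k => QuadraticMap.polar ⇑Q ((k : Matrix ι ι F) *ᵥ x) u)
      (fun x x' k => by rw [Matrix.mulVec_add, QuadraticMap.polar_add_left])
      (fun c x k => by rw [Matrix.mulVec_smul, QuadraticMap.polar_smul_left])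
      (fun x k k' => by rw [Subalgebra.coe_add, Matrix.add_mulVec, QuadraticMap.polar_add_left])
      (fun c x k => by
        rw [Subalgebra.coe_smul, Matrix.smul_mulVec, QuadraticMap.polar_smul_left])
  have hΨ : ∀ (u x : ι → F) (k : ↥K),
      Ψ u x k = QuadraticMap.polar ⇑Q ((k : Matrix ι ι F) *ᵥ x) u :=
    fun u x k => rfl
  have hext : ∀ a b : ↥K, (∀ k : ↥K, β (a * k) = β (b * k)) → a = b := by
    intro a b h
    apply e.injective
    ext k
    rw [he, he, h]
  obtain ⟨B, hB⟩ : ∃ B : (ι → F) → (ι → F) → ↥K,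
      ∀ (x u : ι → F) (k : ↥K),
        β (B x u * k) = QuadraticMap.polar ⇑Q ((k : Matrix ι ι F) *ᵥ x) u := by
    refine ⟨fun x u => e.symm (Ψ u x), fun x u k => ?_⟩
    show β (e.symm (Ψ u x) * k) = _
    rw [← he, LinearEquiv.apply_symm_apply, hΨ]
  have hadd : ∀ x y u, B (x + y) u = B x u + B y u := by
    intro x y u
    apply hext
    intro k
    rw [add_mul, map_add, hB, hB, hB, Matrix.mulVec_add, QuadraticMap.polar_add_left]
  refine ⟨β, B, hβ, hadd, ?_, ?_, ?_⟩
  · intro l x u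
    apply hext
    intro k
    have e1 : l * B x u * k = B x u * (k * l) := by
      rw [hcomm l (B x u), mul_assoc, hcomm l k]
    rw [e1, hB, hB, Matrix.mulVec_mulVec, ← Subalgebra.coe_mul]
  · intro x u
    apply hext
    intro k
    rw [hB, hB, hsa k k.2 x u, QuadraticMap.polar_comm]
  · intro x u
    have h1 := hB x u 1
    rw [mul_one, OneMemClass.coe_one, Matrix.one_mulVec] at h1
    exact h1

theorem exists_KO.{v} {ι : Type} [Fintype ι] [DecidableEq ι] [Nonempty ι] {F : Type v} [Field F]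
    (Q : QuadraticForm F (ι → F)) (hQ : (QuadraticMap.polarBilin Q).Nondegenerate) {r : ℕ}
    (K : Subalgebra F (Matrix ι ι F)) (hK : Cfsg.Geo.IsFieldSubalgebra r K)
    (hsa : Cfsg.Geo.IsSelfAdjointFor (QuadraticMap.polar ⇑Q) K) :
    ∃ (L : Type v) (_ : Field L) (_ : Algebra F L) (_ : FiniteDimensional F L)
      (S : KO (QuadraticMap.polar ⇑Q) L), S.φ.range = K ∧ Module.finrank F L = r := by
  obtain ⟨β, B, hβ, h1, h2, h3, h5⟩ := exists_KO_aux Q K hK hsa
  letI : Field ↥K := (Cfsg.Agent.Lib.Helper94.SpJ13.fs_isField' hK).toField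
  refine ⟨↥K, inferInstance, Subalgebra.algebra K, ?_, ?_⟩
  · exact FiniteDimensional.finiteDimensional_subalgebra K
  · exact ⟨{ φ := K.val, B := B, β := β, β_ne := hβ, B_add := h1, B_act := h2, B_symm := h3,
             β_B := h5 }, Subalgebra.range_val K, hK.finrank_eq⟩

end Cfsg.Agent.Lib.Helper94.OKS1
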