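import Mathlib
import Cfsg.Prelude.Def_GeometricClasses
import Cfsg.Prelude.Def_Classical

/-!
# S5981, piece OQ-MULTONE (helper94): similarities of order `r` (with `r ∤ q - 1`) are isometries
-/

set_option autoImplicit false

namespace Cfsg.Agent.Lib.Helper94.Oq

open Polynomial Matrix
open scoped MatrixGroups

-- PIECE MULTONE
theorem isometry_of_pow {F : Type*} [Field F] [Fintype F] {n : ℕ} (hn : 0 < n)
    (Q : (Fin n → F) → F) (hQ : Cfsg.Geo.IsNondegenerateQuadraticForm Q)
    (r : ℕ) (hr : r.Prime) (hrq : ¬ r ∣ Fintype.card F - 1)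
    (y : GL (Fin n) F) (hy : y ∈ Cfsg.Geo.quadSimilarityGroup Q) (hyr : y ^ r = 1) :
    ∀ v, Q ((y : Matrix (Fin n) (Fin n) F) *ᵥ v) = Q v := by
  classical
  obtain ⟨c, hc⟩ := hy
  -- powers
  have hpow : ∀ (k : ℕ) (v : Fin n → F),
      Q (((y ^ k : GL (Fin n) F) : Matrix (Fin n) (Fin n) F) *ᵥ v) = ((c ^ k : Fˣ) : F) * Q v := by
    intro k
    induction k with
    | zero =>
      intro v
      simp
    | succ k ih =>
      intro v
      rw [pow_succ, Units.val_mul, ← Matrix.mulVec_mulVec, ih, hc, pow_succ, Units.val_mul,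
        mul_assoc]
  -- `Q` is not identically zero
  have hne : ∃ v, Q v ≠ 0 := by
    by_contra hcon
    push Not at hcon
    have hv0 : (Pi.single (⟨0, hn⟩ : Fin n) (1 : F) : Fin n → F) ≠ 0 := by
      intro h
      have := congrFun h ⟨0, hn⟩
      simp at this
    obtain ⟨⟨x, hx⟩, -⟩ := hQ.nondegenerate _ hv0
    apply hx
    unfold QuadraticMap.polar
    rw [hcon, hcon, hcon]
    ring
  obtain ⟨v0, hv0⟩ := hne
  have hcr : c ^ r = 1 := by
    have h1 := hpow r v0
    rw [hyr, Units.val_one, Matrix.one_mulVec] at h1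
    have h2 : ((c ^ r : Fˣ) : F) = 1 := by
      have h3 : ((c ^ r : Fˣ) : F) * Q v0 = 1 * Q v0 := by rw [one_mul]; exact h1.symm
      exact mul_right_cancel₀ hv0 h3
    exact Units.ext h2
  have hcq : c ^ (Fintype.card F - 1) = 1 := by
    rw [← Fintype.card_units]
    exact pow_card_eq_one
  have hgcd : Nat.gcd r (Fintype.card F - 1) = 1 :=
    (Nat.Prime.coprime_iff_not_dvd hr).mpr hrq
  have hc1 : c = 1 := by
    have := pow_gcd_eq_one.mpr ⟨hcr, hcq⟩
    rw [hgcd, pow_one] at this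
    exact this
  intro v
  rw [hc v, hc1, Units.val_one, one_mul]

end Cfsg.Agent.Lib.Helper94.Oq
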