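import Mathlib
import Cfsg.Prelude.Def_GeometricClasses
import Cfsg.Agent.Lib.Helper50.OrthMax

/-!
# The similarity group of a non-degenerate quadratic form is maximal in `SL_n`, `n ≥ 6`, `q` odd

helper50's `OrthMax` (`n ≥ 11`) / helper65's `OrthMax9` (`n ≥ 9`) lowered to `n ≥ 6` (helper94, for
`S5798`).  Two changes:

* `nonsing_gen`: a non-singular vector in the common kernel of `k` arbitrary functionals and
  orthogonal to `j` mutually orthogonal non-singular vectors exists as soon as `2 k + j < n`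
  (each "nice" constraint only costs one dimension instead of two);
* `tv6`: the transvection is built with the auxiliary vector `b` chosen first (two constraints),
  then `d` (two constraints and one nice one), the missing orthogonality `B'(d, c) = 0` being
  replaced by a choice between two candidates for `d`.
-/

set_option autoImplicit false

namespace Cfsg.Agent.Lib.Helper94.OrthMax6

open Matrix Cfsg.Agent.Lib.Helper97 Cfsg.Agent.Lib.Helper50 QuadraticMap

section OrthMain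

variable {ι : Type} [Fintype ι] [DecidableEq ι] {F : Type*} [Field F]
variable {Q Q' : (ι → F) → F}

omit [Fintype ι] [DecidableEq ι] in
theorem polar_sum_left (hQ : Cfsg.Geo.IsNondegenerateQuadraticForm Q) {j : ℕ} (c : Fin j → F)
    (a : Fin j → ι → F) (y : ι → F) :
    polar Q (∑ i, c i • a i) y = ∑ i, c i * polar Q (a i) y := by
  have hb := hQ.polar_bilinear
  have h := map_sum (bil hb) (fun i => c i • a i) Finset.univ
  have h' := congrArg (fun f => f y) h
  simp only [LinearMap.sum_apply, map_smul, LinearMap.smul_apply, bil_apply, smul_eq_mul] at h'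
  exact h'

/-- A non-singular vector in the common kernel of `k` functionals and orthogonal to `j` mutually
orthogonal non-singular vectors, `2 k + j < n`. -/
theorem nonsing_gen (hQ : Cfsg.Geo.IsNondegenerateQuadraticForm Q) (h2 : (2 : F) ≠ 0)
    {k j : ℕ} (φ : Fin k → ι → F) (a : Fin j → ι → F) (ha : ∀ i, Q (a i) ≠ 0)
    (hab : ∀ i i', i ≠ i' → polar Q (a i) (a i') = 0)
    (hk : 2 * k + j < Fintype.card ι) :
    ∃ z, (∀ i, φ i ⬝ᵥ z = 0) ∧ (∀ i, polar Q z (a i) = 0) ∧ Q z ≠ 0 := by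
  classical
  by_contra hcon
  push Not at hcon
  have hb := hQ.polar_bilinear
  let L : (ι → F) →ₗ[F] (Fin k ⊕ Fin j → F) :=
    Matrix.mulVecLin (Matrix.of (Sum.elim φ (fun i => rho (polar Q) (a i))))
  have hLφ : ∀ z, z ∈ LinearMap.ker L → ∀ i, φ i ⬝ᵥ z = 0 := by
    intro z hz i
    exact congrFun (LinearMap.mem_ker.mp hz) (Sum.inl i)
  have hLa : ∀ z, z ∈ LinearMap.ker L → ∀ i, polar Q z (a i) = 0 := by
    intro z hz i
    have h : rho (polar Q) (a i) ⬝ᵥ z = 0 := congrFun (LinearMap.mem_ker.mp hz) (Sum.inr i)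
    rwa [rho_dot_s hQ] at h
  have hK : ∀ z, z ∈ LinearMap.ker L → Q z = 0 := fun z hz => hcon z (hLφ z hz) (hLa z hz)
  have hzero : ∀ x ∈ LinearMap.ker L, ∀ y ∈ LinearMap.ker L, polar Q x y = 0 := by
    intro x hx y hy
    rw [polar_def', hK _ ((LinearMap.ker L).add_mem hx hy), hK x hx, hK y hy]
    ring
  have hrk := LinearMap.finrank_range_add_finrank_ker L
  rw [Module.finrank_fintype_fun_eq_card] at hrk
  have hr : Module.finrank F (LinearMap.range L) ≤ k + j := by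
    have := Submodule.finrank_le (LinearMap.range L)
    rw [Module.finrank_fintype_fun_eq_card, Fintype.card_sum, Fintype.card_fin,
      Fintype.card_fin] at this
    exact this
  let A : (Fin j → F) →ₗ[F] (ι → F) :=
    { toFun := fun c => ∑ i, c i • a i
      map_add' := fun c c' => by
        simp only [Pi.add_apply, add_smul, Finset.sum_add_distrib]
      map_smul' := fun t c => by
        simp only [Pi.smul_apply, smul_eq_mul, mul_smul, Finset.smul_sum, RingHom.id_apply] }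
  let S : (LinearMap.ker L × (Fin j → F)) →ₗ[F] (ι → F) :=
    (LinearMap.ker L).subtype.coprod A
  have hS : ∀ p : LinearMap.ker L × (Fin j → F), S p = p.1.1 + ∑ i, p.2 i • a i := by
    intro p
    rfl
  have hpa : ∀ (c : Fin j → F) (i' : Fin j),
      polar Q (∑ i, c i • a i) (a i') = c i' * (2 * Q (a i')) := by
    intro c i'
    rw [polar_sum_left hQ, Finset.sum_eq_single i']
    · rw [b_self hQ]
    · intro i _ hi
      rw [hab i i' hi, mul_zero]
    · intro h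
      exact absurd (Finset.mem_univ i') h
  have hSinj : Function.Injective S := by
    rw [← LinearMap.ker_eq_bot, LinearMap.ker_eq_bot']
    intro p hp
    rw [hS] at hp
    have hc : p.2 = 0 := by
      funext i'
      have h1 : polar Q (p.1.1 + ∑ i, p.2 i • a i) (a i') = 0 := by
        rw [hp]
        exact b_zero_left hQ _
      rw [hb.add_left, hLa p.1.1 p.1.2 i', zero_add, hpa] at h1
      rcases mul_eq_zero.mp h1 with h | h
      · exact h
      · exact absurd h (mul_ne_zero h2 (ha i'))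
    have hw : p.1 = 0 := by
      apply Subtype.ext
      rw [hc] at hp
      simpa using hp
    exact Prod.ext hw hc
  have hSr := LinearMap.finrank_range_of_inj hSinj
  rw [Module.finrank_prod, Module.finrank_fintype_fun_eq_card, Fintype.card_fin] at hSr
  have hann := Subspace.finrank_add_finrank_dualAnnihilator_eq (LinearMap.range S)
  rw [Module.finrank_fintype_fun_eq_card] at hann
  let T : LinearMap.ker L →ₗ[F] Module.Dual F (ι → F) :=
    ((bil hb).flip).domRestrict (LinearMap.ker L)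
  have hT : ∀ w : LinearMap.ker L, T w ∈ (LinearMap.range S).dualAnnihilator := by
    intro w
    rw [Submodule.mem_dualAnnihilator]
    intro y hy
    obtain ⟨p, rfl⟩ := LinearMap.mem_range.mp hy
    have e : T w (S p) = polar Q (S p) w.1 := rfl
    rw [e, hS, hb.add_left, hzero p.1.1 p.1.2 w.1 w.2, zero_add, polar_sum_left hQ]
    apply Finset.sum_eq_zero
    intro i _
    rw [b_symm Q (a i) w.1, hLa w.1 w.2 i, mul_zero]
  have hinj : Function.Injective (T.codRestrict _ hT) := by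
    intro w w' h
    have h1 : T w = T w' := congrArg Subtype.val h
    apply Subtype.ext
    by_contra hne
    have h0 : w.1 - w'.1 ≠ 0 := sub_ne_zero.mpr hne
    obtain ⟨x, hx⟩ := (hQ.nondegenerate _ h0).1
    apply hx
    have h2 : T w x = T w' x := by rw [h1]
    have h3 : polar Q x w.1 = polar Q x w'.1 := h2
    rw [b_sub_right hQ, h3, sub_self]
  have hle := LinearMap.finrank_le_finrank_of_injective hinj
  omega

omit [DecidableEq ι] in
/-- A non-singular vector in the common kernel of two functionals (the other three are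
ignored; the shape is that of helper50's `exists_nonsing5`). -/
theorem ns5 (hQ : Cfsg.Geo.IsNondegenerateQuadraticForm Q)
    (hn : 6 ≤ Fintype.card ι) (φ1 φ2 _φ3 _φ4 _φ5 : ι → F) :
    ∃ z, φ1 ⬝ᵥ z = 0 ∧ φ2 ⬝ᵥ z = 0 ∧ True ∧ True ∧ True ∧ Q z ≠ 0 := by
  obtain ⟨z, hz, hq⟩ := exists_nonsing hQ ![φ1, φ2] (by omega)
  exact ⟨z, hz 0, hz 1, trivial, trivial, trivial, hq⟩

/-- Two arbitrary functionals and one non-singular vector. -/
theorem ns3a (hQ : Cfsg.Geo.IsNondegenerateQuadraticForm Q) (h2 : (2 : F) ≠ 0)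
    (hn : 6 ≤ Fintype.card ι) (φ1 φ2 : ι → F) (a : ι → F) (ha : Q a ≠ 0) :
    ∃ z, φ1 ⬝ᵥ z = 0 ∧ φ2 ⬝ᵥ z = 0 ∧ polar Q z a = 0 ∧ Q z ≠ 0 := by
  obtain ⟨z, hz, hza, hq⟩ := nonsing_gen hQ h2 ![φ1, φ2] ![a]
    (by
      intro i
      fin_cases i
      exact ha)
    (by
      intro i i' hii
      exact absurd (Subsingleton.elim i i') hii)
    (by omega)
  exact ⟨z, hz 0, hz 1, hza 0, hq⟩

/-- Three mutually orthogonal non-singular vectors. -/
theorem ns3n (hQ : Cfsg.Geo.IsNondegenerateQuadraticForm Q) (h2 : (2 : F) ≠ 0)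
    (hn : 6 ≤ Fintype.card ι) (a1 a2 a3 : ι → F) (h1 : Q a1 ≠ 0) (h2' : Q a2 ≠ 0)
    (h3 : Q a3 ≠ 0) (h12 : polar Q a1 a2 = 0) (h13 : polar Q a1 a3 = 0)
    (h23 : polar Q a2 a3 = 0) :
    ∃ z, polar Q z a1 = 0 ∧ polar Q z a2 = 0 ∧ polar Q z a3 = 0 ∧ Q z ≠ 0 := by
  obtain ⟨z, -, hza, hq⟩ := nonsing_gen hQ h2 (k := 0) (fun i => Fin.elim0 i) ![a1, a2, a3]
    (by
      intro i
      fin_cases i
      · exact h1
      · exact h2'
      · exact h3)
    (by
      intro i i' hii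
      fin_cases i <;> fin_cases i'
      · exact absurd rfl hii
      · exact h12
      · exact h13
      · exact (b_symm Q a2 a1).trans h12
      · exact absurd rfl hii
      · exact h23
      · exact (b_symm Q a3 a1).trans h13
      · exact (b_symm Q a3 a2).trans h23
      · exact absurd rfl hii)
    (by omega)
  exact ⟨z, hza 0, hza 1, hza 2, hq⟩

/-- Four mutually orthogonal non-singular vectors. -/
theorem ns4n (hQ : Cfsg.Geo.IsNondegenerateQuadraticForm Q) (h2 : (2 : F) ≠ 0)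
    (hn : 6 ≤ Fintype.card ι) (a1 a2 a3 a4 : ι → F) (h1 : Q a1 ≠ 0) (h2' : Q a2 ≠ 0)
    (h3 : Q a3 ≠ 0) (h4 : Q a4 ≠ 0) (h12 : polar Q a1 a2 = 0) (h13 : polar Q a1 a3 = 0)
    (h14 : polar Q a1 a4 = 0) (h23 : polar Q a2 a3 = 0) (h24 : polar Q a2 a4 = 0)
    (h34 : polar Q a3 a4 = 0) :
    ∃ z, polar Q z a1 = 0 ∧ polar Q z a2 = 0 ∧ polar Q z a3 = 0 ∧ polar Q z a4 = 0 ∧
      Q z ≠ 0 := by
  obtain ⟨z, -, hza, hq⟩ := nonsing_gen hQ h2 (k := 0) (fun i => Fin.elim0 i)
    ![a1, a2, a3, a4]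
    (by
      intro i
      fin_cases i
      · exact h1
      · exact h2'
      · exact h3
      · exact h4)
    (by
      intro i i' hii
      fin_cases i <;> fin_cases i'
      · exact absurd rfl hii
      · exact h12
      · exact h13
      · exact h14
      · exact (b_symm Q a2 a1).trans h12
      · exact absurd rfl hii
      · exact h23
      · exact h24
      · exact (b_symm Q a3 a1).trans h13
      · exact (b_symm Q a3 a2).trans h23
      · exact absurd rfl hii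
      · exact h34
      · exact (b_symm Q a4 a1).trans h14
      · exact (b_symm Q a4 a2).trans h24
      · exact (b_symm Q a4 a3).trans h34
      · exact absurd rfl hii)
    (by omega)
  exact ⟨z, hza 0, hza 1, hza 2, hza 3, hq⟩

/-- A vector of prescribed norm orthogonal to three mutually orthogonal non-singular vectors. -/
theorem norm3n [Fintype F] (hQ : Cfsg.Geo.IsNondegenerateQuadraticForm Q)
    (hodd : Odd (Fintype.card F)) (hn : 6 ≤ Fintype.card ι) (a1 a2 a3 : ι → F)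
    (h1 : Q a1 ≠ 0) (h2' : Q a2 ≠ 0) (h3 : Q a3 ≠ 0) (h12 : polar Q a1 a2 = 0)
    (h13 : polar Q a1 a3 = 0) (h23 : polar Q a2 a3 = 0) (c : F) :
    ∃ z, polar Q z a1 = 0 ∧ polar Q z a2 = 0 ∧ polar Q z a3 = 0 ∧ Q z = c := by
  have h2 := two_ne_zero_of_odd hodd
  have hb := hQ.polar_bilinear
  obtain ⟨d₁, h11, h12', h13', hd₁⟩ := ns3n hQ h2 hn a1 a2 a3 h1 h2' h3 h12 h13 h23
  obtain ⟨d₂, h21, h22, h23', h24, hd₂⟩ := ns4n hQ h2 hn a1 a2 a3 d₁ h1 h2' h3 hd₁ h12 h13
    ((b_symm Q a1 d₁).trans h11) h23 ((b_symm Q a2 d₁).trans h12') ((b_symm Q a3 d₁).trans h13')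
  obtain ⟨x, y, hxy⟩ := exists_sq_sum hodd (Q d₁) (Q d₂) c hd₁ hd₂
  refine ⟨x • d₁ + y • d₂, ?_, ?_, ?_, ?_⟩
  · rw [hb.add_left, hb.smul_left, hb.smul_left, h11, h21, mul_zero, mul_zero, add_zero]
  · rw [hb.add_left, hb.smul_left, hb.smul_left, h12', h22, mul_zero, mul_zero, add_zero]
  · rw [hb.add_left, hb.smul_left, hb.smul_left, h13', h23', mul_zero, mul_zero, add_zero]
  · rw [q_add Q, hQ.smul, hQ.smul, hQ.polar_bilinear.smul_left, hQ.polar_bilinear.smul_right,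
      b_symm Q d₁ d₂, h24]
    linear_combination hxy

omit [DecidableEq ι] in
/-- A non-zero vector in the common kernel of four functionals. -/
theorem ker4 (hn : 6 ≤ Fintype.card ι) (φ1 φ2 φ3 φ4 : ι → F) :
    ∃ u : ι → F, u ≠ 0 ∧ φ1 ⬝ᵥ u = 0 ∧ φ2 ⬝ᵥ u = 0 ∧ φ3 ⬝ᵥ u = 0 ∧ φ4 ⬝ᵥ u = 0 := by
  classical
  let L : (ι → F) →ₗ[F] (Fin 4 → F) := Matrix.mulVecLin (Matrix.of ![φ1, φ2, φ3, φ4])
  have hlt : Module.finrank F (Fin 4 → F) < Module.finrank F (ι → F) := by
    rw [Module.finrank_fintype_fun_eq_card, Module.finrank_fintype_fun_eq_card, Fintype.card_fin]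
    omega
  obtain ⟨u, hu, hu0⟩ := Submodule.exists_mem_ne_zero_of_ne_bot
    (LinearMap.ker_ne_bot_of_finrank_lt (f := L) hlt)
  have h : ∀ i : Fin 4, (![φ1, φ2, φ3, φ4] i) ⬝ᵥ u = 0 := fun i =>
    congrFun (LinearMap.mem_ker.mp hu) i
  exact ⟨u, hu0, h 0, h 1, h 2, h 3⟩

/-- If `Q'` is not a multiple of `Q`, some `Q`-non-singular `c` has `B'(·, c)` not proportional
to `B(·, c)`. -/
theorem bad6 (hQ : Cfsg.Geo.IsNondegenerateQuadraticForm Q)
    (hQ' : Cfsg.Geo.IsNondegenerateQuadraticForm Q') (h2 : (2 : F) ≠ 0)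
    (hn : 6 ≤ Fintype.card ι) (hne : ¬ ∃ l : F, ∀ x, Q' x = l * Q x) :
    ∃ c, Q c ≠ 0 ∧ ¬ ∃ l : F, ∀ x, polar Q' x c = l * polar Q x c := by
  by_contra hcon
  push Not at hcon
  obtain ⟨c₁, -, -, -, -, -, hc₁⟩ := ns5 hQ hn 0 0 0 0 0
  obtain ⟨l₁, hl₁⟩ := hcon c₁ hc₁
  have hb := hQ.polar_bilinear
  have hb' := hQ'.polar_bilinear
  have key : ∀ c₂ w : ι → F, Q c₂ ≠ 0 → polar Q c₁ c₂ = 0 → polar Q w c₁ = 0 →
      polar Q w c₂ = 0 → polar Q' c₁ w = 0 → polar Q' c₂ w = 0 → Q (c₁ + c₂ + w) ≠ 0 →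
      ∀ l₂ : F, (∀ x, polar Q' x c₂ = l₂ * polar Q x c₂) → l₂ = l₁ := by
    intro c₂ w hc₂ h12 hw1 hw2 hw1' hw2' he l₂ hl₂
    obtain ⟨le, hle⟩ := hcon _ he
    have e1 := hle c₁
    rw [hb'.add_right, hb'.add_right, hl₁ c₁, hl₂ c₁, hw1', hb.add_right, hb.add_right, h12,
      b_symm Q c₁ w, hw1, b_self hQ] at e1
    have e2 := hle c₂
    rw [hb'.add_right, hb'.add_right, hl₁ c₂, hl₂ c₂, hw2', hb.add_right, hb.add_right,
      b_symm Q c₂ c₁, h12, b_symm Q c₂ w, hw2, b_self hQ] at e2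
    have h3 : le = l₁ := by
      have h : (le - l₁) * (2 * Q c₁) = 0 := by linear_combination -e1
      rcases mul_eq_zero.mp h with h | h
      · exact sub_eq_zero.mp h
      · exact absurd h (mul_ne_zero h2 hc₁)
    have h4 : le = l₂ := by
      have h : (le - l₂) * (2 * Q c₂) = 0 := by linear_combination -e2
      rcases mul_eq_zero.mp h with h | h
      · exact sub_eq_zero.mp h
      · exact absurd h (mul_ne_zero h2 hc₂)
    rw [← h4, h3]
  have hall : ∀ c₂ : ι → F, Q c₂ ≠ 0 → ∀ x, polar Q' x c₂ = l₁ * polar Q x c₂ := by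
    intro c₂ hc₂
    obtain ⟨l₂, hl₂⟩ := hcon c₂ hc₂
    suffices h : l₂ = l₁ by rw [← h]; exact hl₂
    by_cases h12 : polar Q c₁ c₂ = 0
    · by_cases hs : Q c₁ + Q c₂ = 0
      · obtain ⟨c₃, h31, h32, -, -, -, hc₃⟩ :=
          ns5 hQ hn (rho (polar Q) c₁) (rho (polar Q) c₂) 0 0 0
        rw [rho_dot_s hQ] at h31 h32
        obtain ⟨l₃, hl₃⟩ := hcon c₃ hc₃
        apply key c₂ c₃ hc₂ h12 h31 h32 _ _ _ l₂ hl₂
        · rw [hl₃, b_symm Q c₁ c₃, h31, mul_zero]
        · rw [hl₃, b_symm Q c₂ c₃, h32, mul_zero]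
        · rw [q_add Q, q_add Q, h12, hb.add_left, b_symm Q c₁ c₃, h31, b_symm Q c₂ c₃, h32, hs]
          simpa using hc₃
      · apply key c₂ 0 hc₂ h12 (b_zero_left hQ _) (b_zero_left hQ _) (b_zero_right hQ' _)
          (b_zero_right hQ' _) _ l₂ hl₂
        rw [add_zero, q_add Q, h12, add_zero]
        exact hs
    · have e1 := hl₂ c₁
      have e2 := hl₁ c₂
      rw [b_symm Q' c₂ c₁, e1, b_symm Q c₂ c₁] at e2
      exact mul_right_cancel₀ h12 e2
  have hall2 : ∀ c x : ι → F, polar Q' x c = l₁ * polar Q x c := by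
    intro c x
    by_cases hc : Q c = 0
    · obtain ⟨d, hd1, -, -, -, -, hd⟩ := ns5 hQ hn (rho (polar Q) c) 0 0 0 0
      rw [rho_dot_s hQ] at hd1
      have hcd : Q (c + d) ≠ 0 := by
        rw [q_add Q, hc, b_symm Q c d, hd1, zero_add, add_zero]
        exact hd
      have e1 := hall (c + d) hcd x
      have e2 := hall d hd x
      rw [hb'.add_right, hb.add_right, e2] at e1
      linear_combination e1
    · exact hall c hc x
  apply hne
  refine ⟨l₁, fun x => ?_⟩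
  have e := hall2 x x
  rw [b_self hQ', b_self hQ] at e
  have h : 2 * (Q' x - l₁ * Q x) = 0 := by linear_combination e
  rcases mul_eq_zero.mp h with h | h
  · exact absurd h h2
  · exact sub_eq_zero.mp h

/-- A transvection in `M`. -/
theorem tv6 (hQ : Cfsg.Geo.IsNondegenerateQuadraticForm Q)
    (hQ' : Cfsg.Geo.IsNondegenerateQuadraticForm Q') (h2 : (2 : F) ≠ 0)
    (hn : 6 ≤ Fintype.card ι) {M : Subgroup (GL ι F)}
    (hM : Cfsg.Geo.quadSimilarityGroup Q ⊓ Cfsg.Geo.specialLinear ι F ≤ M)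
    (hM' : Cfsg.Geo.quadSimilarityGroup Q' ⊓ Cfsg.Geo.specialLinear ι F ≤ M)
    (hne : ¬ ∃ l : F, ∀ x, Q' x = l * Q x) :
    ∃ a ω x : ι → F, a ≠ 0 ∧ TM M a (rho (polar Q) ω) ∧ polar Q x a = 0 ∧ Q x ≠ 0 ∧
      polar Q ω x ≠ 0 := by
  have hb := hQ.polar_bilinear
  have hb' := hQ'.polar_bilinear
  obtain ⟨c, hc, hbad⟩ := bad6 hQ hQ' h2 hn hne
  obtain ⟨b, hb1, hb3, -, -, -, hbq⟩ := ns5 hQ' hn (rho (polar Q) c) (rho (polar Q') c) 0 0 0
  rw [rho_dot_s hQ] at hb1
  rw [rho_dot_s hQ'] at hb3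
  have hcb' : polar Q' c b = 0 := by rw [b_symm Q' c b]; exact hb3
  obtain ⟨d₀, hd01, hd02, hd0c, hd0⟩ :=
    ns3a hQ h2 hn (rho (polar Q) b) (rho (polar Q') b) c hc
  rw [rho_dot_s hQ] at hd01
  rw [rho_dot_s hQ'] at hd02
  have hd : ∃ d, Q d ≠ 0 ∧ polar Q d c = 0 ∧ polar Q d b = 0 ∧ polar Q' d b = 0 ∧
      ¬ ∃ l m : F, ∀ x, polar Q' x c = l * polar Q x c + m * polar Q x d := by
    by_cases h0 : ∃ l m : F, ∀ x, polar Q' x c = l * polar Q x c + m * polar Q x d₀
    · obtain ⟨l, m, hlm⟩ := h0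
      have hm : m ≠ 0 := by
        intro hm0
        apply hbad
        refine ⟨l, fun x => ?_⟩
        rw [hlm x, hm0, zero_mul, add_zero]
      obtain ⟨u, hu0, hu1, hu2, hu3, hu4⟩ := ker4 hn (rho (polar Q) c) (rho (polar Q) b)
        (rho (polar Q') b) (rho (polar Q) d₀)
      rw [rho_dot_s hQ] at hu1 hu2 hu4
      rw [rho_dot_s hQ'] at hu3
      have e1 := hlm c
      rw [b_symm Q c d₀, hd0c, mul_zero, add_zero, b_self hQ] at e1
      have e2 := hlm d₀
      rw [hd0c, mul_zero, zero_add, b_self hQ] at e2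
      by_cases hqu : Q u = 0
      · refine ⟨d₀ + u, ?_, ?_, ?_, ?_, ?_⟩
        · rw [q_add Q, hqu, b_symm Q d₀ u, hu4, add_zero, add_zero]
          exact hd0
        · rw [hb.add_left, hd0c, hu1, add_zero]
        · rw [hb.add_left, hd01, hu2, add_zero]
        · rw [hb'.add_left, hd02, hu3, add_zero]
        · rintro ⟨l', m', hlm'⟩
          have e1' := hlm' c
          rw [hb.add_right, b_symm Q c d₀, hd0c, b_symm Q c u, hu1, add_zero, mul_zero,
            add_zero, b_self hQ] at e1'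
          have hll : l = l' := by
            have h : (l - l') * (2 * Q c) = 0 := by linear_combination e1' - e1
            rcases mul_eq_zero.mp h with h | h
            · exact sub_eq_zero.mp h
            · exact absurd h (mul_ne_zero h2 hc)
          have e2' := hlm' d₀
          rw [hd0c, mul_zero, zero_add, hb.add_right, b_symm Q d₀ u, hu4, add_zero,
            b_self hQ] at e2'
          have hmm : m = m' := by
            have h : (m - m') * (2 * Q d₀) = 0 := by linear_combination e2' - e2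
            rcases mul_eq_zero.mp h with h | h
            · exact sub_eq_zero.mp h
            · exact absurd h (mul_ne_zero h2 hd0)
          apply hu0
          apply b_eq_zero_of_forall hQ
          intro x
          have e3 := hlm x
          have e3' := hlm' x
          rw [hb.add_right, ← hll, ← hmm] at e3'
          have h : m * polar Q x u = 0 := by linear_combination e3 - e3'
          rcases mul_eq_zero.mp h with h | h
          · exact absurd h hm
          · exact h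
      · refine ⟨u, hqu, hu1, hu2, hu3, ?_⟩
        rintro ⟨l', m', hlm'⟩
        have e2' := hlm' d₀
        rw [hd0c, mul_zero, zero_add, b_symm Q d₀ u, hu4, mul_zero] at e2'
        have h : m * (2 * Q d₀) = 0 := by rw [← e2, e2']
        rcases mul_eq_zero.mp h with h | h
        · exact hm h
        · exact absurd h (mul_ne_zero h2 hd0)
    · exact ⟨d₀, hd0, hd0c, hd01, hd02, h0⟩
  obtain ⟨d, hd, hdc, hdb, hdb', hdbad⟩ := hd
  have hcd : polar Q c d = 0 := by rw [b_symm Q c d]; exact hdc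
  have hbd : polar Q b d = 0 := by rw [b_symm Q b d]; exact hdb
  have ha₁ : ∃ a₁, polar Q a₁ c = 0 ∧ polar Q a₁ d = 0 ∧ polar Q' a₁ b = 0 ∧
      polar Q' a₁ c ≠ 0 := by
    by_contra hcon
    push Not at hcon
    apply hdbad
    refine ⟨Q' c / Q c, polar Q' d c / (2 * Q d), fun x => ?_⟩
    have h1 := hcon (x - (polar Q x c / (2 * Q c)) • c - (polar Q x d / (2 * Q d)) • d -
      (polar Q' x b / (2 * Q' b)) • b) ?_ ?_ ?_
    · rw [form_sub_smul_left hb', form_sub_smul_left hb', form_sub_smul_left hb', b_self hQ',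
        hb3, mul_zero, sub_zero] at h1
      have h3 : polar Q' x c = polar Q x c / (2 * Q c) * (2 * Q' c) +
          polar Q x d / (2 * Q d) * polar Q' d c := by linear_combination h1
      rw [h3]
      field_simp
    · rw [form_sub_smul_left hb, form_sub_smul_left hb, form_sub_smul_left hb, b_self hQ,
        hdc, hb1, mul_zero, mul_zero, sub_zero, sub_zero,
        div_mul_cancel₀ _ (mul_ne_zero h2 hc), sub_self]
    · rw [form_sub_smul_left hb, form_sub_smul_left hb, form_sub_smul_left hb, b_self hQ,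
        hcd, hbd, mul_zero, mul_zero, sub_zero, sub_zero,
        div_mul_cancel₀ _ (mul_ne_zero h2 hd), sub_self]
    · rw [form_sub_smul_left hb', form_sub_smul_left hb', form_sub_smul_left hb', b_self hQ',
        hcb', hdb', mul_zero, mul_zero, sub_zero, sub_zero,
        div_mul_cancel₀ _ (mul_ne_zero h2 hbq), sub_self]
  obtain ⟨a₁, ha₁c, ha₁d, ha₁b, ha₁c'⟩ := ha₁
  have ha : ∃ a, polar Q a c = 0 ∧ polar Q a d = 0 ∧ polar Q' a b = 0 ∧ polar Q' a c ≠ 0 ∧
      Q' a ≠ 0 := by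
    by_cases h0 : Q' a₁ = 0
    · obtain ⟨w, hw1, hw2, hw3, hw⟩ :=
        ns3a hQ' h2 hn (rho (polar Q) c) (rho (polar Q) d) b hbq
      rw [rho_dot_s hQ] at hw1 hw2
      by_cases hwc : polar Q' w c = 0
      · by_cases hs : polar Q' a₁ w + Q' w = 0
        · refine ⟨a₁ - w, ?_, ?_, ?_, ?_, ?_⟩
          · rw [b_sub_left hQ, ha₁c, hw1, sub_zero]
          · rw [b_sub_left hQ, ha₁d, hw2, sub_zero]
          · rw [b_sub_left hQ', ha₁b, hw3, sub_zero]
          · rw [b_sub_left hQ', hwc, sub_zero]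
            exact ha₁c'
          · rw [q_sub hQ', h0]
            intro h
            apply hw
            have h3 : 2 * Q' w = 0 := by linear_combination hs + h
            rcases mul_eq_zero.mp h3 with h' | h'
            · exact absurd h' h2
            · exact h'
        · refine ⟨a₁ + w, ?_, ?_, ?_, ?_, ?_⟩
          · rw [hb.add_left, ha₁c, hw1, add_zero]
          · rw [hb.add_left, ha₁d, hw2, add_zero]
          · rw [hb'.add_left, ha₁b, hw3, add_zero]
          · rw [hb'.add_left, hwc, add_zero]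
            exact ha₁c'
          · rw [q_add Q', h0, zero_add]
            intro h
            apply hs
            linear_combination h
      · exact ⟨w, hw1, hw2, hw3, hwc, hw⟩
    · exact ⟨a₁, ha₁c, ha₁d, ha₁b, ha₁c', h0⟩
  obtain ⟨a, hac, had, hab, hac', ha⟩ := ha
  have hT := comm_TM hQ hQ' hM hM' c d a b hc hd ha hbq hcd hab hac had hb1 hbd hcb' hdb'
  obtain ⟨κc, hκc⟩ : ∃ κ : F, κ = -(Q' a)⁻¹ * polar Q' c a * -(Q c)⁻¹ := ⟨_, rfl⟩
  obtain ⟨κd, hκd⟩ : ∃ κ : F, κ = -(Q' a)⁻¹ * polar Q' d a * -(Q d)⁻¹ := ⟨_, rfl⟩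
  have e : (-(Q' a)⁻¹ * polar Q' c a) • (-(Q c)⁻¹ • rho (polar Q) c) +
      (-(Q' a)⁻¹ * polar Q' d a) • (-(Q d)⁻¹ • rho (polar Q) d) =
      rho (polar Q) (κc • c + κd • d) := by
    rw [rho_add hb, rho_smul hb, rho_smul hb, smul_smul, smul_smul, hκc, hκd]
  rw [e] at hT
  have hκc0 : κc ≠ 0 := by
    rw [hκc]
    have h1 : polar Q' c a ≠ 0 := by rw [b_symm Q' c a]; exact hac'
    exact mul_ne_zero (mul_ne_zero (neg_ne_zero.mpr (inv_ne_zero ha)) h1)
      (neg_ne_zero.mpr (inv_ne_zero hc))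
  refine ⟨a, κc • c + κd • d, c, ?_, hT, ?_, hc, ?_⟩
  · intro h0
    apply ha
    rw [h0]
    exact q_zero hQ'
  · rw [b_symm Q c a]
    exact hac
  · rw [hb.add_left, hb.smul_left, hb.smul_left, b_self hQ, hdc, mul_zero, add_zero]
    exact mul_ne_zero hκc0 (mul_ne_zero h2 hc)

/-- Making the functional non-singular. -/
theorem nsfun6 (hQ : Cfsg.Geo.IsNondegenerateQuadraticForm Q) (h2 : (2 : F) ≠ 0)
    (hn : 6 ≤ Fintype.card ι) {M : Subgroup (GL ι F)}
    (hM : Cfsg.Geo.quadSimilarityGroup Q ⊓ Cfsg.Geo.specialLinear ι F ≤ M) (v ω x : ι → F)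
    (hTM : TM M v (rho (polar Q) ω)) (hxv : polar Q x v = 0) (hx : Q x ≠ 0)
    (hωx : polar Q ω x ≠ 0) : ∃ ω', TM M v (rho (polar Q) ω') ∧ Q ω' ≠ 0 := by
  have hb := hQ.polar_bilinear
  obtain ⟨y, hy1, hy2, hy3, hy⟩ := ns3a hQ h2 hn (rho (polar Q) v) (rho (polar Q) ω) x hx
  rw [rho_dot_s hQ] at hy1 hy2
  have hh := hM (Rf2_mem hQ x y hx hy)
  have t1 := TM_conj hTM hh
  have hfix : ((RfG hQ x hx * RfG hQ y hy : GL ι F) : Matrix ι ι F) *ᵥ v = v := by
    rw [Rf2_val_mulVec, Rf_fix hQ y v (by rw [b_symm Q v y]; exact hy1),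
      Rf_fix hQ x v (by rw [b_symm Q v x]; exact hxv)]
  rw [gl_inv_fix _ v hfix, rho_vecMul_Rf2 hQ, Rf_mulVec hQ x ω] at t1
  have hfix2 : Rf Q y *ᵥ (ω - (polar Q ω x / Q x) • x) = ω - (polar Q ω x / Q x) • x := by
    apply Rf_fix hQ
    rw [form_sub_smul_left hb, b_symm Q ω y, hy2, b_symm Q x y, hy3, mul_zero, sub_zero]
  rw [hfix2, rho_sub_smul_s hQ] at t1
  have t2 := TM_sub hTM t1
  rw [sub_sub_cancel, ← rho_smul hb] at t2
  refine ⟨_, t2, ?_⟩
  rw [hQ.smul]
  exact mul_ne_zero (pow_ne_zero 2 (div_ne_zero hωx hx)) hx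

/-- Making the centre non-singular. -/
theorem nscentre6 (hQ : Cfsg.Geo.IsNondegenerateQuadraticForm Q) (h2 : (2 : F) ≠ 0)
    (hn : 6 ≤ Fintype.card ι) {M : Subgroup (GL ι F)}
    (hM : Cfsg.Geo.quadSimilarityGroup Q ⊓ Cfsg.Geo.specialLinear ι F ≤ M) (v ω : ι → F)
    (hv : v ≠ 0) (hTM : TM M v (rho (polar Q) ω)) (hω : Q ω ≠ 0) :
    ∃ v', TM M v' (rho (polar Q) ω) ∧ Q v' ≠ 0 := by
  by_cases hqv : Q v = 0
  swap
  · exact ⟨v, hTM, hqv⟩
  have hb := hQ.polar_bilinear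
  have hvω : polar Q v ω = 0 := by
    have := hTM.1
    rwa [rho_dot_s hQ] at this
  obtain ⟨x₀, hx₀⟩ := (hQ.nondegenerate v hv).1
  have hx₁ : ∃ x₁, polar Q x₁ ω = 0 ∧ polar Q x₁ v ≠ 0 := by
    refine ⟨x₀ - (polar Q x₀ ω / (2 * Q ω)) • ω, ?_, ?_⟩
    · rw [form_sub_smul_left hb, b_self hQ, div_mul_cancel₀ _ (mul_ne_zero h2 hω), sub_self]
    · rw [form_sub_smul_left hb, b_symm Q ω v, hvω, mul_zero, sub_zero]
      exact hx₀
  obtain ⟨x₁, hx₁ω, hx₁v⟩ := hx₁
  have hx : ∃ x, polar Q x ω = 0 ∧ polar Q x v ≠ 0 ∧ Q x ≠ 0 := by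
    by_cases h0 : Q x₁ = 0
    · obtain ⟨w, hw2, hw3, hw1, hw⟩ :=
        ns3a hQ h2 hn (rho (polar Q) v) (rho (polar Q) x₁) ω hω
      rw [rho_dot_s hQ] at hw2 hw3
      refine ⟨x₁ + w, ?_, ?_, ?_⟩
      · rw [hb.add_left, hx₁ω, hw1, add_zero]
      · rw [hb.add_left, hw2, add_zero]
        exact hx₁v
      · rw [q_add Q, h0, b_symm Q x₁ w, hw3, zero_add, add_zero]
        exact hw
    · exact ⟨x₁, hx₁ω, hx₁v, h0⟩
  obtain ⟨x, hxω, hxv, hx⟩ := hx
  obtain ⟨y, hy2, hy3, hy1, hy⟩ := ns3a hQ h2 hn (rho (polar Q) v) (rho (polar Q) x) ω hω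
  rw [rho_dot_s hQ] at hy2 hy3
  have hh := M.inv_mem (hM (Rf2_mem hQ x y hx hy))
  have t1 := TM_conj hTM hh
  rw [inv_inv] at t1
  have hψ : rho (polar Q) ω ᵥ* ((RfG hQ x hx * RfG hQ y hy : GL ι F) : Matrix ι ι F) =
      rho (polar Q) ω := by
    rw [rho_vecMul_Rf2 hQ, Rf_fix hQ x ω (by rw [b_symm Q ω x]; exact hxω),
      Rf_fix hQ y ω (by rw [b_symm Q ω y]; exact hy1)]
  rw [vecMul_inv_fix _ _ hψ, Rf2_val_mulVec, Rf_fix hQ y v (by rw [b_symm Q v y]; exact hy2),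
    Rf_mulVec hQ x v] at t1
  have t2 := TM_add_centre hTM t1
  refine ⟨_, t2, ?_⟩
  have hvx : polar Q v x ≠ 0 := by rw [b_symm Q v x]; exact hxv
  have e : Q (v + (v - (polar Q v x / Q x) • x)) = -(polar Q v x) ^ 2 / Q x := by
    rw [q_add Q, q_sub hQ, form_sub_smul_right hb, hb.smul_right, hQ.smul, b_self hQ, hqv]
    field_simp
    ring
  rw [e]
  exact div_ne_zero (neg_ne_zero.mpr (pow_ne_zero 2 hvx)) hx

section fin

variable [Fintype F]

/-- A non-singular centre of a transvection of `M` with non-singular functional is a centre of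
all its transvections. -/
theorem centreTM6 (hQ : Cfsg.Geo.IsNondegenerateQuadraticForm Q)
    (hodd : Odd (Fintype.card F)) (hn : 6 ≤ Fintype.card ι) {M : Subgroup (GL ι F)}
    (hM : Cfsg.Geo.quadSimilarityGroup Q ⊓ Cfsg.Geo.specialLinear ι F ≤ M) (v ω : ι → F)
    (hTM : TM M v (rho (polar Q) ω)) (hv : Q v ≠ 0) (hω : Q ω ≠ 0) : v ∈ centres M := by
  have hb := hQ.polar_bilinear
  have h2 := two_ne_zero_of_odd hodd
  have C0 : ∀ ω₁ : ι → F, TM M v (rho (polar Q) ω₁) → Q ω₁ ≠ 0 → ∀ u : ι → F, Q u = 0 →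
      polar Q u v = 0 → polar Q u ω₁ = 0 → ∀ s : F, TM M v (rho (polar Q) ((2 * s) • u)) := by
    intro ω₁ hT₁ hω₁ u hu huv huω s
    have hvω₁ : polar Q v ω₁ = 0 := by
      have := hT₁.1
      rwa [rho_dot_s hQ] at this
    have hQy : Q (ω₁ + s • u) = Q ω₁ := by
      rw [q_expand hQ, hu, b_symm Q ω₁ u, huω, mul_zero, mul_zero, add_zero, add_zero]
    have hy : Q (ω₁ + s • u) ≠ 0 := by rw [hQy]; exact hω₁
    have hpy : polar Q ω₁ (ω₁ + s • u) = 2 * Q ω₁ := by
      rw [hb.add_right, hb.smul_right, b_self hQ, b_symm Q ω₁ u, huω, mul_zero, add_zero]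
    have hh := hM (Rf2_mem hQ ω₁ (ω₁ + s • u) hω₁ hy)
    have t1 := TM_conj hT₁ hh
    have hfix : ((RfG hQ ω₁ hω₁ * RfG hQ (ω₁ + s • u) hy : GL ι F) : Matrix ι ι F) *ᵥ v = v := by
      rw [Rf2_val_mulVec, Rf_fix hQ _ v (by
        rw [hb.add_right, hb.smul_right, hvω₁, b_symm Q v u, huv, mul_zero, add_zero]),
        Rf_fix hQ ω₁ v hvω₁]
    rw [gl_inv_fix _ v hfix, rho_vecMul_Rf2 hQ] at t1
    have e : Rf Q (ω₁ + s • u) *ᵥ (Rf Q ω₁ *ᵥ ω₁) = ω₁ + (2 * s) • u := by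
      have h1 : 2 * Q ω₁ / Q ω₁ = 2 := by field_simp
      have h3 : (2 * Q ω₁ - 2 * (2 * Q ω₁)) / Q ω₁ = -2 := by
        field_simp
        ring
      rw [Rf_mulVec hQ ω₁ ω₁, b_self hQ, h1, Rf_mulVec hQ, form_sub_smul_left hb, hpy, hQy, h3]
      module
    rw [e] at t1
    have t2 := TM_sub t1 hT₁
    rwa [rho_add hb, add_sub_cancel_left] at t2
  have C1 : ∀ ω₁ : ι → F, TM M v (rho (polar Q) ω₁) → Q ω₁ ≠ 0 → ∀ u : ι → F, Q u = 0 →
      polar Q u v = 0 → polar Q u ω₁ = 0 → ∀ t : F, TM M v (rho (polar Q) (t • u)) := by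
    intro ω₁ hT₁ hω₁ u hu huv huω t
    have h := C0 ω₁ hT₁ hω₁ u hu huv huω (t / 2)
    rwa [mul_div_cancel₀ _ h2] at h
  have C2 : ∀ ω₁ : ι → F, TM M v (rho (polar Q) ω₁) → Q ω₁ ≠ 0 → ∀ y : ι → F,
      polar Q y v = 0 → polar Q y ω₁ = 0 → TM M v (rho (polar Q) y) := by
    intro ω₁ hT₁ hω₁ y hyv hyω
    by_cases hqy : Q y = 0
    · have t := C1 ω₁ hT₁ hω₁ y hqy hyv hyω 1
      rwa [one_smul] at t
    have hvω₁ : polar Q v ω₁ = 0 := by
      have := hT₁.1
      rwa [rho_dot_s hQ] at this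
    obtain ⟨z, hz1, hz2, hz3, hz⟩ := norm3n hQ hodd hn v ω₁ y hv hω₁ hqy hvω₁
      ((b_symm Q v y).trans hyv) ((b_symm Q ω₁ y).trans hyω) (-Q y)
    have hyz : polar Q y z = 0 := by rw [b_symm Q y z]; exact hz3
    have hp : Q (y + z) = 0 := by
      rw [q_add Q, hz, hyz]
      ring
    have hm : Q (y - z) = 0 := by
      rw [q_sub hQ, hz, hyz]
      ring
    have t1 := C1 ω₁ hT₁ hω₁ (y + z) hp (by rw [hb.add_left, hyv, hz1, add_zero])
      (by rw [hb.add_left, hyω, hz2, add_zero]) 2⁻¹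
    have t2 := C1 ω₁ hT₁ hω₁ (y - z) hm (by rw [b_sub_left hQ, hyv, hz1, sub_zero])
      (by rw [b_sub_left hQ, hyω, hz2, sub_zero]) 2⁻¹
    have t3 := TM_add t1 t2
    rw [← rho_add hb] at t3
    have e : (2 : F)⁻¹ • (y + z) + (2 : F)⁻¹ • (y - z) = y := by
      rw [← smul_add, add_add_sub_cancel, ← two_smul F y, smul_smul, inv_mul_cancel₀ h2,
        one_smul]
    rwa [e] at t3
  have hvω : polar Q v ω = 0 := by
    have := hTM.1
    rwa [rho_dot_s hQ] at this
  obtain ⟨z₁, hz11, hz12, -, -, -, hz₁⟩ := ns5 hQ hn (rho (polar Q) v)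
    (rho (polar Q) ω) 0 0 0
  rw [rho_dot_s hQ] at hz11 hz12
  obtain ⟨z₂, hz21, hz22, hz23, hz₂⟩ := norm3n hQ hodd hn v ω z₁ hv hω hz₁ hvω
    ((b_symm Q v z₁).trans hz11) ((b_symm Q ω z₁).trans hz12) (-Q z₁)
  have hu₀ : Q (z₁ + z₂) = 0 := by
    rw [q_add Q, hz₂, b_symm Q z₁ z₂, hz23]
    ring
  have hu₀v : polar Q (z₁ + z₂) v = 0 := by rw [hb.add_left, hz11, hz21, add_zero]
  have hu₀ω : polar Q (z₁ + z₂) ω = 0 := by rw [hb.add_left, hz12, hz22, add_zero]
  have tω₂ : TM M v (rho (polar Q) (ω + (z₁ + z₂))) := by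
    have t1 := C1 ω hTM hω (z₁ + z₂) hu₀ hu₀v hu₀ω 1
    rw [one_smul] at t1
    have t2 := TM_add hTM t1
    rwa [← rho_add hb] at t2
  have hω₂ : Q (ω + (z₁ + z₂)) ≠ 0 := by
    rw [q_add Q, hu₀, b_symm Q ω (z₁ + z₂), hu₀ω, add_zero, add_zero]
    exact hω
  apply mem_centres_of_TM
  intro ψ hψ
  obtain ⟨η, rfl⟩ := riesz_s hQ ψ
  rw [rho_dot_s hQ] at hψ
  obtain ⟨u', hu'⟩ : ∃ u' : ι → F, u' = ω - (Q ω / Q z₁) • z₁ := ⟨_, rfl⟩
  have hu'v : polar Q u' v = 0 := by
    rw [hu', form_sub_smul_left hb, b_symm Q ω v, hvω, hz11, mul_zero, sub_zero]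
  have hu'ω : polar Q u' ω = 2 * Q ω := by
    rw [hu', form_sub_smul_left hb, b_self hQ, hz12, mul_zero, sub_zero]
  have hu'ω₂ : polar Q u' (ω + (z₁ + z₂)) = 0 := by
    rw [hb.add_right, hu'ω, hu', form_sub_smul_left hb, b_symm Q ω (z₁ + z₂), hu₀ω,
      hb.add_right, b_self hQ, b_symm Q z₁ z₂, hz23]
    field_simp
    ring
  obtain ⟨s, hs⟩ : ∃ s : F, s = polar Q η ω / (2 * Q ω) := ⟨_, rfl⟩
  have t1 : TM M v (rho (polar Q) (η - s • u')) := by
    apply C2 ω hTM hω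
    · rw [form_sub_smul_left hb, b_symm Q η v, hψ, hu'v, mul_zero, sub_zero]
    · rw [form_sub_smul_left hb, hu'ω, hs, div_mul_cancel₀ _ (mul_ne_zero h2 hω), sub_self]
  have t2 : TM M v (rho (polar Q) (s • u')) := by
    apply C2 _ tω₂ hω₂
    · rw [hb.smul_left, hu'v, mul_zero]
    · rw [hb.smul_left, hu'ω₂, mul_zero]
  have t3 := TM_add t1 t2
  rwa [← rho_add hb, sub_add_cancel] at t3

/-- A subgroup containing the orthogonal similarity group in `SL` and an element which is not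
a similarity contains `SL`. -/
theorem overgroup6 [Nontrivial ι] (hQ : Cfsg.Geo.IsNondegenerateQuadraticForm Q)
    (hodd : Odd (Fintype.card F)) (hn : 6 ≤ Fintype.card ι) (M : Subgroup (GL ι F))
    (hM : Cfsg.Geo.quadSimilarityGroup Q ⊓ Cfsg.Geo.specialLinear ι F ≤ M) (g : GL ι F)
    (hgM : g ∈ M) (hg : g ∉ Cfsg.Geo.quadSimilarityGroup Q) :
    Cfsg.Geo.specialLinear ι F ≤ M := by
  have hb := hQ.polar_bilinear
  have h2 := two_ne_zero_of_odd hodd
  have hQ' := q_comp hQ g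
  have hM' := sim_conj_le Q g hgM hM
  have hne : ¬ ∃ l : F, ∀ x, Q ((g : Matrix ι ι F) *ᵥ x) = l * Q x := by
    rintro ⟨l, hl⟩
    apply hg
    have hl0 : l ≠ 0 := by
      intro h0
      obtain ⟨z, -, -, -, -, -, hz⟩ := ns5 hQ hn 0 0 0 0 0
      apply hz
      have h1 := hl (((g⁻¹ : GL ι F) : Matrix ι ι F) *ᵥ z)
      rw [gl_mulVec_inv, h0, zero_mul] at h1
      exact h1
    rw [mem_quadSim_iff]
    exact ⟨Units.mk0 l hl0, fun v => by rw [Units.val_mk0]; exact hl v⟩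
  obtain ⟨a, ω, x, ha0, hT, hxa, hx, hωx⟩ := tv6 hQ hQ' h2 hn hM hM' hne
  obtain ⟨ω', hT', hω'⟩ := nsfun6 hQ h2 hn hM a ω x hT hxa hx hωx
  obtain ⟨v, hTv, hv⟩ := nscentre6 hQ h2 hn hM a ω' ha0 hT' hω'
  have hv0 := centreTM6 hQ hodd hn hM v ω' hTv hv hω'
  have S1 : ∀ v d : ι → F, v ∈ centres M → Q d ≠ 0 → polar Q v d ≠ 0 → d ∈ centres M := by
    intro v d hvC hd hvd
    obtain ⟨e, he1, he2, -, -, -, he⟩ := ns5 hQ hn (rho (polar Q) v)
      (rho (polar Q) d) 0 0 0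
    rw [rho_dot_s hQ] at he1 he2
    have h1 := centres_smul_mem M hvC (hM (Rf2_mem hQ d e hd he))
    rw [Rf2_val_mulVec, Rf_fix hQ e v (by rw [b_symm Q v e]; exact he1), Rf_mulVec hQ d v] at h1
    have h3 := centres_add M hvC (centres_smul M h1 (-1))
    have h4 := centres_smul M h3 (Q d / polar Q v d)
    have e : (Q d / polar Q v d) • (v + (-1 : F) • (v - (polar Q v d / Q d) • d)) = d := by
      have h5 : Q d / polar Q v d * (polar Q v d / Q d) = 1 := by field_simp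
      rw [neg_one_smul, neg_sub, add_sub_cancel, smul_smul, h5, one_smul]
    rwa [e] at h4
  have hallns : ∀ d : ι → F, Q d ≠ 0 → d ∈ centres M := by
    intro d hd
    by_cases hvd : polar Q v d = 0
    · have hd₃ : ∃ d₃, Q d₃ ≠ 0 ∧ polar Q v d₃ ≠ 0 ∧ polar Q d₃ d ≠ 0 := by
        by_cases hs : Q v + Q d = 0
        · obtain ⟨w, hw1, hw2, -, -, -, hw⟩ := ns5 hQ hn (rho (polar Q) v)
            (rho (polar Q) d) 0 0 0
          rw [rho_dot_s hQ] at hw1 hw2
          refine ⟨v + d + w, ?_, ?_, ?_⟩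
          · rw [q_add Q, q_add Q, hvd, hb.add_left, b_symm Q v w, hw1, b_symm Q d w, hw2, hs]
            simpa using hw
          · rw [hb.add_right, hb.add_right, b_self hQ, hvd, b_symm Q v w, hw1, add_zero,
              add_zero]
            exact mul_ne_zero h2 hv
          · rw [hb.add_left, hb.add_left, hvd, b_self hQ, hw2, zero_add, add_zero]
            exact mul_ne_zero h2 hd
        · refine ⟨v + d, ?_, ?_, ?_⟩
          · rw [q_add Q, hvd, add_zero]
            exact hs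
          · rw [hb.add_right, b_self hQ, hvd, add_zero]
            exact mul_ne_zero h2 hv
          · rw [hb.add_left, hvd, b_self hQ, zero_add]
            exact mul_ne_zero h2 hd
      obtain ⟨d₃, hd₃, hvd₃, hd₃d⟩ := hd₃
      exact S1 d₃ d (S1 v d₃ hv0 hd₃ hvd₃) hd hd₃d
    · exact S1 v d hv0 hd hvd
  have hall : ∀ y : ι → F, y ∈ centres M := by
    intro y
    by_cases hy : Q y = 0
    · obtain ⟨d, hd1, -, -, -, -, hd⟩ := ns5 hQ hn (rho (polar Q) y) 0 0 0 0
      rw [rho_dot_s hQ] at hd1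
      have h1 : Q (y + d) ≠ 0 := by
        rw [q_add Q, hy, b_symm Q y d, hd1, zero_add, add_zero]
        exact hd
      have h3 := centres_add M (hallns _ h1) (centres_smul M (hallns d hd) (-1))
      rwa [neg_one_smul, add_neg_cancel_right] at h3
    · exact hallns y hy
  exact specialLinear_le_of_tv M (fun v φ hφ t ht => hall v φ hφ t ht)

end fin

/-- A transvection of determinant one which is not a similarity. -/
theorem notsim6 (hQ : Cfsg.Geo.IsNondegenerateQuadraticForm Q) (h2 : (2 : F) ≠ 0)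
    (hn : 6 ≤ Fintype.card ι) :
    ∃ t ∈ Cfsg.Geo.specialLinear ι F, t ∉ Cfsg.Geo.quadSimilarityGroup Q := by
  obtain ⟨x, -, -, -, -, -, hx⟩ := ns5 hQ hn 0 0 0 0 0
  obtain ⟨z, hzx, -, -, -, -, hz⟩ := ns5 hQ hn (rho (polar Q) x) 0 0 0 0
  rw [rho_dot_s hQ] at hzx
  have h0 : rho (polar Q) z ⬝ᵥ x = 0 := by
    rw [rho_dot_s hQ, b_symm Q x z]
    exact hzx
  refine ⟨tvG x (rho (polar Q) z) h0, tvG_mem_specialLinear _ _ _, ?_⟩
  intro hmem
  rw [mem_quadSim_iff] at hmem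
  obtain ⟨c, hc⟩ := hmem
  have e1 := hc x
  rw [tvG_val, tv_mulVec, h0, zero_smul, add_zero] at e1
  have hc1 : (c : F) = 1 := by
    have h1 : (c : F) * Q x = 1 * Q x := by rw [one_mul]; exact e1.symm
    exact mul_right_cancel₀ hx h1
  have e2 := hc z
  rw [tvG_val, tv_mulVec, rho_dot_s hQ, b_self hQ, hc1, one_mul, q_expand hQ, hzx] at e2
  have h3 : (2 * Q z) ^ 2 * Q x = 0 := by linear_combination e2
  exact mul_ne_zero (pow_ne_zero 2 (mul_ne_zero h2 hz)) hx h3

end OrthMain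

/-- The similarity group of a non-degenerate quadratic form meets `SL_n` in a maximal subgroup
of `SL_n` (finite field of odd order, `n ≥ 6`). -/
theorem orth_isMaximalIn_ge6 {F : Type*} [Field F] [Fintype F] (n : ℕ) (hn : 6 ≤ n)
    (hodd : Odd (Fintype.card F)) (Q : (Fin n → F) → F)
    (hQ : Cfsg.Geo.IsNondegenerateQuadraticForm Q) :
    Cfsg.Geo.IsMaximalIn (Cfsg.Geo.specialLinear (Fin n) F)
      (Cfsg.Geo.quadSimilarityGroup Q ⊓ Cfsg.Geo.specialLinear (Fin n) F) := by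
  have hnt : Nontrivial (Fin n) := Fin.nontrivial_iff_two_le.mpr (by omega)
  have hcard : 6 ≤ Fintype.card (Fin n) := by rw [Fintype.card_fin]; exact hn
  refine ⟨lt_of_le_of_ne inf_le_right ?_, ?_⟩
  · intro heq
    obtain ⟨t, ht, hts⟩ := notsim6 hQ (two_ne_zero_of_odd hodd) hcard
    rw [← heq] at ht
    exact hts ht.1
  · intro M hHM hMS
    by_cases hMH : M ≤ Cfsg.Geo.quadSimilarityGroup Q ⊓ Cfsg.Geo.specialLinear (Fin n) F
    · left
      exact le_antisymm hMH hHM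
    · right
      obtain ⟨g, hgM, hgH⟩ := SetLike.not_le_iff_exists.mp hMH
      exact le_antisymm hMS
        (overgroup6 hQ hodd hcard M hHM g hgM (fun h => hgH ⟨h, hMS hgM⟩))

/-- The case `n = 6` in the form asked for by `S5798`. -/
theorem orth_isMaximalIn6 {F : Type*} [Field F] [Fintype F] (hodd : Odd (Fintype.card F))
    (Q : (Fin 6 → F) → F) (hQ : Cfsg.Geo.IsNondegenerateQuadraticForm Q) :
    Cfsg.Geo.IsMaximalIn (Cfsg.Geo.specialLinear (Fin 6) F)
      (Cfsg.Geo.quadSimilarityGroup Q ⊓ Cfsg.Geo.specialLinear (Fin 6) F) :=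
  orth_isMaximalIn_ge6 6 (le_refl 6) hodd Q hQ

end Cfsg.Agent.Lib.Helper94.OrthMax6
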