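import Mathlib
import Cfsg.Agent.Lib.Helper72.PQDefs
import Cfsg.Agent.Lib.Helper12.Ward2
import Cfsg.Agent.Lib.Helper32.NcAxB2

/-!
# S4306, piece PQ-II0: in type II, `C_Q(F)` is not contained in `Z = C_Q(R)`.
-/

set_option autoImplicit false

namespace Cfsg.Agent.Lib.Helper94.PQ

open Cfsg.Agent.Lib.Helper72.PQ Cfsg.Agent.Lib.Helper12.Ward Subgroup
open scoped commutatorElement

universe u

/-- a group normalising `X` and `Y` normalises `cz X Y`. -/
theorem nz_cz {Γ : Type u} [Group Γ] {X Y : Subgroup Γ} {g : Γ}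
    (hX : g ∈ normalizer (X : Set Γ)) (hY : g ∈ normalizer (Y : Set Γ)) :
    g ∈ normalizer ((cz X Y : Subgroup Γ) : Set Γ) := by
  unfold cz
  exact nz_inf hX (nz_centralizer hY)

theorem ii0 (h1 : FMQStmt.{u}) (h2 : L1Stmt.{u}) (h3 : L2Stmt.{u}) : II0Stmt.{u} := by
  intro Γ _ _ p ℓ r q s A F V Q R hT hII
  by_contra hcon
  have hcon' : ∀ u ∈ Q, (∀ a ∈ F, a * u = u * a) → u ∈ cz Q R := by
    intro u hu hfix
    by_contra hu'
    exact hcon ⟨u, hu, hu', hfix⟩
  obtain ⟨hRR, -, -, -⟩ := h2 Γ p ℓ r q s A F V Q R hT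
  obtain ⟨hZc, hQQ, -, -⟩ := h3 Γ p ℓ r q s A F V Q R hT
  have hp : p.Prime := hT.frob.hp
  have : Fact p.Prime := ⟨hp⟩
  have hFcard : Nat.card F = p := hT.frob.hF
  -- a generator of F
  have hFne : F ≠ ⊥ := by
    intro h
    rw [h, Subgroup.card_bot] at hFcard
    exact hp.one_lt.ne hFcard
  obtain ⟨f, hfF, hf1⟩ := (Subgroup.ne_bot_iff_exists_ne_one.mp hFne |>.imp fun x hx => hx) |>
    fun ⟨x, hx⟩ => (⟨x.1, x.2, fun h => hx (Subtype.ext h)⟩ : ∃ f ∈ F, f ≠ 1)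
  have hford : orderOf f = p := by
    have hdvd : orderOf f ∣ p := by
      have h := Subgroup.orderOf_dvd_natCard F hfF
      rwa [hFcard] at h
    rcases (Nat.dvd_prime hp).mp hdvd with h | h
    · exact absurd (orderOf_eq_one_iff.mp h) hf1
    · exact h
  have hfp : f ^ p = 1 := by rw [← hford]; exact pow_orderOf_eq_one f
  have hzp : Subgroup.zpowers f = F := by
    apply Subgroup.eq_of_le_of_card_ge
    · rw [Subgroup.zpowers_le]; exact hfF
    · rw [Nat.card_zpowers, hford, hFcard]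
  have hFpow : ∀ a ∈ F, ∃ k : ℕ, f ^ k = a := by
    intro a ha
    rw [← hzp] at ha
    have h := (mem_powers_iff_mem_zpowers (x := f) (y := a)).mpr ha
    exact (Submonoid.mem_powers_iff a f).mp h
  have hfA : f ∈ A := hT.frob.hFA hfF
  have hfQ : f ∈ normalizer (Q : Set Γ) := hT.hAQ hfA
  have hfR : f ∈ normalizer (R : Set Γ) := hT.hAR hfA
  have hfZ : f ∈ normalizer ((cz Q R : Subgroup Γ) : Set Γ) := nz_cz hfQ hfR
  have hfC : f ∈ normalizer ((cz R Q : Subgroup Γ) : Set Γ) := nz_cz hfR hfQ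
  have hRZ : R ≤ normalizer ((cz Q R : Subgroup Γ) : Set Γ) :=
    fun x hx => nz_cz (hT.hRQ hx) (Subgroup.le_normalizer hx)
  have hRC : R ≤ normalizer ((cz R Q : Subgroup Γ) : Set Γ) :=
    fun x hx => nz_cz (Subgroup.le_normalizer hx) (hT.hRQ hx)
  have hFZ : F ≤ normalizer ((cz Q R : Subgroup Γ) : Set Γ) :=
    fun a ha => nz_cz (hT.hAQ (hT.frob.hFA ha)) (hT.hAR (hT.frob.hFA ha))
  have hZQ : cz Q R ≤ Q := inf_le_left
  have hCR : cz R Q ≤ R := inf_le_left
  have hQZ : Q ≤ normalizer ((cz Q R : Subgroup Γ) : Set Γ) := by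
    intro y hy
    apply nz_of_conj_mem
    · intro z hz
      have h := hZc z hz y hy
      have e : y * z * y⁻¹ = z := by rw [← h]; group
      rw [e]; exact hz
    · intro z hz
      have h := hZc z hz y⁻¹ (Q.inv_mem hy)
      have e : y⁻¹ * z * y = z := by rw [← h]; group
      rw [e]; exact hz
  -- coprimality
  have hcopRQ : (Nat.card R).Coprime (Nat.card Q) := by
    have : Fact q.Prime := ⟨hT.hq⟩
    have : Fact s.Prime := ⟨hT.hs⟩
    obtain ⟨a, ha⟩ := IsPGroup.iff_card.mp hT.hRs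
    obtain ⟨b, hb⟩ := IsPGroup.iff_card.mp hT.hQq
    rw [ha, hb]
    exact Nat.Coprime.pow _ _ ((Nat.coprime_primes hT.hs hT.hq).mpr (Ne.symm hT.hqs))
  have hcopZp : (Nat.card (cz Q R : Subgroup Γ)).Coprime p := by
    have : Fact q.Prime := ⟨hT.hq⟩
    obtain ⟨b, hb⟩ := IsPGroup.iff_card.mp hT.hQq
    have hdvd : Nat.card (cz Q R : Subgroup Γ) ∣ q ^ b := by
      rw [← hb]; exact Subgroup.card_dvd_of_le hZQ
    refine Nat.Coprime.coprime_dvd_left hdvd ?_
    exact Nat.Coprime.pow_left _ ((Nat.coprime_primes hT.hq hp).mpr (Ne.symm hT.hpq))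
  have hFp : IsPGroup p F := IsPGroup.of_card (n := 1) (by rw [hFcard, pow_one])
  -- the FMQ conclusion
  have key : ∀ x ∈ R, ∀ w ∈ Q, x * w * x⁻¹ * w⁻¹ ∈ cz Q R := by
    refine h1 Γ Q (cz Q R) R (cz R Q) f p hp.pos hfp hZQ hCR hQQ hQZ hT.hRQ hRZ hfQ hfZ hfR
      hRC hfC ?_ ?_ hcopRQ ?_
    · intro x hx w hw
      have h := (mem_cz.mp hx).2 w hw
      have e : x * w * x⁻¹ * w⁻¹ = 1 := by rw [← h]; group
      rw [e]; exact Subgroup.one_mem _
    · intro j hj0 hjp x hx hmem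
      refine hII (f ^ j) (F.pow_mem hfF j) ?_ x hx hmem
      intro h
      have hdvd : orderOf f ∣ j := orderOf_dvd_of_pow_eq_one h
      rw [hford] at hdvd
      exact absurd (Nat.le_of_dvd hj0 hdvd) (not_le.mpr hjp)
    · intro w hw hmem
      -- all of F acts trivially on w modulo Z
      have hpow : ∀ k : ℕ, f ^ k * w * (f ^ k)⁻¹ * w⁻¹ ∈ cz Q R := by
        intro k
        induction k with
        | zero => simp
        | succ k ih =>
          have e : f ^ (k + 1) * w * (f ^ (k + 1))⁻¹ * w⁻¹ =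
              (f * (f ^ k * w * (f ^ k)⁻¹ * w⁻¹) * f⁻¹) * (f * w * f⁻¹ * w⁻¹) := by
            rw [pow_succ']; group
          rw [e]
          exact Subgroup.mul_mem _ (conj_mem_of_nz hfZ ih) hmem
      have hall : ∀ a ∈ F, w⁻¹ * (a * w * a⁻¹) ∈ cz Q R := by
        intro a ha
        obtain ⟨k, rfl⟩ := hFpow a ha
        have h := conj_mem_of_nz' (hQZ hw) (hpow k)
        have e : w⁻¹ * (f ^ k * w * (f ^ k)⁻¹ * w⁻¹) * w = w⁻¹ * (f ^ k * w * (f ^ k)⁻¹) := by
          group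
        rwa [e] at h
      obtain ⟨n, hn, hfix⟩ :=
        Cfsg.Agent.Lib.Helper32.coset_fixed_elt p hFp hFZ hcopZp w hall
      have hwn : w * n ∈ cz Q R := by
        refine hcon' (w * n) (Q.mul_mem hw (hZQ hn)) ?_
        intro a ha
        exact comm_of_conj_eq (hfix a ha)
      have e : w = (w * n) * n⁻¹ := by group
      rw [e]
      exact Subgroup.mul_mem _ hwn (Subgroup.inv_mem _ hn)
  -- conclusion: [Q, R] ≤ Z
  have hle : ⁅Q, R⁆ ≤ cz Q R := by
    rw [Subgroup.commutator_le]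
    intro y hy x hx
    have h := Subgroup.inv_mem _ (key x hx y hy)
    have e : (x * y * x⁻¹ * y⁻¹)⁻¹ = ⁅y, x⁆ := by rw [commutatorElement_def]; group
    rwa [e] at h
  have hQle : Q ≤ centralizer (R : Set Γ) := by
    have h : Q ≤ cz Q R := by
      calc Q = ⁅Q, R⁆ := hT.hE5.symm
        _ ≤ cz Q R := hle
    exact h.trans inf_le_right
  have hbot : ⁅Q, R⁆ = ⊥ :=
    (Subgroup.commutator_eq_bot_iff_le_centralizer).mpr hQle
  exact hT.hQ1 (by rw [← hT.hE5, hbot])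

end Cfsg.Agent.Lib.Helper94.PQ
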