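import Mathlib
import Cfsg.Agent.Lib.Helper72.PQDefs
import Cfsg.Agent.Lib.Helper12.Ward6
import Cfsg.Agent.Lib.Helper56.Frat
import Cfsg.Agent.S3764

/-!
# S4306, piece PQ-P6X: in the core configuration `E` is extraspecial and S3764 applies.
-/

set_option autoImplicit false

namespace Cfsg.Agent.Lib.Helper94.PQ

open Cfsg.Agent.Lib.Helper72.PQ Cfsg.Agent.Lib.Helper12.Ward Subgroup
open scoped commutatorElement

universe u

theorem p6x (h1 : P6AStmt.{u}) : P6XStmt.{u} := by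
  intro Γ _ _ q r s ℓ M Q R₀ E t hH hEQ htE hDE hCE hnab
  obtain ⟨hA1, -, hA3, -⟩ := h1 Γ q r s ℓ M Q R₀ t hH
  have hq : q.Prime := hH.hq
  have hℓ : ℓ.Prime := hH.hℓ
  have : Fact q.Prime := ⟨hq⟩
  -- D = [Q,Q]
  have hDQ : (⁅Q, Q⁆ : Subgroup Γ) ≤ Q := by
    rw [Subgroup.commutator_le]
    intro a ha b hb
    rw [commutatorElement_def]
    exact Q.mul_mem (Q.mul_mem (Q.mul_mem ha hb) (Q.inv_mem ha)) (Q.inv_mem hb)
  have hDc : ∀ d ∈ (⁅Q, Q⁆ : Subgroup Γ), ∀ y ∈ Q, d * y = y * d := fun d hd =>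
    (hA3 d (hDQ hd) (fun x hx => hH.hDR d hd x hx)).1
  -- central elements of E lie in D
  have hZD : ∀ z ∈ E, (∀ e ∈ E, e * z = z * e) → z ∈ (⁅Q, Q⁆ : Subgroup Γ) := by
    intro z hz hzc
    have hAb : Ab (E ⊓ centralizer (E : Set Γ)) := by
      intro x hx y hy
      exact (Subgroup.mem_centralizer_iff.mp hy.2) x hx.1
    have hle : E ⊓ centralizer (E : Set Γ) ≤ Q := inf_le_left.trans hEQ
    have hnz : t ∈ normalizer ((E ⊓ centralizer (E : Set Γ) : Subgroup Γ) : Set Γ) :=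
      nz_inf htE (nz_centralizer htE)
    have hzm : z ∈ E ⊓ centralizer (E : Set Γ) :=
      ⟨hz, Subgroup.mem_centralizer_iff.mpr hzc⟩
    exact hCE z hz (hA1 _ hle hAb hnz z hzm)
  -- [E,E] = D
  have hsub : ∀ H : Subgroup Γ, H ≤ (⁅Q, Q⁆ : Subgroup Γ) → H ≠ ⊥ → H = ⁅Q, Q⁆ := by
    intro H hle hne
    have hdvd : Nat.card H ∣ q := by
      have h := Subgroup.card_dvd_of_le hle
      rwa [hH.hD] at h
    rcases (Nat.dvd_prime hq).mp hdvd with h | h
    · exact absurd (Subgroup.card_eq_one.mp h) hne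
    · exact Subgroup.eq_of_le_of_card_ge hle (by rw [hH.hD, h])
  have hEE : (⁅E, E⁆ : Subgroup Γ) = ⁅Q, Q⁆ := by
    apply hsub _ (Subgroup.commutator_mono hEQ hEQ)
    intro hbot
    obtain ⟨e, he, e', he', hne⟩ := hnab
    exact hne (comm_of_commutator_eq_bot hbot e he e' he')
  -- q-th powers are central
  have hpowc : ∀ e ∈ E, ∀ y ∈ Q, e ^ q * y = y * e ^ q := fun e he =>
    (hA3 (e ^ q) (Q.pow_mem (hEQ he) q) (fun x hx => hH.hpow e (hEQ he) x hx)).1
  -- the centre of ↥E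
  have hcen : ∀ z : ↥E, z ∈ center ↥E ↔ (z : Γ) ∈ (⁅Q, Q⁆ : Subgroup Γ) := by
    intro z
    rw [Subgroup.mem_center_iff]
    constructor
    · intro h
      refine hZD z.1 z.2 (fun e he => ?_)
      exact congrArg Subtype.val (h ⟨e, he⟩)
    · intro h g
      exact Subtype.ext (hDc z.1 h g.1 (hEQ g.2)).symm
  have hcenmap : (center ↥E).map E.subtype = ⁅Q, Q⁆ := by
    ext x
    constructor
    · rintro ⟨z, hz, rfl⟩
      exact (hcen z).mp hz
    · intro hx
      exact ⟨⟨x, hDE hx⟩, (hcen _).mpr hx, rfl⟩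
  have hcommap : (commutator ↥E).map E.subtype = ⁅Q, Q⁆ := by
    rw [commutator_def, Subgroup.map_commutator, ← MonoidHom.range_eq_map, Subgroup.range_subtype,
      hEE]
  have hcomm : commutator ↥E = center ↥E :=
    Subgroup.map_injective (Subgroup.subtype_injective E) (hcommap.trans hcenmap.symm)
  have hEq : IsPGroup q ↥E := hH.hQq.to_le hEQ
  have hfrat : frattini ↥E = center ↥E := by
    apply le_antisymm
    · apply Cfsg.Agent.Lib.Helper56.frattini_le_of_exponent_quotient (p := q) (center ↥E) hcomm.le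
      intro x
      rw [Subgroup.mem_center_iff]
      intro g
      exact Subtype.ext (hpowc x.1 x.2 g.1 (hEQ g.2)).symm
    · rw [← hcomm]
      exact Cfsg.Agent.Lib.Helper56.commutator_le_frattini_of_pgroup hEq
  have hcard : Nat.card (center ↥E) = q := by
    rw [← hH.hD, ← hcenmap]
    exact (Subgroup.card_map_of_injective (Subgroup.subtype_injective E)).symm
  have hExtra : Cfsg.IsExtraspecial q ↥E := ⟨⟨hEq, hfrat, hcomm⟩, hcard⟩
  -- the operator group X = ⟨t⟩
  have hXcard : Nat.card (zpowers t) = ℓ := by rw [Nat.card_zpowers, hH.ht]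
  have hXE : zpowers t ≤ normalizer (E : Set Γ) := by
    rw [Subgroup.zpowers_le]; exact htE
  have hXM : zpowers t ≤ normalizer (M : Set Γ) := by
    rw [Subgroup.zpowers_le]; exact hH.htM
  have hEM : E ≤ normalizer (M : Set Γ) := hEQ.trans hH.hQM
  have hCQ : E ⊓ centralizer ((zpowers t : Subgroup Γ) : Set Γ) = (center ↥E).map E.subtype := by
    rw [hcenmap]
    ext x
    constructor
    · rintro ⟨hx, hxc⟩
      exact hCE x hx (Subgroup.mem_centralizer_iff.mp hxc t (Subgroup.mem_zpowers t))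
    · intro hx
      refine ⟨hDE hx, Subgroup.mem_centralizer_iff.mpr ?_⟩
      rintro g ⟨k, rfl⟩
      have hc : Commute t x := hH.hDt x hx
      exact (hc.zpow_left k).eq
  have hV : Cfsg.IsElementaryAbelian r M :=
    ⟨⟨⟨fun a b => Subtype.ext (hH.hMc a.1 a.2 b.1 b.2)⟩⟩, hH.hMr⟩
  have hCV : M ⊓ centralizer ((zpowers t : Subgroup Γ) : Set Γ) = ⊥ := by
    rw [eq_bot_iff]
    rintro m ⟨hm, hmc⟩
    rw [Subgroup.mem_bot]
    exact hH.hMt m hm (Subgroup.mem_centralizer_iff.mp hmc t (Subgroup.mem_zpowers t))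
  have htℓ : t ^ ℓ = 1 := by rw [← hH.ht]; exact pow_orderOf_eq_one t
  have hfaith : (zpowers t ⊔ E) ⊓ centralizer (M : Set Γ) = ⊥ := by
    rw [eq_bot_iff]
    rintro k ⟨hk1, hk2⟩
    rw [Subgroup.mem_bot]
    rw [sup_comm] at hk1
    obtain ⟨e, he, x, hx, rfl⟩ := exists_mul_of_mem_sup hXE hk1
    have hkE : e * x ∈ normalizer (E : Set Γ) :=
      Subgroup.mul_mem _ (Subgroup.le_normalizer he) (hXE hx)
    -- k commutes with E
    have hkc : ∀ e' ∈ E, (e * x) * e' = e' * (e * x) := by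
      intro e' he'
      have hcE : (e * x) * e' * (e * x)⁻¹ * e'⁻¹ ∈ E :=
        E.mul_mem (conj_mem_of_nz hkE he') (E.inv_mem he')
      have hcM : (e * x) * e' * (e * x)⁻¹ * e'⁻¹ ∈ centralizer (M : Set Γ) := by
        have h2 : e' * (e * x)⁻¹ * e'⁻¹ ∈ centralizer (M : Set Γ) :=
          conj_mem_of_nz (nz_centralizer (hEM he')) (Subgroup.inv_mem _ hk2)
        have e1 : (e * x) * e' * (e * x)⁻¹ * e'⁻¹ = (e * x) * (e' * (e * x)⁻¹ * e'⁻¹) := by group
        rw [e1]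
        exact Subgroup.mul_mem _ hk2 h2
      have h1 : (e * x) * e' * (e * x)⁻¹ * e'⁻¹ = 1 :=
        hH.hfaith _ (hEQ hcE) (fun m hm => (Subgroup.mem_centralizer_iff.mp hcM m hm).symm)
      calc (e * x) * e' = ((e * x) * e' * (e * x)⁻¹ * e'⁻¹) * (e' * (e * x)) := by group
        _ = e' * (e * x) := by rw [h1, one_mul]
    have hxe : Commute e x := by
      have h := hkc e he
      have h'' : e * (x * e) = e * (e * x) := by rw [← mul_assoc]; exact h
      exact (mul_left_cancel h'').symm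
    have hxℓ : x ^ ℓ = 1 := by
      obtain ⟨j, rfl⟩ := hx
      rw [← zpow_natCast, ← zpow_mul, mul_comm, zpow_mul, zpow_natCast, htℓ, one_zpow]
    have hkℓ : (e * x) ^ ℓ = e ^ ℓ := by rw [hxe.mul_pow, hxℓ, mul_one]
    have heℓ : e ^ ℓ = 1 := by
      have hmem : (e * x) ^ ℓ ∈ centralizer (M : Set Γ) := Subgroup.pow_mem _ hk2 ℓ
      rw [hkℓ] at hmem
      exact hH.hfaith _ (hEQ (E.pow_mem he ℓ))
        (fun m hm => (Subgroup.mem_centralizer_iff.mp hmem m hm).symm)
    have he1 : e = 1 := by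
      obtain ⟨a, ha⟩ := (hH.hQq) ⟨e, hEQ he⟩
      have ha' : e ^ q ^ a = 1 := congrArg Subtype.val ha
      have h1 : orderOf e ∣ ℓ := orderOf_dvd_of_pow_eq_one heℓ
      have h2 : orderOf e ∣ q ^ a := orderOf_dvd_of_pow_eq_one ha'
      have hcop : Nat.Coprime ℓ (q ^ a) :=
        Nat.Coprime.pow_right _ ((Nat.coprime_primes hℓ hq).mpr hH.hℓq)
      have h3 : orderOf e ∣ 1 := by
        have := Nat.dvd_gcd h1 h2
        rwa [Nat.Coprime.gcd_eq_one hcop] at this
      exact orderOf_eq_one_iff.mp (Nat.dvd_one.mp h3)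
    subst he1
    rw [one_mul] at hk2 ⊢
    by_contra hx1
    -- zpowers x = zpowers t
    have hzle : zpowers x ≤ zpowers t := by rw [Subgroup.zpowers_le]; exact hx
    have hord : orderOf x = ℓ := by
      have hdvd : orderOf x ∣ ℓ := orderOf_dvd_of_pow_eq_one hxℓ
      rcases (Nat.dvd_prime hℓ).mp hdvd with h | h
      · exact absurd (orderOf_eq_one_iff.mp h) hx1
      · exact h
    have hzeq : zpowers x = zpowers t :=
      Subgroup.eq_of_le_of_card_ge hzle (by rw [Nat.card_zpowers, Nat.card_zpowers, hord, hH.ht])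
    have htc : t ∈ centralizer (M : Set Γ) := by
      have h : zpowers x ≤ centralizer (M : Set Γ) := by rw [Subgroup.zpowers_le]; exact hk2
      exact h (hzeq ▸ Subgroup.mem_zpowers t)
    apply hH.hM1
    rw [eq_bot_iff]
    intro m hm
    rw [Subgroup.mem_bot]
    exact hH.hMt m hm (Subgroup.mem_centralizer_iff.mp htc m hm).symm
  exact Cfsg.Agent.S3764.result (p := r) (q := q) (r := ℓ) hH.hr hq hℓ (Ne.symm hH.hqr)
    (Ne.symm hH.hℓr) (Ne.symm hH.hℓq) (zpowers t) E M hXcard hExtra hXE hCQ hV hXM hEM hfaith hCV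

end Cfsg.Agent.Lib.Helper94.PQ
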