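import Cfsg.Agent.Lib.Helper22.PTDefs

set_option autoImplicit false

namespace Cfsg.Agent.Lib.Helper94.PT

open Cfsg Cfsg.Agent.Lib.Helper22.BFD Cfsg.Agent.Lib.Helper22.PT
open scoped ComplexConjugate

universe u

variable {G : Type u} [Group G] [Fintype G]

/-- PIECE GEXP -/
theorem gexp (p : ℕ) [Fact p.Prime] (hdiv : p ∣ Nat.card G) (hsq : ¬ p ^ 2 ∣ Nat.card G) :
    GExp G p := by
  have hp : p.Prime := Fact.out
  obtain ⟨n, hn⟩ := hdiv
  have hpn : ¬ p ∣ n := by
    intro hd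
    apply hsq
    rw [hn, pow_two]
    exact Nat.mul_dvd_mul_left p hd
  have hcop : p.Coprime n := (Nat.Prime.coprime_iff_not_dvd hp).2 hpn
  intro k
  obtain ⟨m, hm1, hm2⟩ := Nat.chineseRemainder hcop (k : ZMod p).val 1
  have hmk : (m : ZMod p) = (k : ZMod p) := by
    rw [← ZMod.natCast_zmod_val (k : ZMod p)]
    exact (ZMod.natCast_eq_natCast_iff m (k : ZMod p).val p).2 hm1
  have hpm : ¬ p ∣ m := by
    intro hd
    have h0 : (m : ZMod p) = 0 := (ZMod.natCast_eq_zero_iff m p).2 hd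
    rw [hmk] at h0
    exact Units.ne_zero k h0
  have hmp : m.Coprime p := ((Nat.Prime.coprime_iff_not_dvd hp).2 hpm).symm
  have hmn : m.Coprime n := by
    have h1 : Nat.gcd m n = Nat.gcd 1 n := Nat.ModEq.gcd_eq hm2
    rw [Nat.gcd_one_left] at h1
    exact h1
  refine ⟨m, ?_, hmk, ?_⟩
  · rw [hn]
    exact Nat.Coprime.mul_right hmp hmn
  · intro g hg
    have hgo : orderOf g ∣ n := by
      have h2 : orderOf g ∣ p * n := by
        rw [← hn]
        exact orderOf_dvd_natCard g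
      have h3 : (orderOf g).Coprime p := ((Nat.Prime.coprime_iff_not_dvd hp).2 hg).symm
      exact Nat.Coprime.dvd_of_dvd_mul_left h3 h2
    have h4 : m ≡ 1 [MOD orderOf g] := Nat.ModEq.of_dvd hgo hm2
    have h5 : g ^ m = g ^ 1 := pow_eq_pow_iff_modEq.2 h4
    rw [h5, pow_one]

end Cfsg.Agent.Lib.Helper94.PT
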