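import Cfsg.Agent.Lib.Helper98.H74Defs

/-! Project PE (S5988, helper96), piece ELLTYP. -/

set_option autoImplicit false

namespace Cfsg.Agent.Lib.Helper94.Pe

universe u

open Cfsg.Agent.Lib.Helper47 Cfsg.Agent.Lib.Helper98.T73 Cfsg.Agent.Lib.Helper98.H74 Module

variable {F : Type u} [Field F] [Fintype F] {V : Type u} [AddCommGroup V] [Module F V]
  [FiniteDimensional F V] {Q : V → F} {B : V → V → F}

omit [Fintype F] [FiniteDimensional F V] in
theorem ELLTYP_polar (hQ : IsQuad Q B) (u v : V) : QuadraticMap.polar Q u v = B u v := by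
  unfold QuadraticMap.polar
  rw [hQ.polar]
  ring

-- PIECE ELLTYP
theorem ell_iff_subtyp (hf : QFacts F) (hQ : IsQuad Q B) (p : ℕ) [Fact p.Prime] [CharP F p]
    (W : Submodule F V) (k : ℕ) (hhyp : HypM Q (2 * k + 2) W ↔ SubTyp Q B W k 1) :
    (finrank F W = 2 * k + 2 ∧ (∀ u ∈ W, u ≠ 0 → ∃ v ∈ W, QuadraticMap.polar Q u v ≠ 0) ∧
      ¬ ∃ U : Submodule F V, U ≤ W ∧ 2 * finrank F U = 2 * k + 2 ∧ ∀ u ∈ U, Q u = 0) ↔
    SubTyp Q B W k (-1) := by
  constructor
  · rintro ⟨hfin, hpol, hno⟩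
    have hnd : Nondeg (resForm B W) := by
      intro x hx
      by_contra hx0
      have hx0' : (x : V) ≠ 0 := fun h => hx0 (Subtype.ext h)
      obtain ⟨v, hv, hne⟩ := hpol (x : V) x.2 hx0'
      apply hne
      rw [ELLTYP_polar hQ]
      exact hx ⟨v, hv⟩
    refine ⟨hnd, hfin, ?_⟩
    rcases hf.typ_exists k W (fun w : W => Q (w : V)) (resForm B W) (hQ.res W) hnd hfin with h | h
    · exfalso
      obtain ⟨-, -, hU⟩ := hhyp.mpr ⟨hnd, hfin, h⟩
      exact hno hU
    · exact h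
  · rintro ⟨hnd, hfin, htyp⟩
    have hpol : ∀ u ∈ W, u ≠ 0 → ∃ v ∈ W, QuadraticMap.polar Q u v ≠ 0 := by
      intro u hu hu0
      by_contra hcon
      have h1 : (⟨u, hu⟩ : W) = 0 := by
        apply hnd
        intro y
        by_contra hy
        apply hcon
        refine ⟨(y : V), y.2, ?_⟩
        rw [ELLTYP_polar hQ]
        exact hy
      exact hu0 (congrArg Subtype.val h1)
    refine ⟨hfin, hpol, ?_⟩
    intro hU
    obtain ⟨-, -, htyp1⟩ := hhyp.mp ⟨hfin, hpol, hU⟩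
    have h1 := IsTyp.unique htyp1 htyp
    norm_num at h1

end Cfsg.Agent.Lib.Helper94.Pe
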