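import Mathlib

/-!
# S5965 piece SYMRAT (helper94 for helper96): coefficients of a symmetric product are fixed by
the `p ^ e`-power map.
-/

set_option autoImplicit false

namespace Cfsg.Agent.Lib.Helper94.Sf

open Polynomial

theorem sym_coeff_fixed {F : Type*} [Field F] (p : ℕ) [Fact p.Prime] [CharP F p] (e : ℕ) (r : ℕ)
    (hr : 0 < r) (ω : F) (hω : ω ^ r = 1) (hω' : ω ^ (p ^ e + 1) = 1) (m : ℕ → ℕ) (c : ℕ)
    (hc : c < r) (hsym : ∀ j ∈ Finset.range r, m ((2 * c + r - j) % r) = m j) (t : ℕ) :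
    (∏ j ∈ Finset.range r, (X - C (ω ^ (r - c) * ω ^ j)) ^ m j : F[X]).coeff t ^ (p ^ e) =
      (∏ j ∈ Finset.range r, (X - C (ω ^ (r - c) * ω ^ j)) ^ m j : F[X]).coeff t := by
  have hσmem : ∀ j ∈ Finset.range r, (2 * c + r - j) % r ∈ Finset.range r :=
    fun j _ => Finset.mem_range.mpr (Nat.mod_lt _ hr)
  have hσσ : ∀ j ∈ Finset.range r, (2 * c + r - (2 * c + r - j) % r) % r = j := by
    intro j hj
    have hj' := Finset.mem_range.mp hj
    have hks := Nat.div_add_mod (2 * c + r - j) r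
    obtain ⟨K, hK⟩ : ∃ K, K = r * ((2 * c + r - j) / r) := ⟨_, rfl⟩
    rw [← hK] at hks
    have h1 : 2 * c + r - (2 * c + r - j) % r = j + K := by omega
    rw [h1, hK, Nat.add_mul_mod_self_left, Nat.mod_eq_of_lt hj']
  have hval : ∀ j ∈ Finset.range r, (ω ^ (r - c) * ω ^ j) ^ (p ^ e) =
      ω ^ (r - c) * ω ^ ((2 * c + r - j) % r) := by
    intro j hj
    have hj' := Finset.mem_range.mp hj
    have h0 : (2 * c + r - j) % r ≡ 2 * c + r - j [MOD r] := Nat.mod_modEq _ _
    have h1 : (r - c) + (2 * c + r - j) % r + ((r - c) + j) ≡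
        (r - c) + (2 * c + r - j) + ((r - c) + j) [MOD r] :=
      (h0.add_left (r - c)).add_right ((r - c) + j)
    have h2 : (r - c) + (2 * c + r - j) + ((r - c) + j) = 3 * r := by omega
    rw [h2] at h1
    have h3 : r ∣ (r - c) + (2 * c + r - j) % r + ((r - c) + j) := by
      apply (Nat.modEq_zero_iff_dvd).1
      exact h1.trans ((Nat.modEq_zero_iff_dvd).2 (Dvd.intro_left 3 rfl))
    obtain ⟨k, hk⟩ := h3
    have hba : (ω ^ (r - c) * ω ^ ((2 * c + r - j) % r)) * (ω ^ (r - c) * ω ^ j) = 1 := by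
      rw [← pow_add, ← pow_add, ← pow_add, hk, pow_mul, hω, one_pow]
    have haa : (ω ^ (r - c) * ω ^ j) ^ (p ^ e) * (ω ^ (r - c) * ω ^ j) = 1 := by
      rw [← pow_succ, ← pow_add, ← pow_mul, mul_comm, pow_mul, hω', one_pow]
    have ha0 : ω ^ (r - c) * ω ^ j ≠ 0 := by
      intro h
      rw [h, mul_zero] at hba
      exact zero_ne_one hba
    exact mul_right_cancel₀ ha0 (haa.trans hba.symm)
  have hmap : (∏ j ∈ Finset.range r, (X - C (ω ^ (r - c) * ω ^ j)) ^ m j : F[X]).map
      (iterateFrobenius F p e) = ∏ j ∈ Finset.range r, (X - C (ω ^ (r - c) * ω ^ j)) ^ m j := by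
    rw [Polynomial.map_prod]
    calc ∏ j ∈ Finset.range r,
          ((X - C (ω ^ (r - c) * ω ^ j)) ^ m j : F[X]).map (iterateFrobenius F p e)
        = ∏ j ∈ Finset.range r, (X - C (ω ^ (r - c) * ω ^ ((2 * c + r - j) % r))) ^
            m ((2 * c + r - j) % r) := by
          apply Finset.prod_congr rfl
          intro j hj
          rw [Polynomial.map_pow, Polynomial.map_sub, Polynomial.map_X, Polynomial.map_C,
            iterateFrobenius_def, hval j hj, hsym j hj]
      _ = ∏ j ∈ Finset.range r, (X - C (ω ^ (r - c) * ω ^ j)) ^ m j :=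
          Finset.prod_nbij' (fun j => (2 * c + r - j) % r) (fun j => (2 * c + r - j) % r)
            hσmem hσmem hσσ hσσ (fun j _ => rfl)
  have hcoef := congrArg (fun g : F[X] => g.coeff t) hmap
  simp only [Polynomial.coeff_map, iterateFrobenius_def] at hcoef
  exact hcoef

end Cfsg.Agent.Lib.Helper94.Sf
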