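import Mathlib
import Cfsg.Prelude.Def_KGroupFacts
import Cfsg.Agent.Lib.Helper70.SchurCE2
import Cfsg.Agent.S0891

/-!
Piece J3 of helper70's S2116 project (helper94): the fibre product of a double and a triple stem
cover is a stem cover with kernel cyclic of order 6 (`exists_six_cover`), and the double cover of
`A_n` of S0891 in stem form (`exists_double_cover_stem`).
-/

set_option autoImplicit false

namespace Cfsg.Agent.Lib.Helper94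

open Cfsg.Agent.Lib.Helper70

theorem exists_six_cover {G : Type} [Group G] [Finite G]
    (h2 : ∃ (Γ : Type) (_ : Group Γ) (_ : Finite Γ) (σ : Γ →* G) (c : Γ),
      Cfsg.IsStemExtension σ ∧ σ.ker = Subgroup.zpowers c ∧ orderOf c = 2)
    (h3 : ∃ (Γ : Type) (_ : Group Γ) (_ : Finite Γ) (σ : Γ →* G) (c : Γ),
      Cfsg.IsStemExtension σ ∧ σ.ker = Subgroup.zpowers c ∧ orderOf c = 3) :
    ∃ (Γ : Type) (_ : Group Γ) (_ : Finite Γ) (σ : Γ →* G),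
      Cfsg.IsStemExtension σ ∧ Nonempty (σ.ker ≃* Multiplicative (ZMod 6)) := by
  classical
  obtain ⟨Γ₂, _, _, σ₂, c₂, hσ₂, hker₂, hord₂⟩ := h2
  obtain ⟨Γ₃, _, _, σ₃, c₃, hσ₃, hker₃, hord₃⟩ := h3
  have hc₂ker : c₂ ∈ σ₂.ker := by rw [hker₂]; exact Subgroup.mem_zpowers c₂
  have hc₃ker : c₃ ∈ σ₃.ker := by rw [hker₃]; exact Subgroup.mem_zpowers c₃
  have hc₂sq : c₂ ^ 2 = 1 := by rw [← hord₂]; exact pow_orderOf_eq_one c₂
  have hc₃cu : c₃ ^ 3 = 1 := by rw [← hord₃]; exact pow_orderOf_eq_one c₃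
  have hfst := pb.fst_surjective σ₂ σ₃ hσ₃.1
  have hsnd := pb.snd_surjective σ₂ σ₃ hσ₂.1
  -- the generator of the kernel
  have hw₀mem : ((c₂, c₃) : Γ₂ × Γ₃) ∈ pb σ₂ σ₃ := by
    rw [mem_pb]
    show σ₂ c₂ = σ₃ c₃
    rw [MonoidHom.mem_ker.mp hc₂ker, MonoidHom.mem_ker.mp hc₃ker]
  obtain ⟨w₀, hw₀⟩ : ∃ w₀ : pb σ₂ σ₃, (w₀ : Γ₂ × Γ₃) = (c₂, c₃) := ⟨⟨(c₂, c₃), hw₀mem⟩, rfl⟩
  -- elements of the kernels are killed by the exponent
  have hk₂ : ∀ k ∈ σ₂.ker, k ^ 4 = 1 := by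
    intro k hk
    rw [hker₂] at hk
    obtain ⟨j, rfl⟩ := Subgroup.mem_zpowers_iff.mp hk
    rw [← zpow_natCast, ← zpow_mul, mul_comm, zpow_mul, zpow_natCast]
    have : c₂ ^ 4 = 1 := by rw [show 4 = 2 * 2 from rfl, pow_mul, hc₂sq, one_pow]
    rw [this, one_zpow]
  have hk₃ : ∀ k ∈ σ₃.ker, k ^ 3 = 1 := by
    intro k hk
    rw [hker₃] at hk
    obtain ⟨j, rfl⟩ := Subgroup.mem_zpowers_iff.mp hk
    rw [← zpow_natCast, ← zpow_mul, mul_comm, zpow_mul, zpow_natCast, hc₃cu, one_zpow]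
  -- `w₀` is a product of commutators
  have hw₀comm : w₀ ∈ commutator (pb σ₂ σ₃) := by
    have h1 : c₂ ∈ commutator Γ₂ := hσ₂.2.2 hc₂ker
    rw [← map_commutator_of_surjective (pb.fst σ₂ σ₃) hfst] at h1
    obtain ⟨w, hw, hwc⟩ := h1
    have hwc' : ((w : pb σ₂ σ₃) : Γ₂ × Γ₃).1 = c₂ := hwc
    have hw2 : ((w : pb σ₂ σ₃) : Γ₂ × Γ₃).2 ∈ σ₃.ker := by
      rw [MonoidHom.mem_ker, ← pb.comm_apply, hwc']
      exact MonoidHom.mem_ker.mp hc₂ker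
    have h1' : c₃ ∈ commutator Γ₃ := hσ₃.2.2 hc₃ker
    rw [← map_commutator_of_surjective (pb.snd σ₂ σ₃) hsnd] at h1'
    obtain ⟨w', hw', hwc2⟩ := h1'
    have hwc2' : ((w' : pb σ₂ σ₃) : Γ₂ × Γ₃).2 = c₃ := hwc2
    have hw'1 : ((w' : pb σ₂ σ₃) : Γ₂ × Γ₃).1 ∈ σ₂.ker := by
      rw [MonoidHom.mem_ker, pb.comm_apply, hwc2']
      exact MonoidHom.mem_ker.mp hc₃ker
    have e : w₀ = w ^ 3 * w' ^ 4 := by
      apply Subtype.ext
      apply Prod.ext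
      · rw [hw₀, Subgroup.coe_mul, Subgroup.coe_pow, Subgroup.coe_pow, Prod.fst_mul, Prod.pow_fst,
          Prod.pow_fst, hwc', hk₂ _ hw'1, mul_one]
        show c₂ = c₂ ^ 3
        rw [show 3 = 2 + 1 from rfl, pow_add, hc₂sq, one_mul, pow_one]
      · rw [hw₀, Subgroup.coe_mul, Subgroup.coe_pow, Subgroup.coe_pow, Prod.snd_mul, Prod.pow_snd,
          Prod.pow_snd, hwc2', hk₃ _ hw2, one_mul]
        show c₃ = c₃ ^ 4
        rw [show 4 = 3 + 1 from rfl, pow_add, hc₃cu, one_mul, pow_one]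
    rw [e]
    exact Subgroup.mul_mem _ (Subgroup.pow_mem _ hw 3) (Subgroup.pow_mem _ hw' 4)
  -- the kernel is generated by `w₀`
  have hkerle : (σ₂.comp (pb.fst σ₂ σ₃)).ker ≤ Subgroup.zpowers w₀ := by
    intro y hy
    have h1 : σ₂ ((y : pb σ₂ σ₃) : Γ₂ × Γ₃).1 = 1 := hy
    have h2 : σ₃ ((y : pb σ₂ σ₃) : Γ₂ × Γ₃).2 = 1 := by rw [← pb.comm_apply, h1]
    have h1' : ((y : pb σ₂ σ₃) : Γ₂ × Γ₃).1 ∈ Subgroup.zpowers c₂ := by
      rw [← hker₂]; exact h1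
    have h2' : ((y : pb σ₂ σ₃) : Γ₂ × Γ₃).2 ∈ Subgroup.zpowers c₃ := by
      rw [← hker₃]; exact h2
    obtain ⟨i, hi⟩ := Subgroup.mem_zpowers_iff.mp h1'
    obtain ⟨j, hj⟩ := Subgroup.mem_zpowers_iff.mp h2'
    rw [Subgroup.mem_zpowers_iff]
    refine ⟨3 * i + 4 * j, ?_⟩
    apply Subtype.ext
    apply Prod.ext
    · rw [Subgroup.coe_zpow, Prod.pow_fst, hw₀, ← hi]
      show c₂ ^ (3 * i + 4 * j) = c₂ ^ i
      have e1 : (3 * i + 4 * j : ℤ) = i + 2 * (i + 2 * j) := by ring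
      rw [e1, zpow_add, zpow_mul]
      have : c₂ ^ (2 : ℤ) = 1 := by rw [← hc₂sq]; exact zpow_natCast c₂ 2
      rw [this, one_zpow, mul_one]
    · rw [Subgroup.coe_zpow, Prod.pow_snd, hw₀, ← hj]
      show c₃ ^ (3 * i + 4 * j) = c₃ ^ j
      have e1 : (3 * i + 4 * j : ℤ) = j + 3 * (i + j) := by ring
      rw [e1, zpow_add, zpow_mul]
      have : c₃ ^ (3 : ℤ) = 1 := by rw [← hc₃cu]; exact zpow_natCast c₃ 3
      rw [this, one_zpow, mul_one]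
  have hw₀ker : w₀ ∈ (σ₂.comp (pb.fst σ₂ σ₃)).ker := by
    rw [MonoidHom.mem_ker]
    show σ₂ ((w₀ : pb σ₂ σ₃) : Γ₂ × Γ₃).1 = 1
    rw [hw₀]
    exact MonoidHom.mem_ker.mp hc₂ker
  have hkereq : (σ₂.comp (pb.fst σ₂ σ₃)).ker = Subgroup.zpowers w₀ :=
    le_antisymm hkerle (Subgroup.zpowers_le.mpr hw₀ker)
  have hstem : Cfsg.IsStemExtension (σ₂.comp (pb.fst σ₂ σ₃)) := by
    refine ⟨hσ₂.1.comp hfst, pb.ker_comp_le_center σ₂ σ₃ hσ₂.2.1 hσ₃.2.1, ?_⟩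
    rw [hkereq]
    exact Subgroup.zpowers_le.mpr hw₀comm
  have hordw : orderOf w₀ = 6 := by
    rw [← Subgroup.orderOf_coe, hw₀, Prod.orderOf_mk, hord₂, hord₃]
    rfl
  have hcard : Nat.card (σ₂.comp (pb.fst σ₂ σ₃)).ker = 6 := by
    rw [hkereq, Nat.card_zpowers, hordw]
  have hcyc : IsCyclic (σ₂.comp (pb.fst σ₂ σ₃)).ker := by
    rw [hkereq]
    infer_instance
  have e' : (σ₂.comp (pb.fst σ₂ σ₃)).ker ≃* Multiplicative (ZMod 6) := by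
    have e'' := (zmodCyclicMulEquiv hcyc).symm
    rw [hcard] at e''
    exact e''
  exact ⟨pb σ₂ σ₃, inferInstance, inferInstance, σ₂.comp (pb.fst σ₂ σ₃), hstem, ⟨e'⟩⟩

theorem exists_double_cover_stem (n : ℕ) (hn : 4 ≤ n) :
    ∃ (Γ : Type) (_ : Group Γ) (_ : Finite Γ) (σ : Γ →* alternatingGroup (Fin n)) (c : Γ),
      Cfsg.IsStemExtension σ ∧ σ.ker = Subgroup.zpowers c ∧ orderOf c = 2 := by
  obtain ⟨Γ, hΓ, hfin, z, hz, hord, hcomm, hnorm, ⟨e⟩⟩ := Cfsg.Agent.S0891.result n hn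
  have hker : (e.toMonoidHom.comp (QuotientGroup.mk' (Subgroup.zpowers z))).ker
      = Subgroup.zpowers z := by
    ext x
    rw [MonoidHom.mem_ker, MonoidHom.comp_apply]
    constructor
    · intro h
      have h2 : QuotientGroup.mk' (Subgroup.zpowers z) x = 1 :=
        e.injective (by rw [map_one]; exact h)
      exact (QuotientGroup.eq_one_iff x).mp h2
    · intro h
      have h2 : QuotientGroup.mk' (Subgroup.zpowers z) x = 1 := (QuotientGroup.eq_one_iff x).mpr h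
      rw [h2]
      exact map_one _
  refine ⟨Γ, hΓ, hfin, e.toMonoidHom.comp (QuotientGroup.mk' (Subgroup.zpowers z)), z,
    ⟨e.surjective.comp (QuotientGroup.mk'_surjective _), ?_, ?_⟩, hker, hord⟩
  · rw [hker]
    exact Subgroup.zpowers_le.mpr hz
  · rw [hker]
    exact Subgroup.zpowers_le.mpr hcomm

end Cfsg.Agent.Lib.Helper94
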