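import Cfsg.Agent.Lib.Helper98.T73Defs
import Cfsg.Agent.Lib.Helper47.FormOne
import Cfsg.Agent.Lib.Helper47.SpPrime
import Cfsg.Agent.Lib.Helper47.SemiConj
import Cfsg.Agent.Lib.Helper47.SemiConjMat
import Cfsg.Agent.Lib.Helper47.OrthFix
import Cfsg.Agent.Lib.Helper47.PrimeOrd
import Cfsg.Agent.Lib.Helper47.DualPoly

/-!
# Project T73 (S5973), piece BOUND: `typed_bound`
-/

set_option autoImplicit false

namespace Cfsg.Agent.Lib.Helper98.T73

open Cfsg.Agent.Lib.Helper47 Module Polynomial

universe u

/-- a self-dual factor of `X ^ rr - 1` divides its adjoint polynomial -/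
theorem bound_dvd_adj {F : Type*} [Field F] {f : F[X]} (hfi : Irreducible f) {rr : ℕ}
    (hrr : 0 < rr) (hdvd : f ∣ X ^ rr - 1) (hself : dualP (RingHom.id F) f = f)
    (hc0 : f.coeff 0 ≠ 0) : f ∣ adjPoly (RingHom.id F) (X ^ (rr - 1)) f := by
  haveI : Fact (Irreducible f) := ⟨hfi⟩
  obtain ⟨x, hxdef⟩ : ∃ x : AdjoinRoot f, x = AdjoinRoot.root f := ⟨_, rfl⟩
  have hx : aeval x f = 0 := by rw [hxdef, AdjoinRoot.aeval_eq, AdjoinRoot.mk_self]
  have hxr : x ^ rr = 1 := by
    obtain ⟨k, hk⟩ := hdvd
    have h1 : aeval x (X ^ rr - 1 : F[X]) = 0 := by rw [hk, map_mul, hx, zero_mul]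
    rw [map_sub, map_pow, aeval_X, map_one, sub_eq_zero] at h1
    exact h1
  have hd : dualP (RingHom.id F) f = C (f.coeff 0)⁻¹ * f.reverse := by
    unfold dualP
    rw [Polynomial.map_id, RingHom.id_apply]
  have hd' : f = C (f.coeff 0)⁻¹ * f.reverse := hself.symm.trans hd
  have hrev : f.reverse = C (f.coeff 0) * f := by
    calc f.reverse = C (f.coeff 0) * (C (f.coeff 0)⁻¹ * f.reverse) := by
          rw [← mul_assoc, ← C_mul, mul_inv_cancel₀ hc0, C_1, one_mul]
      _ = C (f.coeff 0) * f := by rw [← hd']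
  have h1 : aeval x f.reverse = 0 := by rw [hrev, map_mul, hx, mul_zero]
  have hy : x ^ (rr - 1) * x = 1 := by rw [← pow_succ, Nat.sub_add_cancel hrr, hxr]
  letI : Invertible (x ^ (rr - 1)) := ⟨x, by rw [mul_comm]; exact hy, hy⟩
  have h2 : eval₂ (algebraMap F (AdjoinRoot f)) (x ^ (rr - 1)) f = 0 :=
    (eval₂_reverse_eq_zero_iff (algebraMap F (AdjoinRoot f)) (x ^ (rr - 1)) f).1 h1
  have h3 : aeval x (adjPoly (RingHom.id F) (X ^ (rr - 1)) f) = 0 := by
    unfold adjPoly
    rw [Polynomial.map_id, aeval_comp, map_pow, aeval_X]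
    exact h2
  rw [hxdef, AdjoinRoot.aeval_eq, AdjoinRoot.mk_eq_zero] at h3
  exact h3

/-- dimension of the orthogonal complement -/
theorem bound_orth_finrank {F : Type*} [Field F] [Finite F] {V : Type*} [AddCommGroup V]
    [Module F V] [FiniteDimensional F V] {B : V → V → F} {ε : F}
    (hB : IsSForm (RingHom.id F) ε B) (hnd : Nondeg B) (U : Submodule F V) :
    finrank F (hB.orth U) + finrank F U = finrank F V := by
  let Φ : V →ₗ[F] Module.Dual F U :=
    { toFun := fun y =>
        { toFun := fun x => B (x : V) y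
          map_add' := fun a b => hB.add_left _ _ _
          map_smul' := fun c a => hB.smul_left c (a : V) y }
      map_add' := fun y z => by
        apply LinearMap.ext
        intro x
        exact hB.add_right _ _ _
      map_smul' := fun c y => by
        apply LinearMap.ext
        intro x
        exact hB.smul_right c (x : V) y }
  have hsurj : Function.Surjective Φ := by
    intro l
    obtain ⟨l', hl'⟩ := LinearMap.exists_extend l
    obtain ⟨y, hy⟩ := exists_repr (F := F) (X := V) (Y := V) (fun x y => B x y)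
      (fun x y y' => hB.add_right x y y')
      (fun y => ⟨fun x x' => hB.add_left x x' y, fun c x => hB.smul_left c x y⟩)
      (fun y hy => hB.nondeg_right hnd y hy) le_rfl l'
    refine ⟨y, ?_⟩
    apply LinearMap.ext
    intro x
    show B (x : V) y = l x
    rw [hy, ← hl']
    rfl
  have hker : LinearMap.ker Φ = hB.orth U := by
    ext y
    rw [LinearMap.mem_ker, hB.mem_orth]
    constructor
    · intro h x hx
      have h1 := congrArg (fun l : Module.Dual F U => l ⟨x, hx⟩) h
      exact h1
    · intro h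
      apply LinearMap.ext
      intro x
      exact h x x.2
  have h1 := LinearMap.finrank_range_add_finrank_ker Φ
  rw [LinearMap.range_eq_top.2 hsurj, finrank_top, Subspace.dual_finrank_eq, hker] at h1
  omega

/-- a totally isotropic subspace of a nondegenerate subspace has at most half the dimension -/
theorem bound_half {F : Type*} [Field F] [Finite F] {V : Type*} [AddCommGroup V]
    [Module F V] [FiniteDimensional F V] {B : V → V → F} {ε : F}
    (hB : IsSForm (RingHom.id F) ε B) (hnd : Nondeg B) (K U : Submodule F V)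
    (hK : Nondeg (resForm B K)) (hUK : U ≤ K) (hU : ∀ x ∈ U, ∀ y ∈ U, B x y = 0) :
    2 * finrank F U ≤ finrank F K := by
  have hc := isCompl_orth hB hK
  have h1 := Submodule.finrank_add_eq_of_isCompl hc
  have h2 := bound_orth_finrank hB hnd U
  have hle : U ⊔ hB.orth K ≤ hB.orth U := by
    apply sup_le
    · intro y hy x hx
      exact hU x hx y hy
    · intro y hy x hx
      exact hy x (hUK hx)
  have hdisj : U ⊓ hB.orth K = ⊥ := by
    rw [eq_bot_iff]
    intro x hx
    have h5 : x ∈ K ⊓ hB.orth K := ⟨hUK hx.1, hx.2⟩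
    rw [hc.inf_eq_bot] at h5
    exact h5
  have h3 := Submodule.finrank_sup_add_finrank_inf_eq U (hB.orth K)
  rw [hdisj, finrank_bot] at h3
  have h4 := Submodule.finrank_mono hle
  omega

/-- a monic polynomial all of whose monic irreducible factors are `f` is a power of `f` -/
theorem bound_eq_pow {F : Type*} [Field F] {f : F[X]} : ∀ (n : ℕ) (c : F[X]), c.natDegree = n →
    c.Monic → (∀ q : F[X], q.Monic → Irreducible q → q ∣ c → q = f) → ∃ m : ℕ, c = f ^ m := by
  intro n
  induction n using Nat.strong_induction_on with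
  | _ n ih =>
    intro c hn hc hall
    by_cases hu : IsUnit c
    · refine ⟨0, ?_⟩
      rw [pow_zero]
      exact hc.eq_one_of_isUnit hu
    · obtain ⟨q, hqm, hqi, c', hc'⟩ := Polynomial.exists_monic_irreducible_factor c hu
      have hqf : q = f := hall q hqm hqi ⟨c', hc'⟩
      have hc'm : c'.Monic := by
        have h1 := hc
        rw [hc'] at h1
        exact hqm.of_mul_monic_left h1
      have hdeg : c'.natDegree < n := by
        have h1 : c.natDegree = q.natDegree + c'.natDegree := by
          rw [hc']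
          exact hqm.natDegree_mul hc'm
        have h2 := hqi.natDegree_pos
        omega
      obtain ⟨m, hm⟩ := ih _ hdeg c' rfl hc'm
        (fun q' hq'm hq'i hq' => hall q' hq'm hq'i (hq'.trans ⟨q, by rw [hc', mul_comm]⟩))
      exact ⟨m + 1, by rw [hc', hm, hqf, pow_succ']⟩

open Classical in
/-- multiplicity bound in a multiset of monic irreducibles -/
theorem bound_count {F : Type*} [Field F] {f : F[X]} (hfi : Irreducible f) (hfm : f.Monic) :
    ∀ (u : Multiset F[X]), (∀ a ∈ u, a.Monic ∧ Irreducible a) → ∀ m : ℕ, f ^ m ∣ u.prod →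
      m ≤ u.count f := by
  intro u
  induction u using Multiset.induction_on with
  | empty =>
    intro _ m hm
    rw [Multiset.prod_zero] at hm
    by_contra hne
    have hm0 : m ≠ 0 := by
      intro h
      apply hne
      rw [h]
      exact Nat.zero_le _
    have h1 : f ∣ 1 := (dvd_pow_self f hm0).trans hm
    exact hfi.not_isUnit (isUnit_of_dvd_one h1)
  | cons a t ih =>
    intro hu m hm
    rw [Multiset.prod_cons] at hm
    have ht : ∀ b ∈ t, b.Monic ∧ Irreducible b := fun b hb => hu b (Multiset.mem_cons_of_mem hb)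
    by_cases haf : a = f
    · rw [haf] at hm
      rw [haf, Multiset.count_cons_self]
      rcases Nat.eq_zero_or_pos m with h0 | hpos
      · omega
      · obtain ⟨m', rfl⟩ : ∃ m', m = m' + 1 := ⟨m - 1, by omega⟩
        rw [pow_succ'] at hm
        have h1 := (mul_dvd_mul_iff_left hfi.ne_zero).1 hm
        have h2 := ih ht m' h1
        omega
    · rw [Multiset.count_cons_of_ne (fun h => haf h.symm)]
      apply ih ht m
      have hcop : IsCoprime (f ^ m) a := by
        apply IsCoprime.pow_left
        rw [hfi.coprime_iff_not_dvd]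
        intro hdvd
        apply haf
        exact (eq_of_monic_of_associated hfm (hu a (Multiset.mem_cons_self a t)).1
          (hfi.associated_of_dvd (hu a (Multiset.mem_cons_self a t)).2 hdvd)).symm
      exact hcop.dvd_of_dvd_mul_left hm

open Classical in
/-- the dimension of a primary component is bounded by the multiplicity -/
theorem bound_finrank_ker {F : Type u} [Field F] {V : Type u} [AddCommGroup V] [Module F V]
    [FiniteDimensional F V] (g : Module.End F V) (hgs : g.IsSemisimple) (f : F[X])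
    (hfi : Irreducible f) (hfm : f.Monic) (u : Multiset F[X])
    (hu : ∀ a ∈ u, a.Monic ∧ Irreducible a) (c0 : F[X]) (hc0 : IsCoprime f c0)
    (hch : g.charpoly = c0 * u.prod) :
    finrank F (LinearMap.ker (aeval g f)) ≤ f.natDegree * u.count f := by
  have hK := ker_aeval_invt g f
  obtain ⟨K', hK', hc⟩ := Module.End.isSemisimple_iff.mp hgs _ hK
  have hcp := charpoly_of_isCompl hK hK' hc
  have hall : ∀ q : F[X], q.Monic → Irreducible q → q ∣ (resInv g hK).charpoly → q = f := by
    intro q hqm hqi hq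
    obtain ⟨w, hw0, hqw⟩ := exists_ker_of_dvd_charpoly _ _ (resInv g hK) rfl
      (isSemisimple_resInv hgs hK) q hqm hqi hq
    have hw0' : (w : V) ≠ 0 := fun h => hw0 (Subtype.ext h)
    have hfw : aeval g f (w : V) = 0 := LinearMap.mem_ker.1 w.2
    have hqw' : aeval g q (w : V) = 0 := by
      rw [← aeval_resInv_apply hK, hqw]
      rfl
    have hfq : f ∣ q := (cycMap_eq_zero_iff hfi hw0' hfw q).1 hqw'
    exact (eq_of_monic_of_associated hfm hqm (hfi.associated_of_dvd hqi hfq)).symm
  obtain ⟨m, hm⟩ := bound_eq_pow _ _ rfl (LinearMap.charpoly_monic _) hall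
  have hfin : finrank F (LinearMap.ker (aeval g f)) = m * f.natDegree := by
    rw [← LinearMap.charpoly_natDegree (resInv g hK), hm, hfm.natDegree_pow]
  have hdvd : f ^ m ∣ u.prod := by
    have h1 : f ^ m ∣ c0 * u.prod := by
      rw [← hch, hcp, hm]
      exact dvd_mul_right _ _
    exact (IsCoprime.pow_left hc0).dvd_of_dvd_mul_left h1
  have hcount := bound_count hfi hfm u hu m hdvd
  rw [hfin, mul_comm]
  exact Nat.mul_le_mul_left _ hcount

/-- an irreducible constituent of a nonzero invariant subspace of the range of `g - 1` -/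
theorem bound_exists_factor {F : Type u} [Field F] {V : Type u} [AddCommGroup V] [Module F V]
    [FiniteDimensional F V] (p : ℕ) [Fact p.Prime] [CharP F p] (r : ℕ) (hr : r.Prime)
    (hrp : r ≠ p) (g : Module.End F V) (hg : g ^ r = 1) (u : Multiset F[X])
    (hu : ∀ f ∈ u, IsCycFactor r f) (e : ℕ) (hch : g.charpoly = (X - 1) ^ e * u.prod)
    (W : Submodule F V) (hWR : W ≤ LinearMap.range (g - 1))
    (hW : W ∈ Module.End.invtSubmodule g) (hW0 : W ≠ ⊥) :
    ∃ f ∈ u, ∃ v ∈ W, v ≠ 0 ∧ aeval g f v = 0 := by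
  have hrF : (r : F) ≠ 0 :=
    natCast_ne_zero_of_coprime p ((Nat.coprime_primes hr Fact.out).mpr hrp)
  have hnt : Nontrivial ↥W := (Submodule.nontrivial_iff_ne_bot).2 hW0
  obtain ⟨f, hfm, hfi, hfmin, v, hv0, hfv⟩ := exists_irreducible_ker (resInv g hW)
  have hv0' : (v : V) ≠ 0 := fun h => hv0 (Subtype.ext h)
  have hfv' : aeval g f (v : V) = 0 := by
    rw [← aeval_resInv_apply hW, hfv]
    rfl
  have hXr : f ∣ X ^ r - 1 := by
    apply hfmin.trans
    apply minpoly.dvd
    apply LinearMap.ext
    intro x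
    apply Subtype.ext
    rw [aeval_resInv_apply, map_sub, map_pow, aeval_X, map_one, hg, sub_self]
    rfl
  have hne : f ≠ X - 1 := by
    intro hfx
    rw [hfx, map_sub, aeval_X, map_one] at hfv'
    have h1 : (v : V) ∈ LinearMap.ker (g - 1) := LinearMap.mem_ker.2 hfv'
    have h2 := Submodule.disjoint_def.mp (disjoint_ker_range g r hrF hg) _ h1 (hWR v.2)
    exact hv0' h2
  have hdvd : f ∣ g.charpoly := by
    have h1 : f ∣ minpoly F g := by
      rw [← cycMap_eq_zero_iff hfi hv0' hfv' (minpoly F g), cycMap_apply, minpoly.aeval,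
        LinearMap.zero_apply]
    exact h1.trans (LinearMap.minpoly_dvd_charpoly g)
  rw [hch] at hdvd
  have hfu : f ∈ u := by
    rcases hfi.prime.dvd_or_dvd hdvd with h | h
    · exfalso
      have h2 := hfi.prime.dvd_of_dvd_pow h
      exact hne (eq_of_monic_of_associated hfm monic_X_sub_one
        (hfi.associated_of_dvd irreducible_X_sub_one h2))
    · obtain ⟨a, ha, hfa⟩ := hfi.prime.exists_mem_multiset_dvd h
      have h3 := eq_of_monic_of_associated hfm (hu a ha).1
        (hfi.associated_of_dvd (hu a ha).2.1 hfa)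
      rw [h3]
      exact ha
  exact ⟨f, hfu, v, v.2, hv0', hfv'⟩

variable {F : Type u} [Field F] [Fintype F] {V : Type u} [AddCommGroup V] [Module F V]
  [FiniteDimensional F V] {Q : V → F} {B : V → V → F}

open Classical in
/-- BOUND -/
theorem typed_bound (hQ : IsQuad Q B) (hnd : Nondeg B) (p : ℕ) [Fact p.Prime] [CharP F p]
    (r : ℕ) (hr : r.Prime) (hr2 : r ≠ 2) (hrp : r ≠ p) (g : Module.End F V) (hgQ : QI Q g)
    (hg : g ^ r = 1) (heven : Even (orderOf ((Fintype.card F : ℕ) : ZMod r)))
    (u : Multiset F[X]) (hu : ∀ f ∈ u, IsCycFactor r f) (e : ℕ)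
    (hch : g.charpoly = (X - 1) ^ e * u.prod)
    (f₀ : F[X]) (hone : ∀ f ∈ u, f ≠ f₀ → u.count f = 1)
    (U : Submodule F V) (hUR : U ≤ LinearMap.range (g - 1)) (hUg : U.map g ≤ U)
    (hU : TS Q U) :
    2 * finrank F U ≤ orderOf ((Fintype.card F : ℕ) : ZMod r) * u.count f₀ := by
  by_cases hU0 : U = ⊥
  · rw [hU0, finrank_bot, mul_zero]
    exact Nat.zero_le _
  have hB := hQ.form
  have hrpos : 0 < r := hr.pos
  have hrF : (r : F) ≠ 0 :=
    natCast_ne_zero_of_coprime p ((Nat.coprime_primes hr Fact.out).mpr hrp)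
  have hgi : ∀ x y, B (g x) (g y) = B x y := fun x y => hQ.isometry hQ g hgQ x y
  have hσ : ∀ x : F, (RingHom.id F) ((RingHom.id F) x) = x := fun _ => rfl
  have hinv : aeval g (X ^ (r - 1) : F[X]) * g = 1 := by
    rw [map_pow, aeval_X, ← pow_succ, Nat.sub_add_cancel hrpos, hg]
  have hsep : (X ^ r - 1 : F[X]).Separable := by
    have h1 := separable_X_pow_sub_C (1 : F) hrF one_ne_zero
    rw [C_1] at h1
    exact h1
  have hgs : g.IsSemisimple := by
    apply Module.End.isSemisimple_of_squarefree_aeval_eq_zero hsep.squarefree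
    rw [map_sub, map_pow, aeval_X, map_one, hg, sub_self]
  have hUinv : U ∈ Module.End.invtSubmodule g := by
    rw [Module.End.mem_invtSubmodule_iff_forall_mem_of_mem]
    intro x hx
    exact hUg ⟨x, hx, rfl⟩
  have hBU : ∀ x ∈ U, ∀ y ∈ U, B x y = 0 := by
    intro x hx y hy
    have h1 := hQ.polar x y
    rw [hU _ (U.add_mem hx hy), hU x hx, hU y hy, zero_add, zero_add] at h1
    exact h1.symm
  have hfacts : ∀ f ∈ u, Nondeg (resForm B (LinearMap.ker (aeval g f))) ∧
      finrank F (LinearMap.ker (aeval g f)) ≤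
        orderOf ((Fintype.card F : ℕ) : ZMod r) * u.count f := by
    intro f hf
    have hcf := hu f hf
    have hself : dualP (RingHom.id F) f = f :=
      (dualP_id_eq_self_iff rfl hr hr2 hrp hcf).2 heven
    have hdvd := bound_dvd_adj hcf.2.1 hrpos hcf.dvd_X_pow_sub_one hself
      (hcf.coeff_zero_ne hrpos)
    have hndK := nondeg_ker_of_dvd hB hσ hgi hinv hnd hgs hdvd
    constructor
    · intro x hx
      by_contra hx0
      obtain ⟨y, hy, hxy⟩ := hndK x x.2 (fun h => hx0 (Subtype.ext h))
      exact hxy (hx ⟨y, hy⟩)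
    · have hdeg := hcf.natDegree_eq (rfl : Fintype.card F = Fintype.card F) hr hrp
      rw [← hdeg]
      refine bound_finrank_ker g hgs f hcf.2.1 hcf.1 u
        (fun a ha => ⟨(hu a ha).1, (hu a ha).2.1⟩) ((X - 1) ^ e) ?_ hch
      apply IsCoprime.pow_right
      rw [hcf.2.1.coprime_iff_not_dvd]
      intro h
      exact hcf.ne_X_sub_one p hr hrp (eq_of_monic_of_associated hcf.1 monic_X_sub_one
        (hcf.2.1.associated_of_dvd irreducible_X_sub_one h))
  have h2e : ∀ f ∈ u, f ≠ f₀ → ∀ v ∈ U, aeval g f v = 0 → v = 0 := by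
    intro f hf hne v hv hfv
    by_contra hv0
    have hcf := hu f hf
    obtain ⟨hndK, hdim⟩ := hfacts f hf
    rw [hone f hf hne, mul_one] at hdim
    have hdeg := hcf.natDegree_eq (rfl : Fintype.card F = Fintype.card F) hr hrp
    have hcyc : finrank F (cyc g v) = f.natDegree := finrank_cyc hcf.2.1 hv0 hfv
    have hle : cyc g v ≤ LinearMap.ker (aeval g f) := by
      rintro _ ⟨q, rfl⟩
      rw [LinearMap.mem_ker, cycMap_apply, aeval_comm_apply, hfv, map_zero]
    have heq : cyc g v = LinearMap.ker (aeval g f) :=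
      Submodule.eq_of_le_of_finrank_le hle (by rw [hcyc, hdeg]; exact hdim)
    have hleU : cyc g v ≤ U := by
      rintro _ ⟨q, rfl⟩
      rw [cycMap_apply]
      exact aeval_mem_of_invt hUinv q hv
    have hvK : v ∈ LinearMap.ker (aeval g f) := LinearMap.mem_ker.2 hfv
    have h5 := hndK ⟨v, hvK⟩ (fun y => hBU v hv y (hleU (by rw [heq]; exact y.2)))
    exact hv0 (congrArg Subtype.val h5)
  obtain ⟨f, hfu, v, hvU, hv0, hfv⟩ :=
    bound_exists_factor p r hr hrp g hg u hu e hch U hUR hUinv hU0
  have hff₀ : f = f₀ := by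
    by_contra hne
    exact hv0 (h2e f hfu hne v hvU hfv)
  rw [← hff₀]
  rw [← hff₀] at h2e
  have hcf := hu f hfu
  obtain ⟨hndK, hdim⟩ := hfacts f hfu
  have hUK : U ≤ LinearMap.ker (aeval g f) := by
    by_contra hnot
    have hW0 : U.map (aeval g f) ≠ ⊥ := by
      intro h
      apply hnot
      intro x hx
      rw [LinearMap.mem_ker]
      have h6 : aeval g f x ∈ U.map (aeval g f) := ⟨x, hx, rfl⟩
      rw [h] at h6
      exact (Submodule.mem_bot F).1 h6
    have hWU : U.map (aeval g f) ≤ U := by
      rintro _ ⟨x, hx, rfl⟩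
      exact aeval_mem_of_invt hUinv f hx
    have hWinv : U.map (aeval g f) ∈ Module.End.invtSubmodule g := by
      rw [Module.End.mem_invtSubmodule_iff_forall_mem_of_mem]
      rintro _ ⟨x, hx, rfl⟩
      exact ⟨g x, hUg ⟨x, hx, rfl⟩, aeval_comm_apply' g f x⟩
    obtain ⟨f', hf'u, v', hv'W, hv'0, hf'v'⟩ :=
      bound_exists_factor p r hr hrp g hg u hu e hch _ (hWU.trans hUR) hWinv hW0
    by_cases hf' : f' = f
    · rw [hf'] at hf'v'
      obtain ⟨x, hx, rfl⟩ := hv'W
      obtain ⟨k, hk⟩ := hcf.dvd_X_pow_sub_one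
      have hsep' : (f * k).Separable := by
        rw [← hk]
        exact hsep
      obtain ⟨a, b, hab⟩ := hsep'.isCoprime
      apply hv'0
      have h1 : aeval g (a * f + b * k) (aeval g f x) = aeval g f x := by
        rw [hab, map_one, Module.End.one_apply]
      rw [← h1]
      simp only [map_add, map_mul, LinearMap.add_apply, Module.End.mul_apply]
      have h2 : aeval g k (aeval g f x) = 0 := by
        rw [← Module.End.mul_apply, ← map_mul, mul_comm, ← hk, map_sub, map_pow, aeval_X,
          map_one, hg, sub_self, LinearMap.zero_apply]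
      rw [hf'v', map_zero, zero_add, h2, map_zero]
    · exact hv'0 (h2e f' hf'u hf' v' (hWU hv'W) hf'v')
  exact (bound_half hB hnd _ U hndK hUK hBU).trans hdim

end Cfsg.Agent.Lib.Helper98.T73
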