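import Mathlib
import Cfsg.Prelude.Def_GeometricClasses
import Cfsg.Agent.Lib.Helper98.TDBase
import Cfsg.Agent.Lib.Helper47.InvSL
import Cfsg.Agent.Lib.Helper47.SemiConjMat

/-!
# S5979 piece TD-IF (helper94 for helper98): an element of `SL_n` with scalar square is
`SL`-conjugate into `H`.
-/

set_option autoImplicit false

namespace Cfsg.Agent.Lib.Helper98.TD

open Matrix Polynomial
open scoped Kronecker

universe u

theorem conj_into_of_sq {F : Type*} [Field F] [Fintype F] {q : ℕ} (hq : Fintype.card F = q)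
    (h2 : (2 : F) ≠ 0) (n b : ℕ) (hn : n = 2 * b) (hb : 1 ≤ b)
    (H : Subgroup (GL (Fin n) F))
    (hY1 : ∀ (c : F), c ≠ 0 → ∀ s t : ℕ, s + t = b → ∃ y ∈ H,
      (y : Matrix (Fin n) (Fin n) F).charpoly = (X - C c) ^ (2 * s) * (X - C (-c)) ^ (2 * t) ∧
      (y : Matrix (Fin n) (Fin n) F) * (y : Matrix (Fin n) (Fin n) F) =
        (c ^ 2) • (1 : Matrix (Fin n) (Fin n) F))
    (hY2 : ∀ z : F, z ≠ 0 → ∃ y ∈ H,
      (y : Matrix (Fin n) (Fin n) F).charpoly = (X ^ 2 - C z) ^ b ∧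
      (y : Matrix (Fin n) (Fin n) F) * (y : Matrix (Fin n) (Fin n) F) =
        z • (1 : Matrix (Fin n) (Fin n) F))
    (hv : padicValNat 2 (q - 1) ≤ padicValNat 2 n)
    (x : GL (Fin n) F) (hx : x ∈ Cfsg.Geo.specialLinear (Fin n) F) (z : F)
    (hz : ((x ^ 2 : GL (Fin n) F) : Matrix (Fin n) (Fin n) F) = z • (1 : Matrix (Fin n) (Fin n) F)) :
    ∃ g ∈ Cfsg.Geo.specialLinear (Fin n) F, g⁻¹ * x * g ∈ H := by
  classical
  haveI : NeZero n := ⟨by omega⟩
  obtain ⟨M, hM⟩ : ∃ M : Matrix (Fin n) (Fin n) F, M = (x : Matrix (Fin n) (Fin n) F) :=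
    ⟨_, rfl⟩
  have hMM : M * M = z • (1 : Matrix (Fin n) (Fin n) F) := by
    rw [hM, ← hz, pow_two, Units.val_mul]
  have hdet : M.det = 1 := by
    rw [hM]
    have h := hx
    unfold Cfsg.Geo.specialLinear at h
    rw [MonoidHom.mem_ker, Units.ext_iff, Matrix.GeneralLinearGroup.val_det_apply,
      Units.val_one] at h
    exact h
  have hzn : z ^ n = 1 := by
    have h := congrArg Matrix.det hMM
    rw [Matrix.det_mul, hdet, Matrix.det_smul, Matrix.det_one, Fintype.card_fin] at h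
    linear_combination -h
  have hz0 : z ≠ 0 := by
    rintro rfl
    rw [zero_pow (by omega)] at hzn
    exact zero_ne_one hzn
  obtain ⟨hss, hcases⟩ : Module.End.IsSemisimple (toLin' M) ∧
      ((∃ c : F, ∃ a b : ℕ, z = c ^ 2 ∧ a + b = n ∧
          M.charpoly = (X - C c) ^ a * (X - C (-c)) ^ b) ∨
       ((∀ c : F, c ^ 2 ≠ z) ∧ ∃ m : ℕ, n = 2 * m ∧ M.charpoly = (X ^ 2 - C z) ^ m)) := by
    rcases Cfsg.Agent.Lib.Helper47.inv_classes M z hz0 hMM with ⟨-, h⟩ | ⟨h2', -⟩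
    · exact h
    · exact absurd h2' h2
  obtain ⟨y, hyH, hychar, hyy⟩ : ∃ y ∈ H,
      (y : Matrix (Fin n) (Fin n) F).charpoly = M.charpoly ∧
      (y : Matrix (Fin n) (Fin n) F) * (y : Matrix (Fin n) (Fin n) F) =
        z • (1 : Matrix (Fin n) (Fin n) F) := by
    rcases hcases with ⟨c, a', b', hzc, hab, hchar⟩ | ⟨-, m, hm, hchar⟩
    · have hc0 : c ≠ 0 := by
        rintro rfl
        apply hz0
        rw [hzc]
        ring
      have hd : M.det = (-1) ^ a' * c ^ n := by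
        rw [Matrix.det_eq_sign_charpoly_coeff, Fintype.card_fin,
          Polynomial.coeff_zero_eq_eval_zero, hchar]
        simp only [Polynomial.eval_mul, Polynomial.eval_pow, Polynomial.eval_sub,
          Polynomial.eval_X, Polynomial.eval_C]
        have hn1 : (-1 : F) ^ n = 1 := by
          rw [hn, pow_mul]
          norm_num
        rw [hn1, ← hab, pow_add]
        have h3 : (0 - c) ^ a' = (-1) ^ a' * c ^ a' := by
          rw [zero_sub, neg_pow]
        rw [h3]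
        ring
      have ha_even : Even a' := by
        by_contra hodd
        rw [Nat.not_even_iff_odd] at hodd
        rw [hdet, hodd.neg_one_pow] at hd
        exact Cfsg.Agent.Lib.Helper47.no_pow_eq_neg_one hq h2 hv c (by linear_combination hd)
      obtain ⟨s, hs⟩ := ha_even
      have hb_even : Even b' := ⟨b - s, by omega⟩
      obtain ⟨t, ht⟩ := hb_even
      obtain ⟨y, hyH, hyc, hyy⟩ := hY1 c hc0 s t (by omega)
      refine ⟨y, hyH, ?_, ?_⟩
      · rw [hyc, hchar, hs, ht, two_mul, two_mul]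
      · rw [hyy, hzc]
    · obtain ⟨y, hyH, hyc, hyy⟩ := hY2 z hz0
      refine ⟨y, hyH, ?_, hyy⟩
      have hmb : m = b := by omega
      rw [hyc, hchar, hmb]
  obtain ⟨Ym, hYm⟩ : ∃ Ym : Matrix (Fin n) (Fin n) F, Ym = (y : Matrix (Fin n) (Fin n) F) :=
    ⟨_, rfl⟩
  rw [← hYm] at hychar hyy
  have hssY : Module.End.IsSemisimple (toLin' Ym) := by
    rcases Cfsg.Agent.Lib.Helper47.inv_classes Ym z hz0 hyy with ⟨-, h, -⟩ | ⟨h2', -⟩
    · exact h
    · exact absurd h2' h2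
  obtain ⟨P, hPdet, hPM⟩ :=
    Cfsg.Agent.Lib.Helper47.exists_conj_matrix M Ym hss hssY hychar.symm
  obtain ⟨A, hA⟩ : ∃ A : GL (Fin n) F, (A : Matrix (Fin n) (Fin n) F) = P :=
    ⟨Matrix.nonsingInvUnit P hPdet, rfl⟩
  have hAx : A * x = y * A := by
    apply Units.ext
    rw [Units.val_mul, Units.val_mul, hA, ← hM, ← hYm]
    exact hPM
  have hAxA : A * x * A⁻¹ = y := by
    rw [hAx, mul_assoc, mul_inv_cancel, mul_one]
  obtain ⟨x', hx'⟩ : ∃ x' : Matrix.SpecialLinearGroup (Fin n) F,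
      Matrix.SpecialLinearGroup.toGL x' = x := by
    refine ⟨(⟨M, hdet⟩ : Matrix.SpecialLinearGroup (Fin n) F), ?_⟩
    apply Units.ext
    exact hM
  have hx'M : (x' : Matrix (Fin n) (Fin n) F) = M := by
    rw [hM, ← hx', Matrix.SpecialLinearGroup.coe_GL_coe_matrix]
  have hA' : A * Matrix.SpecialLinearGroup.toGL x' * A⁻¹ ∈ H := by
    rw [hx', hAxA]
    exact hyH
  have hD : ∀ δ : F, δ ≠ 0 → ∃ Cm : Matrix (Fin n) (Fin n) F,
      Cm * (x' : Matrix (Fin n) (Fin n) F) = (x' : Matrix (Fin n) (Fin n) F) * Cm ∧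
        Cm.det = δ := by
    intro δ _
    rw [hx'M]
    exact Cfsg.Agent.Lib.Helper47.exists_commute_det_of_sq M z hz0 hMM δ
  obtain ⟨P', hP'⟩ := Cfsg.Agent.Lib.Helper47.sl_conj_of_gl_conj x' A hA' hD
  refine ⟨Matrix.SpecialLinearGroup.toGL P', ?_, ?_⟩
  · unfold Cfsg.Geo.specialLinear
    rw [MonoidHom.mem_ker, Units.ext_iff, Matrix.GeneralLinearGroup.val_det_apply,
      Units.val_one, Matrix.SpecialLinearGroup.coe_GL_coe_matrix]
    exact P'.2
  · rw [Subgroup.mem_comap, map_mul, map_mul, map_inv, hx'] at hP'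
    exact hP'

end Cfsg.Agent.Lib.Helper98.TD
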