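import Mathlib
import Cfsg.Agent.Lib.Helper98.U84Defs
import Cfsg.Agent.Lib.Helper7.GUOrder

/-!
# S5984, piece U84-BLOCK (helper94): block diagonal matrices in an adapted basis
-/

set_option autoImplicit false

namespace Cfsg.Agent.Lib.Helper98.U84

open Matrix Polynomial

/-- the `q`-th power map as a ring homomorphism -/
private noncomputable def u84block_frob {F : Type*} [Field F] [Fintype F] {q : ℕ}
    (hF : Fintype.card F = q ^ 2) : F →+* F where
  toFun x := x ^ q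
  map_one' := one_pow q
  map_mul' x y := mul_pow x y q
  map_zero' := zero_pow (Cfsg.Agent.Lib.Helper7.herm_q_ne_zero hF)
  map_add' := Cfsg.Agent.Lib.Helper7.herm_add_pow hF

private theorem u84block_mulVec_pow {F : Type*} [Field F] [Fintype F] {q m : ℕ}
    (hF : Fintype.card F = q ^ 2) (B : Matrix (Fin m) (Fin m) F) (b : Fin m → F) (i : Fin m) :
    ((B *ᵥ b) i) ^ q = (B.map (· ^ q) *ᵥ (fun j => b j ^ q)) i := by
  simp only [Matrix.mulVec, dotProduct, Matrix.map_apply]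
  rw [Cfsg.Agent.Lib.Helper7.herm_sum_pow hF]
  exact Finset.sum_congr rfl (fun j _ => mul_pow _ _ _)

/-- the second relation `Bᵀ * A^(q) = 1` -/
private theorem u84block_swap {F : Type*} [Field F] [Fintype F] {q m : ℕ}
    (hF : Fintype.card F = q ^ 2) (A B : Matrix (Fin m) (Fin m) F)
    (h : Aᵀ * B.map (· ^ q) = 1) : Bᵀ * A.map (· ^ q) = 1 := by
  have h1 : B.map (· ^ q) * Aᵀ = 1 := mul_eq_one_comm.mp h
  have h2 := congrArg (fun M : Matrix (Fin m) (Fin m) F => M.map (· ^ q)) h1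
  have h3 : (B.map (· ^ q) * Aᵀ).map (· ^ q) = B * (A.map (· ^ q))ᵀ := by
    ext i j
    simp only [Matrix.map_apply, Matrix.mul_apply, Matrix.transpose_apply]
    rw [Cfsg.Agent.Lib.Helper7.herm_sum_pow hF]
    apply Finset.sum_congr rfl
    intro k _
    rw [mul_pow, Cfsg.Agent.Lib.Helper7.herm_pow_pow hF]
  have h4 : (1 : Matrix (Fin m) (Fin m) F).map (· ^ q) = 1 := by
    ext i j
    by_cases hij : i = j
    · subst hij
      simp
    · simp [Matrix.one_apply_ne hij, Cfsg.Agent.Lib.Helper7.herm_q_ne_zero hF]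
  have h5 : B * (A.map (· ^ q))ᵀ = 1 := by
    rw [← h3, ← h4]
    exact h2
  have h6 := congrArg Matrix.transpose h5
  rw [Matrix.transpose_mul, Matrix.transpose_transpose, Matrix.transpose_one] at h6
  exact mul_eq_one_comm.mp h6

private theorem u84block_inl {F : Type*} [Field F] {m : ℕ} (A B : Matrix (Fin m) (Fin m) F)
    (c : Fin m ⊕ Fin m → F) (i : Fin m) :
    (fromBlocks A 0 0 B *ᵥ c) (Sum.inl i) = (A *ᵥ (fun j => c (Sum.inl j))) i := by
  rw [Matrix.fromBlocks_mulVec]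
  simp
  rfl

private theorem u84block_inr {F : Type*} [Field F] {m : ℕ} (A B : Matrix (Fin m) (Fin m) F)
    (c : Fin m ⊕ Fin m → F) (i : Fin m) :
    (fromBlocks A 0 0 B *ᵥ c) (Sum.inr i) = (B *ᵥ (fun j => c (Sum.inr j))) i := by
  rw [Matrix.fromBlocks_mulVec]
  simp
  rfl

private theorem u84block_dot {F : Type*} [Field F] {m : ℕ} (A B' : Matrix (Fin m) (Fin m) F)
    (h : Aᵀ * B' = 1) (a b : Fin m → F) :
    ∑ i, (A *ᵥ a) i * (B' *ᵥ b) i = ∑ i, a i * b i := by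
  change (A *ᵥ a) ⬝ᵥ (B' *ᵥ b) = a ⬝ᵥ b
  rw [← Matrix.vecMul_transpose, ← Matrix.dotProduct_mulVec, Matrix.mulVec_mulVec, h,
    Matrix.one_mulVec]

private theorem u84block_hyp {F : Type*} [Field F] [Fintype F] {q m : ℕ}
    (hF : Fintype.card F = q ^ 2) (A B : Matrix (Fin m) (Fin m) F)
    (h1 : Aᵀ * B.map (· ^ q) = 1) (a b : Fin m ⊕ Fin m → F) :
    hypForm m q F (fromBlocks A 0 0 B *ᵥ a) (fromBlocks A 0 0 B *ᵥ b) = hypForm m q F a b := by
  have h2 := u84block_swap hF A B h1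
  unfold hypForm
  simp only [u84block_inl, u84block_inr, u84block_mulVec_pow hF]
  rw [Finset.sum_add_distrib, Finset.sum_add_distrib, u84block_dot A _ h1, u84block_dot B _ h2]

private theorem u84block_le0 {F : Type*} [Field F] {q n m : ℕ}
    (D : Fin 2 → Submodule F (Fin n → F))
    (Pm : Matrix (Fin n) (Fin m ⊕ Fin m) F) (Pi : Matrix (Fin m ⊕ Fin m) (Fin n) F)
    (hP : Adapted q D Pm Pi) (A B : Matrix (Fin m) (Fin m) F) (v : Fin n → F) (hv : v ∈ D 0) :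
    (Pm * fromBlocks A 0 0 B * Pi) *ᵥ v ∈ D 0 := by
  have hv' : Pm *ᵥ (Pi *ᵥ v) ∈ D 0 := by
    rw [Matrix.mulVec_mulVec, hP.mul_inv, Matrix.one_mulVec]
    exact hv
  have h0 := (hP.mem0 _).mp hv'
  rw [← Matrix.mulVec_mulVec, ← Matrix.mulVec_mulVec, hP.mem0]
  intro i
  rw [u84block_inr]
  have : (fun j => (Pi *ᵥ v) (Sum.inr j)) = 0 := by
    funext j
    exact h0 j
  rw [this, Matrix.mulVec_zero]
  rfl

private theorem u84block_le1 {F : Type*} [Field F] {q n m : ℕ}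
    (D : Fin 2 → Submodule F (Fin n → F))
    (Pm : Matrix (Fin n) (Fin m ⊕ Fin m) F) (Pi : Matrix (Fin m ⊕ Fin m) (Fin n) F)
    (hP : Adapted q D Pm Pi) (A B : Matrix (Fin m) (Fin m) F) (v : Fin n → F) (hv : v ∈ D 1) :
    (Pm * fromBlocks A 0 0 B * Pi) *ᵥ v ∈ D 1 := by
  have hv' : Pm *ᵥ (Pi *ᵥ v) ∈ D 1 := by
    rw [Matrix.mulVec_mulVec, hP.mul_inv, Matrix.one_mulVec]
    exact hv
  have h0 := (hP.mem1 _).mp hv'
  rw [← Matrix.mulVec_mulVec, ← Matrix.mulVec_mulVec, hP.mem1]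
  intro i
  rw [u84block_inl]
  have : (fun j => (Pi *ᵥ v) (Sum.inl j)) = 0 := by
    funext j
    exact h0 j
  rw [this, Matrix.mulVec_zero]
  rfl

private theorem u84block_conj_mul {F : Type*} [Field F] {q n m : ℕ}
    (D : Fin 2 → Submodule F (Fin n → F))
    (Pm : Matrix (Fin n) (Fin m ⊕ Fin m) F) (Pi : Matrix (Fin m ⊕ Fin m) (Fin n) F)
    (hP : Adapted q D Pm Pi) (M M' : Matrix (Fin m ⊕ Fin m) (Fin m ⊕ Fin m) F) :
    (Pm * M * Pi) * (Pm * M' * Pi) = Pm * (M * M') * Pi := by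
  calc (Pm * M * Pi) * (Pm * M' * Pi) = Pm * M * (Pi * Pm) * M' * Pi := by
        simp only [Matrix.mul_assoc]
    _ = Pm * (M * M') * Pi := by
        rw [hP.inv_mul, Matrix.mul_one, Matrix.mul_assoc Pm M M']

private theorem u84block_map {F : Type*} [Field F] {q n m : ℕ}
    (D : Fin 2 → Submodule F (Fin n → F))
    (Pm : Matrix (Fin n) (Fin m ⊕ Fin m) F) (Pi : Matrix (Fin m ⊕ Fin m) (Fin n) F)
    (hP : Adapted q D Pm Pi) (A B A' B' : Matrix (Fin m) (Fin m) F)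
    (hA : A * A' = 1) (hB : B * B' = 1) :
    (D 0).map (Matrix.toLin' (Pm * fromBlocks A 0 0 B * Pi)) = D 0 ∧
      (D 1).map (Matrix.toLin' (Pm * fromBlocks A 0 0 B * Pi)) = D 1 := by
  have hM : fromBlocks A 0 0 B * fromBlocks A' 0 0 B' = (1 : Matrix (Fin m ⊕ Fin m) _ F) := by
    rw [Matrix.fromBlocks_multiply]
    simp [hA, hB, Matrix.fromBlocks_one]
  have hyy : (Pm * fromBlocks A 0 0 B * Pi) * (Pm * fromBlocks A' 0 0 B' * Pi) = 1 := by
    rw [u84block_conj_mul D Pm Pi hP, hM, Matrix.mul_one, hP.mul_inv]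
  constructor
  · apply le_antisymm
    · rintro _ ⟨v, hv, rfl⟩
      rw [Matrix.toLin'_apply]
      exact u84block_le0 D Pm Pi hP A B v hv
    · intro v hv
      refine ⟨(Pm * fromBlocks A' 0 0 B' * Pi) *ᵥ v, u84block_le0 D Pm Pi hP A' B' v hv, ?_⟩
      rw [Matrix.toLin'_apply, Matrix.mulVec_mulVec, hyy, Matrix.one_mulVec]
  · apply le_antisymm
    · rintro _ ⟨v, hv, rfl⟩
      rw [Matrix.toLin'_apply]
      exact u84block_le1 D Pm Pi hP A B v hv
    · intro v hv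
      refine ⟨(Pm * fromBlocks A' 0 0 B' * Pi) *ᵥ v, u84block_le1 D Pm Pi hP A' B' v hv, ?_⟩
      rw [Matrix.toLin'_apply, Matrix.mulVec_mulVec, hyy, Matrix.one_mulVec]

private theorem u84block_charpoly {F : Type*} [Field F] {n m : ℕ}
    (Pm : Matrix (Fin n) (Fin m ⊕ Fin m) F) (Pi : Matrix (Fin m ⊕ Fin m) (Fin n) F)
    (h1 : Pm * Pi = 1) (h2 : Pi * Pm = 1) (M : Matrix (Fin m ⊕ Fin m) (Fin m ⊕ Fin m) F) :
    (Pm * M * Pi).charpoly = M.charpoly := by
  have e1 : Pm.map (C : F → F[X]) * Pi.map (C : F → F[X]) = 1 := by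
    rw [← Matrix.map_mul, h1, Matrix.map_one _ C_0 C_1]
  have e2 : Pi.map (C : F → F[X]) * Pm.map (C : F → F[X]) = 1 := by
    rw [← Matrix.map_mul, h2, Matrix.map_one _ C_0 C_1]
  have key : charmatrix (Pm * M * Pi) =
      Pm.map (C : F → F[X]) * charmatrix M * Pi.map (C : F → F[X]) := by
    unfold charmatrix
    rw [Matrix.mul_sub, Matrix.sub_mul]
    congr 1
    · rw [Matrix.scalar_apply, Matrix.scalar_apply, ← Matrix.smul_one_eq_diagonal,
        ← Matrix.smul_one_eq_diagonal, Matrix.mul_smul, Matrix.mul_one, Matrix.smul_mul, e1]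
    · simp [Matrix.map_mul]
  unfold Matrix.charpoly
  rw [key, Matrix.det_conj_of_mul_eq_one e1 e2]

/-! ### U84-BLOCK -/
theorem block_ok {F : Type*} [Field F] [Fintype F] {q n m : ℕ} (hF : Fintype.card F = q ^ 2)
    (D : Fin 2 → Submodule F (Fin n → F))
    (Pm : Matrix (Fin n) (Fin m ⊕ Fin m) F) (Pi : Matrix (Fin m ⊕ Fin m) (Fin n) F)
    (hP : Adapted q D Pm Pi) : BlockOK q D Pm Pi := by
  intro A B hAB
  have hdet := congrArg Matrix.det hAB
  have hmap : B.map (· ^ q) = (u84block_frob hF).mapMatrix B := rfl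
  rw [Matrix.det_mul, Matrix.det_transpose, hmap, ← RingHom.map_det, Matrix.det_one] at hdet
  have hA0 : A.det ≠ 0 := by
    intro h0
    rw [h0, zero_mul] at hdet
    exact zero_ne_one hdet
  have hB0 : B.det ≠ 0 := by
    intro h0
    rw [h0, map_zero, mul_zero] at hdet
    exact zero_ne_one hdet
  have hAi : A * A⁻¹ = 1 := Matrix.mul_nonsing_inv A (isUnit_iff_ne_zero.mpr hA0)
  have hBi : B * B⁻¹ = 1 := Matrix.mul_nonsing_inv B (isUnit_iff_ne_zero.mpr hB0)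
  have hAi' : A⁻¹ * A = 1 := Matrix.nonsing_inv_mul A (isUnit_iff_ne_zero.mpr hA0)
  have hBi' : B⁻¹ * B = 1 := Matrix.nonsing_inv_mul B (isUnit_iff_ne_zero.mpr hB0)
  have hM : fromBlocks A 0 0 B * fromBlocks A⁻¹ 0 0 B⁻¹ = (1 : Matrix (Fin m ⊕ Fin m) _ F) := by
    rw [Matrix.fromBlocks_multiply]
    simp [hAi, hBi, Matrix.fromBlocks_one]
  have hM' : fromBlocks A⁻¹ 0 0 B⁻¹ * fromBlocks A 0 0 B = (1 : Matrix (Fin m ⊕ Fin m) _ F) := by
    rw [Matrix.fromBlocks_multiply]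
    simp [hAi', hBi', Matrix.fromBlocks_one]
  have hyy : (Pm * fromBlocks A 0 0 B * Pi) * (Pm * fromBlocks A⁻¹ 0 0 B⁻¹ * Pi) = 1 := by
    rw [u84block_conj_mul D Pm Pi hP, hM, Matrix.mul_one, hP.mul_inv]
  have hyy' : (Pm * fromBlocks A⁻¹ 0 0 B⁻¹ * Pi) * (Pm * fromBlocks A 0 0 B * Pi) = 1 := by
    rw [u84block_conj_mul D Pm Pi hP, hM', Matrix.mul_one, hP.mul_inv]
  refine ⟨⟨Pm * fromBlocks A 0 0 B * Pi, Pm * fromBlocks A⁻¹ 0 0 B⁻¹ * Pi, hyy, hyy'⟩, rfl,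
    ?_, ?_, ?_, ?_⟩
  · -- unitary
    intro u v
    change Cfsg.hermForm n F q ((Pm * fromBlocks A 0 0 B * Pi) *ᵥ u)
      ((Pm * fromBlocks A 0 0 B * Pi) *ᵥ v) = Cfsg.hermForm n F q u v
    have hu : u = Pm *ᵥ (Pi *ᵥ u) := by
      rw [Matrix.mulVec_mulVec, hP.mul_inv, Matrix.one_mulVec]
    have hv : v = Pm *ᵥ (Pi *ᵥ v) := by
      rw [Matrix.mulVec_mulVec, hP.mul_inv, Matrix.one_mulVec]
    rw [← Matrix.mulVec_mulVec, ← Matrix.mulVec_mulVec, ← Matrix.mulVec_mulVec,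
      ← Matrix.mulVec_mulVec, hP.form, u84block_hyp hF A B hAB, ← hP.form, ← hu, ← hv]
  · -- stabiliser
    obtain ⟨h0, h1⟩ := u84block_map D Pm Pi hP A B A⁻¹ B⁻¹ hAi hBi
    refine ⟨1, fun i => ?_⟩
    fin_cases i
    · exact h0
    · exact h1
  · -- charpoly
    change (Pm * fromBlocks A 0 0 B * Pi).charpoly = _
    rw [u84block_charpoly Pm Pi hP.mul_inv hP.inv_mul, Matrix.charpoly_fromBlocks_zero₁₂]
  · -- det
    change (Pm * fromBlocks A 0 0 B * Pi).det = _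
    rw [Matrix.det_conj_of_mul_eq_one hP.mul_inv hP.inv_mul, Matrix.det_fromBlocks_zero₁₂]

end Cfsg.Agent.Lib.Helper98.U84
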