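import Mathlib
import Cfsg.Agent.Lib.Helper44.UDDefs

/-!
# S5655 piece ZERO (helper94 for helper44): a non-monomial element with a zero entry.
-/

set_option autoImplicit false
set_option linter.unusedSectionVars false
set_option linter.unusedVariables false

namespace Cfsg.Agent.Lib.Helper44.UD

open Matrix Cfsg.Agent.Lib.Helper93 Cfsg.Agent.Lib.Helper18 Cfsg.Agent.Lib.Helper7

section
variable {F : Type*} [Field F] [Fintype F] {q n : ℕ}

/-- the monomial involution `τ_ij(t) τ_kl(t')` -/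
private theorem udzero_m (hF : Fintype.card F = q ^ 2) (i j k l : Fin n)
    (hij : i ≠ j) (hik : i ≠ k) (hil : i ≠ l) (hjk : j ≠ k) (hjl : j ≠ l) (hkl : k ≠ l)
    (t t' : F) (ht : t ^ (q + 1) = 1) (ht' : t' ^ (q + 1) = 1) :
    ∃ M : Matrix (Fin n) (Fin n) F, suPres q n M ∧ M.det = 1 ∧ IsMono M ∧ M * M = 1 ∧
      ∀ v : Fin n → F, M *ᵥ v =
        v + (v i - t⁻¹ * v j) • (t • Pi.single j (1 : F) - Pi.single i 1)
          + (v k - t'⁻¹ * v l) • (t' • Pi.single l (1 : F) - Pi.single k 1) := by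
  classical
  have ht0 : t ≠ 0 := by
    rintro rfl
    rw [zero_pow (Nat.succ_ne_zero q)] at ht
    exact zero_ne_one ht
  have ht'0 : t' ≠ 0 := by
    rintro rfl
    rw [zero_pow (Nat.succ_ne_zero q)] at ht'
    exact zero_ne_one ht'
  have hti : t⁻¹ * t = 1 := inv_mul_cancel₀ ht0
  have ht'i : t'⁻¹ * t' = 1 := inv_mul_cancel₀ ht'0
  obtain ⟨σ, hσdef⟩ : ∃ σ : Equiv.Perm (Fin n), σ = Equiv.swap i j * Equiv.swap k l := ⟨_, rfl⟩
  have hσi : σ i = j := by
    rw [hσdef, Equiv.Perm.mul_apply, Equiv.swap_apply_of_ne_of_ne hik hil, Equiv.swap_apply_left]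
  have hσj : σ j = i := by
    rw [hσdef, Equiv.Perm.mul_apply, Equiv.swap_apply_of_ne_of_ne hjk hjl, Equiv.swap_apply_right]
  have hσk : σ k = l := by
    rw [hσdef, Equiv.Perm.mul_apply, Equiv.swap_apply_left,
      Equiv.swap_apply_of_ne_of_ne hil.symm hjl.symm]
  have hσl : σ l = k := by
    rw [hσdef, Equiv.Perm.mul_apply, Equiv.swap_apply_right,
      Equiv.swap_apply_of_ne_of_ne hik.symm hjk.symm]
  have hσo : ∀ r, r ≠ i → r ≠ j → r ≠ k → r ≠ l → σ r = r := by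
    intro r h1 h2 h3 h4
    rw [hσdef, Equiv.Perm.mul_apply, Equiv.swap_apply_of_ne_of_ne h3 h4,
      Equiv.swap_apply_of_ne_of_ne h1 h2]
  obtain ⟨δ, hδdef⟩ : ∃ δ : Fin n → F, δ = fun r => (if r = i then t else 1) *
      (if r = j then t⁻¹ else 1) * (if r = k then t' else 1) * (if r = l then t'⁻¹ else 1) :=
    ⟨_, rfl⟩
  have hδi : δ i = t := by
    rw [hδdef]; simp [hij, hik, hil]
  have hδj : δ j = t⁻¹ := by
    rw [hδdef]; simp [hij.symm, hjk, hjl]
  have hδk : δ k = t' := by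
    rw [hδdef]; simp [hik.symm, hjk.symm, hkl]
  have hδl : δ l = t'⁻¹ := by
    rw [hδdef]; simp [hil.symm, hjl.symm, hkl.symm]
  have hδo : ∀ r, r ≠ i → r ≠ j → r ≠ k → r ≠ l → δ r = 1 := by
    intro r h1 h2 h3 h4
    rw [hδdef]; simp [h1, h2, h3, h4]
  have hcases : ∀ r : Fin n, r = i ∨ r = j ∨ r = k ∨ r = l ∨
      (r ≠ i ∧ r ≠ j ∧ r ≠ k ∧ r ≠ l) := by
    intro r
    by_cases h1 : r = i
    · exact Or.inl h1
    by_cases h2 : r = j
    · exact Or.inr (Or.inl h2)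
    by_cases h3 : r = k
    · exact Or.inr (Or.inr (Or.inl h3))
    by_cases h4 : r = l
    · exact Or.inr (Or.inr (Or.inr (Or.inl h4)))
    exact Or.inr (Or.inr (Or.inr (Or.inr ⟨h1, h2, h3, h4⟩)))
  have hδq : ∀ r, δ r ^ (q + 1) = 1 := by
    intro r
    rcases hcases r with h | h | h | h | ⟨h1, h2, h3, h4⟩
    · rw [h, hδi]; exact ht
    · rw [h, hδj, inv_pow, ht, inv_one]
    · rw [h, hδk]; exact ht'
    · rw [h, hδl, inv_pow, ht', inv_one]
    · rw [hδo r h1 h2 h3 h4, one_pow]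
  have hδprod : ∏ r, δ r = 1 := by
    rw [hδdef]
    simp only
    rw [Finset.prod_mul_distrib, Finset.prod_mul_distrib, Finset.prod_mul_distrib,
      Finset.prod_ite_eq', Finset.prod_ite_eq', Finset.prod_ite_eq', Finset.prod_ite_eq']
    simp only [Finset.mem_univ, if_true]
    rw [mul_inv_cancel₀ ht0, one_mul, mul_inv_cancel₀ ht'0]
  have hsign : Equiv.Perm.sign σ = 1 := by
    rw [hσdef, Equiv.Perm.sign_mul, Equiv.Perm.sign_swap hij, Equiv.Perm.sign_swap hkl]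
    rfl
  obtain ⟨M, hMdef⟩ : ∃ M : Matrix (Fin n) (Fin n) F,
      M = σ.permMatrix F * Matrix.diagonal δ := ⟨_, rfl⟩
  have hMv : ∀ u : Fin n → F, M *ᵥ u = fun r => δ (σ r) * u (σ r) := by
    intro u
    rw [hMdef, ← Matrix.mulVec_mulVec, Matrix.permMatrix_mulVec]
    funext r
    simp [Matrix.mulVec_diagonal]
  have hdet : M.det = 1 := by
    rw [hMdef, Matrix.det_mul, Matrix.det_permutation, Matrix.det_diagonal, hδprod, hsign]
    simp
  have hσσ : ∀ r, σ (σ r) = r := by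
    intro r
    rcases hcases r with h | h | h | h | ⟨h1, h2, h3, h4⟩
    · rw [h, hσi, hσj]
    · rw [h, hσj, hσi]
    · rw [h, hσk, hσl]
    · rw [h, hσl, hσk]
    · rw [hσo r h1 h2 h3 h4, hσo r h1 h2 h3 h4]
  have hδσ : ∀ r, δ (σ r) * δ r = 1 := by
    intro r
    rcases hcases r with h | h | h | h | ⟨h1, h2, h3, h4⟩
    · rw [h, hσi, hδj, hδi, inv_mul_cancel₀ ht0]
    · rw [h, hσj, hδi, hδj, mul_inv_cancel₀ ht0]
    · rw [h, hσk, hδl, hδk, inv_mul_cancel₀ ht'0]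
    · rw [h, hσl, hδk, hδl, mul_inv_cancel₀ ht'0]
    · rw [hσo r h1 h2 h3 h4, hδo r h1 h2 h3 h4, one_mul]
  refine ⟨M, ?_, hdet, ?_, ?_, ?_⟩
  · intro u v
    rw [hMv, hMv]
    unfold Cfsg.hermForm
    calc ∑ r, δ (σ r) * u (σ r) * (δ (σ r) * v (σ r)) ^ q
        = ∑ r, δ r * u r * (δ r * v r) ^ q :=
          Equiv.sum_comp σ (fun r => δ r * u r * (δ r * v r) ^ q)
      _ = ∑ r, u r * v r ^ q := by
          apply Finset.sum_congr rfl
          intro r _
          have h1 := hδq r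
          rw [mul_pow]
          linear_combination (u r * v r ^ q) * h1
  · intro c
    refine ⟨σ⁻¹ c, fun r' h => ?_⟩
    by_contra hne
    apply h
    show M r' c = 0
    rw [hMdef, Matrix.mul_diagonal]
    have h0 : σ.permMatrix F r' c = 0 := by
      rw [Equiv.Perm.permMatrix, PEquiv.toMatrix_apply, if_neg]
      rw [Equiv.toPEquiv_apply, Option.mem_some_iff]
      intro h'
      apply hne
      rw [← h']
      simp
    rw [h0, zero_mul]
  · apply Matrix.mulVec_injective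
    funext v
    rw [← Matrix.mulVec_mulVec, hMv, hMv, Matrix.one_mulVec]
    funext r
    show δ (σ r) * (δ (σ (σ r)) * v (σ (σ r))) = v r
    rw [hσσ, ← mul_assoc, hδσ, one_mul]
  · intro v
    rw [hMv]
    funext r
    simp only [Pi.add_apply, Pi.smul_apply, Pi.sub_apply, smul_eq_mul]
    rcases hcases r with h | h | h | h | ⟨h1, h2, h3, h4⟩
    · rw [h, hσi, hδj]
      simp only [Pi.single_eq_same, Pi.single_eq_of_ne hij, Pi.single_eq_of_ne hil,
        Pi.single_eq_of_ne hik]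
      ring
    · rw [h, hσj, hδi]
      simp only [Pi.single_eq_same, Pi.single_eq_of_ne hij.symm, Pi.single_eq_of_ne hjl,
        Pi.single_eq_of_ne hjk]
      linear_combination (v j) * hti
    · rw [h, hσk, hδl]
      simp only [Pi.single_eq_same, Pi.single_eq_of_ne hjk.symm, Pi.single_eq_of_ne hik.symm,
        Pi.single_eq_of_ne hkl]
      ring
    · rw [h, hσl, hδk]
      simp only [Pi.single_eq_same, Pi.single_eq_of_ne hjl.symm, Pi.single_eq_of_ne hil.symm,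
        Pi.single_eq_of_ne hkl.symm]
      linear_combination (v l) * ht'i
    · rw [hσo r h1 h2 h3 h4, hδo r h1 h2 h3 h4]
      simp only [Pi.single_eq_of_ne h1, Pi.single_eq_of_ne h2, Pi.single_eq_of_ne h3,
        Pi.single_eq_of_ne h4]
      ring


private theorem udzero_col (M : Matrix (Fin n) (Fin n) F) (c r : Fin n) :
    (M *ᵥ Pi.single c 1) r = M r c := by
  rw [Matrix.mulVec_single_one]
  rfl

/-- four distinct nonzero coordinates of a vector with at most one zero -/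
private theorem udzero_four (u : Fin n → F) (hn : 5 ≤ n)
    (hz : ∀ a b : Fin n, a ≠ b → ¬ (u a = 0 ∧ u b = 0)) :
    ∃ i j k l : Fin n, i ≠ j ∧ i ≠ k ∧ i ≠ l ∧ j ≠ k ∧ j ≠ l ∧ k ≠ l ∧
      u i ≠ 0 ∧ u j ≠ 0 ∧ u k ≠ 0 ∧ u l ≠ 0 := by
  obtain ⟨r0, r1, r2, r3, r4, h01, h02, h03, h04, h12, h13, h14, h23, h24, h34⟩ :
      ∃ r0 r1 r2 r3 r4 : Fin n, r0 ≠ r1 ∧ r0 ≠ r2 ∧ r0 ≠ r3 ∧ r0 ≠ r4 ∧ r1 ≠ r2 ∧ r1 ≠ r3 ∧
        r1 ≠ r4 ∧ r2 ≠ r3 ∧ r2 ≠ r4 ∧ r3 ≠ r4 := by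
    refine ⟨⟨0, by omega⟩, ⟨1, by omega⟩, ⟨2, by omega⟩, ⟨3, by omega⟩, ⟨4, by omega⟩,
      ?_, ?_, ?_, ?_, ?_, ?_, ?_, ?_, ?_, ?_⟩ <;> simp [Fin.ext_iff]
  by_cases h0 : u r0 = 0
  · exact ⟨r1, r2, r3, r4, h12, h13, h14, h23, h24, h34,
      fun h => hz r0 r1 h01 ⟨h0, h⟩, fun h => hz r0 r2 h02 ⟨h0, h⟩,
      fun h => hz r0 r3 h03 ⟨h0, h⟩, fun h => hz r0 r4 h04 ⟨h0, h⟩⟩
  by_cases h1 : u r1 = 0
  · exact ⟨r0, r2, r3, r4, h02, h03, h04, h23, h24, h34, h0,
      fun h => hz r1 r2 h12 ⟨h1, h⟩, fun h => hz r1 r3 h13 ⟨h1, h⟩,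
      fun h => hz r1 r4 h14 ⟨h1, h⟩⟩
  by_cases h2 : u r2 = 0
  · exact ⟨r0, r1, r3, r4, h01, h03, h04, h13, h14, h34, h0, h1,
      fun h => hz r2 r3 h23 ⟨h2, h⟩, fun h => hz r2 r4 h24 ⟨h2, h⟩⟩
  by_cases h3 : u r3 = 0
  · exact ⟨r0, r1, r2, r4, h01, h02, h04, h12, h14, h24, h0, h1, h2,
      fun h => hz r3 r4 h34 ⟨h3, h⟩⟩
  exact ⟨r0, r1, r2, r3, h01, h02, h03, h12, h13, h23, h0, h1, h2, h3⟩

/-- one step: either a non-monomial element with a zero entry, or many columns fixed by `m` -/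
private theorem udzero_step (hF : Fintype.card F = q ^ 2) (h1 : TrickStmt F q)
    (h2 : FixCountStmt F) {X : Subgroup (GL (Fin n) F)} (hX : X ≤ SUg n F q) (hMon : MonSU q X)
    (x : GL (Fin n) F) (hxX : x ∈ X) (A : Matrix (Fin n) (Fin n) F)
    (hA : A = (x : Matrix (Fin n) (Fin n) F)) (a i j k l : Fin n)
    (hij : i ≠ j) (hik : i ≠ k) (hil : i ≠ l) (hjk : j ≠ k) (hjl : j ≠ l) (hkl : k ≠ l)
    (hi : A i a ≠ 0) (hj : A j a ≠ 0) (hk : A k a ≠ 0) (hl : A l a ≠ 0) :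
    (∃ y ∈ X, ¬ IsMono (y : Matrix (Fin n) (Fin n) F) ∧ HasZero y) ∨
    ∃ t t' : F, t ≠ 0 ∧ t' ≠ 0 ∧ ¬ (A j a = t * A i a ∧ A l a = t' * A k a) ∧
      n ≤ {c : Fin n | A j c = t * A i c ∧ A l c = t' * A k c}.ncard + 4 := by
  classical
  have hXG : X ≤ Cfsg.GU n F q := hX.trans inf_le_left
  have hpres : suPres q n A := by
    rw [hA]
    exact hXG hxX
  obtain ⟨B, hB⟩ : ∃ B : Matrix (Fin n) (Fin n) F,
      B = ((x⁻¹ : GL (Fin n) F) : Matrix (Fin n) (Fin n) F) := ⟨_, rfl⟩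
  have hBA : B * A = 1 := by
    rw [hA, hB, ← Units.val_mul, inv_mul_cancel, Units.val_one]
  have hAB : A * B = 1 := by
    rw [hA, hB, ← Units.val_mul, mul_inv_cancel, Units.val_one]
  have hABv : ∀ w : Fin n → F, A *ᵥ (B *ᵥ w) = w := by
    intro w
    rw [Matrix.mulVec_mulVec, hAB, Matrix.one_mulVec]
  have hBAv : ∀ w : Fin n → F, B *ᵥ (A *ᵥ w) = w := by
    intro w
    rw [Matrix.mulVec_mulVec, hBA, Matrix.one_mulVec]
  obtain ⟨u, hu⟩ : ∃ u : Fin n → F, u = A *ᵥ Pi.single a 1 := ⟨_, rfl⟩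
  have hui : ∀ r, u r = A r a := fun r => by rw [hu, udzero_col]
  have huu : Cfsg.hermForm n F q u u = 1 := by
    rw [hu, hpres, hf_single_right hF, Pi.single_eq_same]
  have hui0 : u i ≠ 0 := by rw [hui]; exact hi
  have huj0 : u j ≠ 0 := by rw [hui]; exact hj
  have huk0 : u k ≠ 0 := by rw [hui]; exact hk
  have hul0 : u l ≠ 0 := by rw [hui]; exact hl
  have hγ : u i * u j ^ q ≠ 0 := mul_ne_zero hui0 (pow_ne_zero q huj0)
  have hγ' : u k * u l ^ q ≠ 0 := mul_ne_zero huk0 (pow_ne_zero q hul0)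
  obtain ⟨ρ, hρdef⟩ : ∃ ρ : F,
      ρ = u i * u i ^ q + u j * u j ^ q + u k * u k ^ q + u l * u l ^ q - 1 := ⟨_, rfl⟩
  have hnorm : ∀ z : F, (z * z ^ q) ^ q = z * z ^ q := by
    intro z
    rw [mul_pow, herm_pow_pow hF, mul_comm]
  have hρ : ρ ^ q = ρ := by
    rw [hρdef, herm_sub_pow hF, herm_add_pow hF, herm_add_pow hF, herm_add_pow hF, hnorm, hnorm,
      hnorm, hnorm, one_pow]
  obtain ⟨t, t', ht, ht', htr⟩ := h1 hF (u i * u j ^ q) (u k * u l ^ q) ρ hγ hγ' hρ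
  have ht0 : t ≠ 0 := by
    rintro rfl
    rw [zero_pow (Nat.succ_ne_zero q)] at ht
    exact zero_ne_one ht
  have ht'0 : t' ≠ 0 := by
    rintro rfl
    rw [zero_pow (Nat.succ_ne_zero q)] at ht'
    exact zero_ne_one ht'
  have hti : t⁻¹ * t = 1 := inv_mul_cancel₀ ht0
  have ht'i : t'⁻¹ * t' = 1 := inv_mul_cancel₀ ht'0
  have htq : t ^ q = t⁻¹ := by
    apply eq_inv_of_mul_eq_one_left
    rw [← pow_succ]
    exact ht
  have ht'q : t' ^ q = t'⁻¹ := by
    apply eq_inv_of_mul_eq_one_left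
    rw [← pow_succ]
    exact ht'
  have hE1 : (t * (u i * u j ^ q)) ^ q = t⁻¹ * (u i ^ q * u j) := by
    rw [mul_pow, mul_pow, herm_pow_pow hF, htq]
  have hE2 : (t' * (u k * u l ^ q)) ^ q = t'⁻¹ * (u k ^ q * u l) := by
    rw [mul_pow, mul_pow, herm_pow_pow hF, ht'q]
  rw [hE1, hE2, hρdef] at htr
  obtain ⟨M, hMpres, hMdet, hMmono, hMM, hMv⟩ :=
    udzero_m hF i j k l hij hik hil hjk hjl hkl t t' ht ht'
  have hMu : Cfsg.hermForm n F q (M *ᵥ u) u = 0 := by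
    rw [hMv]
    simp only [hf_add_left, hf_smul_left, hf_sub_left, hf_single_left]
    rw [huu]
    linear_combination htr - (u j * u j ^ q) * hti - (u l * u l ^ q) * ht'i
  have hMune : ¬ (A j a = t * A i a ∧ A l a = t' * A k a) := by
    rintro ⟨e1, e2⟩
    have hfix : M *ᵥ u = u := by
      rw [hMv]
      have c1 : u i - t⁻¹ * u j = 0 := by
        rw [hui i, hui j, e1]
        linear_combination (-(A i a)) * hti
      have c2 : u k - t'⁻¹ * u l = 0 := by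
        rw [hui k, hui l, e2]
        linear_combination (-(A k a)) * ht'i
      rw [c1, c2, zero_smul, zero_smul, add_zero, add_zero]
    rw [hfix, huu] at hMu
    exact one_ne_zero hMu
  obtain ⟨g, hg, hgS⟩ := exists_gl_of_pres hMpres hMdet
  have hgX : g ∈ X := hMon g hgS.1 ((mem_sl_iff g).mp hgS.2) (by rw [hg]; exact hMmono)
  have hyX : x⁻¹ * g * x ∈ X := X.mul_mem (X.mul_mem (X.inv_mem hxX) hgX) hxX
  obtain ⟨Y, hY⟩ : ∃ Y : Matrix (Fin n) (Fin n) F,
      Y = ((x⁻¹ * g * x : GL (Fin n) F) : Matrix (Fin n) (Fin n) F) := ⟨_, rfl⟩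
  have hyM : Y = B * M * A := by
    rw [hY, Units.val_mul, Units.val_mul, hg, hA, hB]
  have hyv : ∀ v : Fin n → F, Y *ᵥ v = B *ᵥ (M *ᵥ (A *ᵥ v)) := by
    intro v
    rw [hyM, Matrix.mulVec_mulVec, Matrix.mulVec_mulVec]
  have hyaa : Y a a = 0 := by
    have e1 : Y a a = (Y *ᵥ Pi.single a 1) a := (udzero_col Y a a).symm
    rw [e1, hyv, ← hu]
    have e2 : (B *ᵥ (M *ᵥ u)) a = Cfsg.hermForm n F q (B *ᵥ (M *ᵥ u)) (Pi.single a 1) :=
      (hf_single_right hF n _ a).symm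
    rw [e2, ← hpres, hABv, ← hu]
    exact hMu
  by_cases hym : IsMono Y
  · right
    refine ⟨t, t', ht0, ht'0, hMune, ?_⟩
    have hyy : Y * Y = 1 := by
      rw [hyM]
      have e : B * M * A * (B * M * A) = B * (M * ((A * B) * (M * A))) := by
        simp only [Matrix.mul_assoc]
      rw [e, hAB, Matrix.one_mul, ← Matrix.mul_assoc M M A, hMM, Matrix.one_mul, hBA]
    have hspan : ∃ p p' : Fin n → F, ∀ v : Fin n → F, ∃ a b : F,
        Y *ᵥ v - v = a • p + b • p' := by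
      refine ⟨B *ᵥ (t • Pi.single j (1 : F) - Pi.single i 1),
        B *ᵥ (t' • Pi.single l (1 : F) - Pi.single k 1), fun v => ?_⟩
      refine ⟨(A *ᵥ v) i - t⁻¹ * (A *ᵥ v) j, (A *ᵥ v) k - t'⁻¹ * (A *ᵥ v) l, ?_⟩
      rw [hyv, hMv, Matrix.mulVec_add, Matrix.mulVec_add, Matrix.mulVec_smul, Matrix.mulVec_smul,
        hBAv]
      abel
    have hfix := h2 n Y hym hyy hspan
    have hsub : {c : Fin n | Y *ᵥ Pi.single c 1 = Pi.single c (1 : F)} ⊆
        {c : Fin n | A j c = t * A i c ∧ A l c = t' * A k c} := by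
      intro c hc
      have hc' : B *ᵥ (M *ᵥ (A *ᵥ Pi.single c 1)) = Pi.single c (1 : F) := by
        rw [← hyv]
        exact hc
      have hMf : M *ᵥ (A *ᵥ Pi.single c 1) = A *ᵥ Pi.single c 1 := by
        have h3 := congrArg (fun w => A *ᵥ w) hc'
        simp only [hABv] at h3
        exact h3
      obtain ⟨f, hf⟩ : ∃ f : Fin n → F, f = A *ᵥ Pi.single c 1 := ⟨_, rfl⟩
      rw [← hf] at hMf
      have hfr : ∀ r, f r = A r c := fun r => by rw [hf, udzero_col]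
      rw [hMv] at hMf
      have hj' := congrFun hMf j
      have hl' := congrFun hMf l
      simp only [Pi.add_apply, Pi.smul_apply, Pi.sub_apply, smul_eq_mul, Pi.single_eq_same,
        Pi.single_eq_of_ne hij.symm, Pi.single_eq_of_ne hjl, Pi.single_eq_of_ne hjk] at hj'
      simp only [Pi.add_apply, Pi.smul_apply, Pi.sub_apply, smul_eq_mul, Pi.single_eq_same,
        Pi.single_eq_of_ne hjl.symm, Pi.single_eq_of_ne hil.symm,
        Pi.single_eq_of_ne hkl.symm] at hl'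
      show A j c = t * A i c ∧ A l c = t' * A k c
      rw [← hfr j, ← hfr i, ← hfr l, ← hfr k]
      constructor
      · linear_combination (-1 : F) * hj' - (f j) * hti
      · linear_combination (-1 : F) * hl' - (f l) * ht'i
    calc n ≤ {c : Fin n | Y *ᵥ Pi.single c 1 = Pi.single c (1 : F)}.ncard + 4 := hfix
      _ ≤ {c : Fin n | A j c = t * A i c ∧ A l c = t' * A k c}.ncard + 4 :=
          Nat.add_le_add_right (Set.ncard_le_ncard hsub (Set.toFinite _)) 4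
  · left
    refine ⟨x⁻¹ * g * x, hyX, ?_, a, a, ?_⟩
    · rw [← hY]
      exact hym
    · rw [← hY]
      exact hyaa

end

theorem ud_zero {F : Type*} [Field F] [Fintype F] (q : ℕ) (h1 : TrickStmt F q) (h2 : FixCountStmt F) : ZeroStmt F q := by
  classical
  intro hF n hn X hX hMon hColZ hex
  obtain ⟨x, hxX, hxm⟩ := hex
  by_contra hcon
  obtain ⟨A, hA⟩ : ∃ A : Matrix (Fin n) (Fin n) F, A = (x : Matrix (Fin n) (Fin n) F) :=
    ⟨_, rfl⟩
  have hcz : ∀ k a b : Fin n, a ≠ b → ¬ (A a k = 0 ∧ A b k = 0) := by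
    rw [hA]
    exact hColZ x hxX hxm
  obtain ⟨i, j, k, l, hij, hik, hil, hjk, hjl, hkl, hi, hj, hk, hl⟩ :=
    udzero_four (fun r => A r ⟨0, by omega⟩) (by omega)
      (fun a b hab => hcz ⟨0, by omega⟩ a b hab)
  have hstep := fun a => udzero_step hF h1 h2 hX hMon x hxX A hA a i j k l hij hik hil hjk hjl hkl
  rcases hstep ⟨0, by omega⟩ hi hj hk hl with hdone | ⟨t, t', ht0, ht'0, -, hcard1⟩
  · exact hcon hdone
  have hnz : ∀ (s s' : F), s ≠ 0 → s' ≠ 0 → ∀ c : Fin n, A j c = s * A i c →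
      A l c = s' * A k c → A i c ≠ 0 ∧ A j c ≠ 0 ∧ A k c ≠ 0 ∧ A l c ≠ 0 := by
    intro s s' hs hs' c e1 e2
    have hi0 : A i c ≠ 0 := by
      intro h
      exact hcz c i j hij ⟨h, by rw [e1, h, mul_zero]⟩
    have hk0 : A k c ≠ 0 := by
      intro h
      exact hcz c k l hkl ⟨h, by rw [e2, h, mul_zero]⟩
    refine ⟨hi0, ?_, hk0, ?_⟩
    · rw [e1]
      exact mul_ne_zero hs hi0
    · rw [e2]
      exact mul_ne_zero hs' hk0
  have hne1 : {c : Fin n | A j c = t * A i c ∧ A l c = t' * A k c}.Nonempty := by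
    apply Set.nonempty_of_ncard_ne_zero
    omega
  obtain ⟨c, hc1, hc2⟩ := hne1
  obtain ⟨hci, hcj, hck, hcl⟩ := hnz t t' ht0 ht'0 c hc1 hc2
  rcases hstep c hci hcj hck hcl with hdone | ⟨s, s', hs0, hs'0, hnc, hcard2⟩
  · exact hcon hdone
  have hinter : ({c : Fin n | A j c = t * A i c ∧ A l c = t' * A k c} ∩
      {c : Fin n | A j c = s * A i c ∧ A l c = s' * A k c}).Nonempty := by
    apply Set.nonempty_of_ncard_ne_zero
    have h3 := Set.ncard_union_add_ncard_inter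
      {c : Fin n | A j c = t * A i c ∧ A l c = t' * A k c}
      {c : Fin n | A j c = s * A i c ∧ A l c = s' * A k c}
    have h4 : ({c : Fin n | A j c = t * A i c ∧ A l c = t' * A k c} ∪
        {c : Fin n | A j c = s * A i c ∧ A l c = s' * A k c}).ncard ≤ n := by
      have h5 := Set.ncard_le_card ({c : Fin n | A j c = t * A i c ∧ A l c = t' * A k c} ∪
        {c : Fin n | A j c = s * A i c ∧ A l c = s' * A k c})
      simpa using h5
    omega
  obtain ⟨d, ⟨hd1, hd2⟩, ⟨hd3, hd4⟩⟩ := hinter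
  obtain ⟨hdi, -, hdk, -⟩ := hnz t t' ht0 ht'0 d hd1 hd2
  have hts : t = s := by
    have h6 : (t - s) * A i d = 0 := by linear_combination hd3 - hd1
    rcases mul_eq_zero.mp h6 with h | h
    · exact sub_eq_zero.mp h
    · exact absurd h hdi
  have hts' : t' = s' := by
    have h6 : (t' - s') * A k d = 0 := by linear_combination hd4 - hd2
    rcases mul_eq_zero.mp h6 with h | h
    · exact sub_eq_zero.mp h
    · exact absurd h hdk
  apply hnc
  rw [← hts, ← hts']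
  exact ⟨hc1, hc2⟩

end Cfsg.Agent.Lib.Helper44.UD
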