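import Mathlib
import Cfsg.Prelude.Def_GeometricClasses
import Cfsg.Prelude.Def_LieClassical
import Cfsg.Agent.Lib.Helper47.GUSim
import Cfsg.Agent.Lib.Helper47.InvSL
import Cfsg.Agent.Lib.Helper47.SUConj

/-!
# S5982, piece UF-NILSQU (helper94): a nondegenerate `σ`-hermitian form invariant under `1 + N`
for a nil-square endomorphism `N` in characteristic 2
-/

set_option autoImplicit false

universe u

namespace Cfsg.Agent.Lib.Helper94.Uf

open Polynomial Matrix Module
open Cfsg.Agent.Lib.Helper47

-- PIECE NILSQU
theorem exists_uform_nilsq {F : Type u} [Field F] (σ : F →+* F) (hσ : ∀ x, σ (σ x) = x)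
    (h2 : (2 : F) = 0) :
    ∀ (d : ℕ) (V : Type u) [AddCommGroup V] [Module F V] [FiniteDimensional F V]
      (N : Module.End F V), Module.finrank F V = d → (∀ u, N (N u) = 0) →
      ∃ f : V → V → F, Cfsg.Agent.Lib.Helper47.IsSForm σ 1 f ∧ Cfsg.Agent.Lib.Helper47.Nondeg f ∧
        ∀ u w, f (u + N u) (w + N w) = f u w := by
  intro d
  induction d using Nat.strong_induction_on with
  | _ d ih =>
    intro V _ _ _ N hfin hN
    by_cases h0 : ∀ u, N u = 0
    · have hfr : finrank F V = finrank F (Fin d → F) := by
        rw [hfin, Module.finrank_fintype_fun_eq_card, Fintype.card_fin]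
      obtain ⟨e⟩ := FiniteDimensional.nonempty_linearEquiv_of_finrank_eq hfr
      have hU := uForm_isSForm (F := F) (ι := Fin d) σ hσ
      refine ⟨fun u w => uForm σ (e u) (e w), ?_, ?_, ?_⟩
      · exact ⟨fun x y z => by rw [map_add]; exact hU.add_left _ _ _,
          fun a x y => by rw [map_smul]; exact hU.smul_left _ _ _,
          fun x y => hU.symm _ _⟩
      · intro x hx
        have := uForm_nondeg (F := F) (ι := Fin d) σ (e x) (fun y => by
          obtain ⟨y', rfl⟩ := e.surjective y
          exact hx y')
        exact (LinearEquiv.map_eq_zero_iff e).mp this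
      · intro u w
        show uForm σ (e (u + N u)) (e (w + N w)) = uForm σ (e u) (e w)
        rw [h0, h0, add_zero, add_zero]
    · push Not at h0
      obtain ⟨v, hv⟩ := h0
      obtain ⟨B, hB1, hB0⟩ := nilsq_exists_dual N hN v hv
      obtain ⟨hL, hL', hcompl, hfr⟩ := nilsq_split N hN v B hB1 hB0
      have hfr' : finrank F ↥(LinearMap.ker (B.comp N) ⊓ LinearMap.ker B) + 2 = d := by
        have := Submodule.finrank_add_eq_of_isCompl hcompl
        rw [hfr, hfin] at this
        omega
      obtain ⟨f'', hf'', hnd'', hsim''⟩ :=
        ih (finrank F ↥(LinearMap.ker (B.comp N) ⊓ LinearMap.ker B)) (by omega)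
          (↥(LinearMap.ker (B.comp N) ⊓ LinearMap.ker B)) (resInv N hL') rfl (fun u => by
          apply Subtype.ext
          rw [resInv_apply, resInv_apply, hN]
          rfl)
      have hmemπ : ∀ u, u - B (N u) • v - B u • N v
          ∈ LinearMap.ker (B.comp N) ⊓ LinearMap.ker B := by
        intro u
        rw [Submodule.mem_inf, LinearMap.mem_ker, LinearMap.mem_ker, LinearMap.comp_apply]
        constructor
        · simp only [map_sub, map_smul, hN, hB1, map_zero, smul_eq_mul, mul_one, mul_zero,
            sub_self]
        · simp only [map_sub, map_smul, hB1, hB0, smul_eq_mul, mul_one, mul_zero, sub_zero,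
            sub_self]
      obtain ⟨π, hπ⟩ : ∃ π : V →ₗ[F] ↥(LinearMap.ker (B.comp N) ⊓ LinearMap.ker B),
          ∀ u, (π u : V) = u - B (N u) • v - B u • N v :=
        ⟨LinearMap.codRestrict _
          (LinearMap.id - (B.comp N).smulRight v - B.smulRight (N v)) hmemπ, fun u => rfl⟩
      have hπL : ∀ w : ↥(LinearMap.ker (B.comp N) ⊓ LinearMap.ker B), π (w : V) = w := by
        intro w
        have hw := w.2
        rw [Submodule.mem_inf, LinearMap.mem_ker, LinearMap.mem_ker, LinearMap.comp_apply] at hw
        apply Subtype.ext
        rw [hπ, hw.1, hw.2, zero_smul, zero_smul, sub_zero, sub_zero]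
      have hπM : ∀ u, π (u + N u) = π u + resInv N hL' (π u) := by
        intro u
        apply Subtype.ext
        rw [hπ, Submodule.coe_add, resInv_apply, hπ]
        simp only [map_add, map_sub, map_smul, hN, add_zero, smul_zero, sub_zero,
          add_smul]
        abel
      refine ⟨fun u w => B (N u) * σ (B w) + B u * σ (B (N w)) + f'' (π u) (π w), ?_, ?_, ?_⟩
      · refine ⟨fun x y z => ?_, fun a x y => ?_, fun x y => ?_⟩
        · simp only [map_add, hf''.add_left]
          ring
        · simp only [map_smul, smul_eq_mul, hf''.smul_left]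
          ring
        · show B (N y) * σ (B x) + B y * σ (B (N x)) + f'' (π y) (π x)
              = 1 * σ (B (N x) * σ (B y) + B x * σ (B (N y)) + f'' (π x) (π y))
          rw [hf''.symm (π x) (π y)]
          simp only [map_add, map_mul, hσ, one_mul]
          ring
      · intro u hu
        have h1 : π u = 0 := by
          apply hnd''
          intro w
          have := hu (w : V)
          have hw := w.2
          rw [Submodule.mem_inf, LinearMap.mem_ker, LinearMap.mem_ker, LinearMap.comp_apply] at hw
          simp only at this
          rw [hw.1, hw.2, map_zero, mul_zero, mul_zero, zero_add, zero_add, hπL] at this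
          exact this
        have h2 := hu v
        have h3 := hu (N v)
        have hπv : π v = 0 := by
          apply Subtype.ext
          rw [hπ, hB1, hB0, one_smul, zero_smul, sub_self, sub_zero]
          rfl
        have hπNv : π (N v) = 0 := by
          apply Subtype.ext
          rw [hπ, hN, map_zero, hB1, zero_smul, one_smul, sub_zero, sub_self]
          rfl
        simp only at h2 h3
        rw [hπv, hf''.zero_right, hB0, hB1, map_zero, map_one, mul_zero, mul_one, zero_add,
          add_zero] at h2
        rw [hπNv, hf''.zero_right, hN, map_zero, hB1, map_zero, map_one, mul_zero, mul_one,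
          add_zero, add_zero] at h3
        have h4 := congrArg Subtype.val h1
        rw [hπ, h2, h3, zero_smul, zero_smul, sub_zero, sub_zero] at h4
        exact h4
      · intro u w
        simp only
        rw [hπM, hπM, hsim'']
        simp only [map_add, hN, add_zero]
        linear_combination (B (N u) * σ (B (N w))) * h2

end Cfsg.Agent.Lib.Helper94.Uf
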