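import Cfsg.Agent.Lib.Helper22.W2Defs

/-! Project W2 (S4707, helper22), piece KX8. -/

set_option autoImplicit false

namespace Cfsg.Agent.Lib.Helper94.W2

open Cfsg Cfsg.Agent.Lib.Helper22.W2
open scoped ComplexConjugate

universe u

/-- four elements of a three-element type: two of them coincide -/
theorem KX8_four {β : Type*} [Finite β] (h3 : Nat.card β = 3) (a b c d : β) :
    a = b ∨ a = c ∨ a = d ∨ b = c ∨ b = d ∨ c = d := by
  classical
  haveI := Fintype.ofFinite β
  by_contra hcon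
  simp only [not_or] at hcon
  obtain ⟨h1, h2, h4, h5, h6, h7⟩ := hcon
  have hc : ({a, b, c, d} : Finset β).card = 4 := by
    rw [Finset.card_insert_of_notMem, Finset.card_insert_of_notMem,
      Finset.card_insert_of_notMem, Finset.card_singleton]
    · simpa using h7
    · simp only [Finset.mem_insert, Finset.mem_singleton, not_or]
      exact ⟨h5, h6⟩
    · simp only [Finset.mem_insert, Finset.mem_singleton, not_or]
      exact ⟨h1, h2, h4⟩
  have hle := Finset.card_le_univ ({a, b, c, d} : Finset β)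
  rw [hc, ← Nat.card_eq_fintype_card, h3] at hle
  omega

variable {α : Type*} [Fintype α] [DecidableEq α]

/-- PIECE KX8 -/
theorem kx8 (hα : Fintype.card α = 10) (G : Subgroup (Equiv.Perm α)) (hnb : Nb G)
    (hsymm : ∀ x y : α, adj G x y → adj G y x)
    (hsmul : ∀ (g : G) (x y : α), adj G x y → adj G (g • x) (g • y))
    (hlam : ∀ x y y' : α, adj G x y → adj G x y' → ¬ adj G y y')
    (hmu : ∀ x γ : α, γ ≠ x → ¬ adj G x γ → ∃! y : α, adj G x y ∧ adj G y γ) (x : α) :
    Nat.card (Kx G x) ∣ 8 := by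
  classical
  have hN3 : ∀ y : α, Nat.card {w : α // adj G y w} = 3 := fun y => (hnb y).1
  have L1 : ∀ y w1 w2 w3 : α, adj G x y → adj G y w1 → adj G y w2 → adj G y w3 →
      w1 ≠ x → w2 ≠ x → w3 ≠ x → w1 = w2 ∨ w1 = w3 ∨ w2 = w3 := by
    intro y w1 w2 w3 hy h1 h2 h3 n1 n2 n3
    have hyx := hsymm x y hy
    rcases KX8_four (hN3 y) ⟨x, hyx⟩ ⟨w1, h1⟩ ⟨w2, h2⟩ ⟨w3, h3⟩ with h | h | h | h | h | h
    · exact absurd (congrArg Subtype.val h).symm n1
    · exact absurd (congrArg Subtype.val h).symm n2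
    · exact absurd (congrArg Subtype.val h).symm n3
    · exact Or.inl (congrArg Subtype.val h)
    · exact Or.inr (Or.inl (congrArg Subtype.val h))
    · exact Or.inr (Or.inr (congrArg Subtype.val h))
  have hfix : ∀ k : Kx G x, (k : G) • x = x := fun k => k.2.1
  have hfixN : ∀ (k : Kx G x) (y : α), adj G x y → (k : G) • y = y := fun k y hy => k.2.2 y hy
  have hpres : ∀ (k : Kx G x) (y w : α), adj G x y → adj G y w → adj G y ((k : G) • w) := by
    intro k y w hy hw
    have h1 := hsmul (k : G) y w hw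
    rwa [hfixN k y hy] at h1
  have hinjk : ∀ (k : Kx G x) (u v : α), (k : G) • u = (k : G) • v → u = v :=
    fun k u v h => MulAction.injective (k : G) h
  have hne : ∀ (k : Kx G x) (w : α), w ≠ x → (k : G) • w ≠ x := by
    intro k w hw h
    apply hw
    apply hinjk k
    rw [h, hfix k]
  have hcover : ∀ γ : α, γ = x ∨ adj G x γ ∨ (γ ≠ x ∧ ∃ y, adj G x y ∧ adj G y γ) := by
    intro γ
    by_cases h1 : γ = x
    · exact Or.inl h1
    by_cases h2 : adj G x γ
    · exact Or.inr (Or.inl h2)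
    obtain ⟨y, ⟨hy1, hy2⟩, -⟩ := hmu x γ h1 h2
    exact Or.inr (Or.inr ⟨h1, y, hy1, hy2⟩)
  have hdet : ∀ (k : Kx G x) (y a0 γ : α), adj G x y → adj G y a0 → adj G y γ → a0 ≠ x →
      γ ≠ x → γ ≠ a0 →
      ((k : G) • a0 = a0 → (k : G) • γ = γ) ∧ ((k : G) • a0 ≠ a0 → (k : G) • γ = a0) := by
    intro k y a0 γ hy ha0 hγ na0 nγ hne0
    constructor
    · intro hfa
      rcases L1 y a0 γ ((k : G) • γ) hy ha0 hγ (hpres k y γ hy hγ) na0 nγ (hne k γ nγ)
        with h | h | h
      · exact absurd h.symm hne0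
      · exact absurd (hinjk k a0 γ (by rw [hfa]; exact h)).symm hne0
      · exact h.symm
    · intro hfa
      have hka : (k : G) • a0 = γ := by
        rcases L1 y a0 γ ((k : G) • a0) hy ha0 hγ (hpres k y a0 hy ha0) na0 nγ (hne k a0 na0)
          with h | h | h
        · exact absurd h.symm hne0
        · exact absurd h.symm hfa
        · exact h.symm
      rcases L1 y a0 γ ((k : G) • γ) hy ha0 hγ (hpres k y γ hy hγ) na0 nγ (hne k γ nγ)
        with h | h | h
      · exact absurd h.symm hne0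
      · exact h.symm
      · exact absurd (hinjk k a0 γ (by rw [hka]; exact h)).symm hne0
  -- every element of `Kx` is an involution
  have hsq : ∀ k : Kx G x, k * k = 1 := by
    intro k
    apply Subtype.ext
    apply Subtype.ext
    apply Equiv.ext
    intro γ
    change (k : G) • ((k : G) • γ) = γ
    rcases hcover γ with h0 | h0 | ⟨hγ, y, hy, hyγ⟩
    · rw [h0, hfix k, hfix k]
    · rw [hfixN k γ h0, hfixN k γ h0]
    · have hkγ := hpres k y γ hy hyγ
      have hkkγ := hpres k y _ hy hkγ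
      rcases L1 y γ ((k : G) • γ) ((k : G) • ((k : G) • γ)) hy hyγ hkγ hkkγ hγ (hne k γ hγ)
        (hne k _ (hne k γ hγ)) with h | h | h
      · have h' := h.symm
        rw [h', h']
      · exact h.symm
      · have h' := (hinjk k _ _ h).symm
        rw [h', h']
  have hP : IsPGroup 2 (Kx G x) := by
    intro k
    refine ⟨1, ?_⟩
    rw [pow_one, pow_two]
    exact hsq k
  -- a point `a y ≠ x` adjacent to `y`, for every neighbour `y` of `x`
  have hex : ∀ y : {y : α // adj G x y}, ∃ w : α, adj G y.1 w ∧ w ≠ x := by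
    intro y
    have hyx := hsymm x y.1 y.2
    haveI : Nontrivial {w : α // adj G y.1 w} := by
      rw [← Finite.one_lt_card_iff_nontrivial, hN3]
      norm_num
    obtain ⟨w, hw⟩ := exists_ne (⟨x, hyx⟩ : {w : α // adj G y.1 w})
    exact ⟨w.1, w.2, fun h => hw (Subtype.ext h)⟩
  choose a ha1 ha2 using hex
  have hcard8 : Nat.card ({y : α // adj G x y} → Bool) = 8 := by
    rw [Nat.card_fun, hN3 x, Nat.card_eq_fintype_card, Fintype.card_bool]
    norm_num
  have hinj : Function.Injective (fun (k : Kx G x) (y : {y : α // adj G x y}) =>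
      decide ((k : G) • a y = a y)) := by
    intro k k' hkk'
    have h0 : ∀ y : {y : α // adj G x y}, ((k : G) • a y = a y ↔ (k' : G) • a y = a y) := by
      intro y
      have h2 := congrFun hkk' y
      simpa only [decide_eq_decide] using h2
    have h1 : ∀ y : {y : α // adj G x y}, (k : G) • a y = (k' : G) • a y := by
      intro y
      by_cases h3 : (k : G) • a y = a y
      · rw [h3, (h0 y).mp h3]
      · have h4 : ¬ (k' : G) • a y = a y := fun h => h3 ((h0 y).mpr h)
        rcases L1 y.1 (a y) ((k : G) • a y) ((k' : G) • a y) y.2 (ha1 y)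
          (hpres k y.1 (a y) y.2 (ha1 y)) (hpres k' y.1 (a y) y.2 (ha1 y)) (ha2 y)
          (hne k _ (ha2 y)) (hne k' _ (ha2 y)) with h | h | h
        · exact absurd h.symm h3
        · exact absurd h.symm h4
        · exact h
    apply Subtype.ext
    apply Subtype.ext
    apply Equiv.ext
    intro γ
    change (k : G) • γ = (k' : G) • γ
    rcases hcover γ with h5 | h5 | ⟨hγ, y, hy, hyγ⟩
    · rw [h5, hfix k, hfix k']
    · rw [hfixN k γ h5, hfixN k' γ h5]
    · by_cases hγa : γ = a ⟨y, hy⟩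
      · rw [hγa]
        exact h1 ⟨y, hy⟩
      · have d1 := hdet k y (a ⟨y, hy⟩) γ hy (ha1 ⟨y, hy⟩) hyγ (ha2 ⟨y, hy⟩) hγ hγa
        have d2 := hdet k' y (a ⟨y, hy⟩) γ hy (ha1 ⟨y, hy⟩) hyγ (ha2 ⟨y, hy⟩) hγ hγa
        by_cases h3 : (k : G) • a ⟨y, hy⟩ = a ⟨y, hy⟩
        · rw [d1.1 h3, d2.1 ((h0 ⟨y, hy⟩).mp h3)]
        · have h4 : ¬ (k' : G) • a ⟨y, hy⟩ = a ⟨y, hy⟩ := fun h => h3 ((h0 ⟨y, hy⟩).mpr h)
          rw [d1.2 h3, d2.2 h4]
  obtain ⟨n, hn⟩ := IsPGroup.iff_card.mp hP
  have hle : Nat.card (Kx G x) ≤ 8 := by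
    have h1 := Nat.card_le_card_of_injective _ hinj
    rwa [hcard8] at h1
  rw [hn] at hle ⊢
  have hn3 : n ≤ 3 := by
    by_contra hcon
    have h16 : 16 ≤ 2 ^ n := by
      calc 16 = 2 ^ 4 := by norm_num
        _ ≤ 2 ^ n := Nat.pow_le_pow_right (by norm_num) (by omega)
    omega
  exact (pow_dvd_pow 2 hn3 : 2 ^ n ∣ 2 ^ 3)

end Cfsg.Agent.Lib.Helper94.W2
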